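import Cfsg.Agent.Lib.Helper30.MonsterCross2

/-!
Groups of Monster type: preparations for the centralizer of an involution `t` of `Q` that is not
conjugate to `z` (the commutator pairing on `Q`, re-coordinatisation of the lattice identification,
the classes of such involutions, and two centralizer lemmas).
-/

set_option autoImplicit false

namespace Cfsg.Agent.Lib.Helper30

open Cfsg Cfsg.Spor Cfsg.Agent.Lib.Helper92 Cfsg.Agent.Lib.Helper7

namespace LeechQuadData

variable {H : Type*} [Group H] {Q : Subgroup H} {ζ : H}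
  {ψ : leechLattice → ↥Q ⧸ Subgroup.center ↥Q} (D : LeechQuadData Q ζ ψ)

include D

/-- Lifts of the classes of `v` and `w` commute iff the inner product of `v` and `w` is divisible
by `16`. -/
theorem comm_iff_dvd (v w : leechLattice) (a b : ↥Q) (ha : ψ v = QuotientGroup.mk a)
    (hb : ψ w = QuotientGroup.mk b) :
    (a : H) * (b : H) = (b : H) * (a : H) ↔
      (16 : ℤ) ∣ dotInt (v : GolayPt → ℤ) (w : GolayPt → ℤ) := by
  have hab : ψ (v + w) = QuotientGroup.mk (a * b) := by rw [D.hadd, ha, hb]; rfl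
  have q1 := D.qf_eq v a ha
  have q2 := D.qf_eq w b hb
  have q3 := D.qf_eq (v + w) (a * b) hab
  rw [D.qf_formula] at q1 q2 q3
  have s : sqSign (((a * b : ↥Q) : H)) =
      sqSign (a : H) * sqSign (b : H) * commSign (a : H) (b : H) := D.d.sqSign_mul a.2 b.2
  obtain ⟨k1, hk1⟩ := sqNorm_dvd v.2
  obtain ⟨k2, hk2⟩ := sqNorm_dvd w.2
  obtain ⟨k3, hk3⟩ := dotInt_dvd v.2 w.2
  have e3 : sqNorm ((v + w : leechLattice) : GolayPt → ℤ) = 16 * (k1 + k2 + k3) := by
    have : ((v + w : leechLattice) : GolayPt → ℤ) = (v : GolayPt → ℤ) + (w : GolayPt → ℤ) := rfl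
    rw [this, sqNorm_add, hk1, hk2, hk3]; ring
  rw [hk1, Int.mul_ediv_cancel_left _ (by norm_num)] at q1
  rw [hk2, Int.mul_ediv_cancel_left _ (by norm_num)] at q2
  rw [e3, Int.mul_ediv_cancel_left _ (by norm_num)] at q3
  rw [s] at q3
  push_cast at q3
  rw [q1, q2] at q3
  have key : ((k3 : ℤ) : ZMod 2) = sgnBit (commSign (a : H) (b : H)) := by
    rcases sqSign_eq_or (a : H) with h1 | h1 <;> rcases sqSign_eq_or (b : H) with h2 | h2 <;>
      rcases commSign_eq_or (a : H) (b : H) with h4 | h4 <;> rw [h1, h2, h4] at q3 <;>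
      rw [h4] <;> revert q3 <;> generalize ((k3 : ℤ) : ZMod 2) = x <;> revert x <;> decide
  rw [hk3]
  constructor
  · intro hc
    rw [commSign_of_comm hc] at key
    have h0 : ((k3 : ℤ) : ZMod 2) = 0 := by rw [key]; rfl
    obtain ⟨m, hm⟩ := (ZMod.intCast_zmod_eq_zero_iff_dvd k3 2).1 h0
    exact ⟨m, by rw [hm]; ring⟩
  · intro hd
    by_contra hc
    rw [commSign_of_not_comm hc] at key
    obtain ⟨m, hm⟩ := hd
    have h4 : (2 : ℤ) ∣ k3 := ⟨m, by omega⟩
    have h0 : ((k3 : ℤ) : ZMod 2) = 0 := (ZMod.intCast_zmod_eq_zero_iff_dvd k3 2).2 h4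
    rw [h0] at key
    revert key
    decide

/-- An element lying over the class of a minimal vector is not central. -/
theorem noncentral_of_norm32 (v : leechLattice) (x : ↥Q) (hv : ψ v = QuotientGroup.mk x)
    (h32 : sqNorm (v : GolayPt → ℤ) = 32) : (x : H) ≠ 1 ∧ (x : H) ≠ ζ := by
  have key : ¬ ((x : H) = 1 ∨ (x : H) = ζ) := by
    intro hx
    have hc : x ∈ Subgroup.center ↥Q := by
      rw [Subgroup.mem_center_iff]
      intro q
      apply Subtype.ext
      show (q : H) * (x : H) = (x : H) * (q : H)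
      rcases hx with h | h
      · rw [h, mul_one, one_mul]
      · rw [h]; exact (D.d.hzc q q.2).symm
    have h1 : ψ v = 1 := by
      rw [hv]; exact (QuotientGroup.eq_one_iff x).2 hc
    obtain ⟨w, hw⟩ := (D.hker v).1 h1
    have h2 : (v : GolayPt → ℤ) = (w : GolayPt → ℤ) + (w : GolayPt → ℤ) := congrArg Subtype.val hw
    rw [h2, sqNorm_add, dotInt_self] at h32
    by_cases hw0 : (w : GolayPt → ℤ) = 0
    · rw [hw0] at h32
      simp [sqNorm] at h32
    · have := sqNorm_ge w.2 hw0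
      omega
  exact ⟨fun h => key (Or.inl h), fun h => key (Or.inr h)⟩

end LeechQuadData

section

variable {G : Type*} [Group G]

/-- Re-coordinatisation of the lattice identification by a lattice automorphism. -/
theorem isLeechModTwoIso_conj (z : G)
    (Q : Subgroup (Subgroup.centralizer ({z} : Set G))) [Q.Normal]
    (e : (Subgroup.centralizer ({z} : Set G)) ⧸ Q ≃* Spor.Co1)
    (ψ : leechLattice → Q ⧸ Subgroup.center Q) (hψ : Cfsg.IsLeechModTwoIso Q e ψ) (τ : Co0) :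
    Cfsg.IsLeechModTwoIso Q (e.trans (MulAut.conj (QuotientGroup.mk τ : Spor.Co1)))
      (fun v => ψ (τ⁻¹ • v)) := by
  obtain ⟨hadd, hsurj, hker, hint⟩ := hψ
  refine ⟨?_, ?_, ?_, ?_⟩
  · intro v w
    show ψ (τ⁻¹ • (v + w)) = ψ (τ⁻¹ • v) * ψ (τ⁻¹ • w)
    rw [← hadd]
    congr 1
    exact co0_map_add (τ⁻¹).2 v w
  · intro y
    obtain ⟨v, hv⟩ := hsurj y
    refine ⟨τ • v, ?_⟩
    show ψ (τ⁻¹ • τ • v) = y
    rw [inv_smul_smul]; exact hv
  · intro v
    show ψ (τ⁻¹ • v) = 1 ↔ _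
    rw [hker]
    constructor
    · rintro ⟨w, hw⟩
      refine ⟨τ • w, ?_⟩
      have h1 : v = τ • (τ⁻¹ • v) := (smul_inv_smul τ v).symm
      rw [h1, hw]
      exact co0_map_add τ.2 w w
    · rintro ⟨w, rfl⟩
      exact ⟨τ⁻¹ • w, co0_map_add (τ⁻¹).2 w w⟩
  · intro h g hg v q hq
    have hg0 : (QuotientGroup.mk g : Spor.Co1) =
        QuotientGroup.mk τ * e (QuotientGroup.mk h) * (QuotientGroup.mk τ : Spor.Co1)⁻¹ := hg
    have hg' : (QuotientGroup.mk (τ⁻¹ * g * τ) : Spor.Co1) = e (QuotientGroup.mk h) := by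
      rw [QuotientGroup.mk_mul, QuotientGroup.mk_mul, QuotientGroup.mk_inv, hg0]; group
    have h1 := hint h (τ⁻¹ * g * τ) hg' (τ⁻¹ • v) q hq
    show ψ (τ⁻¹ • g • v) = _
    rw [← h1]
    congr 1
    rw [mul_smul, mul_smul, smul_inv_smul]

/-- In a group with large extraspecial data `(Q, z)`, an element centralizing `z` and the involution
`t` of `Q` and acting trivially on `C_Q(t)` modulo `t` has order dividing `8`. -/
theorem LargeData.cent_quot_pow [Finite G] {Q : Subgroup G} {z : G} (L : LargeData Q z) {t : G}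
    (ht : t ∈ Q) (ht1 : t ≠ 1) (htz : t ≠ z) (htt : t * t = 1)
    {y : G} (hyz : y * z = z * y) (hyt : y * t = t * y)
    (hy : ∀ p ∈ Q, p * t = t * p → y * p * y⁻¹ * p⁻¹ = 1 ∨ y * p * y⁻¹ * p⁻¹ = t) :
    y ^ 8 = 1 := by
  obtain ⟨c, hc⟩ : ∃ c : G, c = y * y := ⟨_, rfl⟩
  have hcz : c * z = z * c := by
    rw [hc]
    calc y * y * z = y * (y * z) := by group
      _ = y * (z * y) := by rw [hyz]
      _ = (y * z) * y := by group
      _ = z * (y * y) := by rw [hyz]; group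
  have hcP : ∀ p ∈ Q, p * t = t * p → c * p = p * c := by
    intro p hp hpt
    rw [hc]
    rcases hy p hp hpt with h | h
    · have h1 : y * p = p * y := by
        calc y * p = (y * p * y⁻¹ * p⁻¹) * (p * y) := by group
          _ = p * y := by rw [h, one_mul]
      calc y * y * p = y * (y * p) := by group
        _ = y * (p * y) := by rw [h1]
        _ = (y * p) * y := by group
        _ = p * (y * y) := by rw [h1]; group
    · have h1 : y * p = t * (p * y) := by
        calc y * p = (y * p * y⁻¹ * p⁻¹) * (p * y) := by group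
          _ = t * (p * y) := by rw [h]
      calc y * y * p = y * (y * p) := by group
        _ = y * (t * (p * y)) := by rw [h1]
        _ = (y * t) * (p * y) := by group
        _ = (t * y) * (p * y) := by rw [hyt]
        _ = t * (y * p) * y := by group
        _ = t * (t * (p * y)) * y := by rw [h1]
        _ = (t * t) * (p * (y * y)) := by group
        _ = p * (y * y) := by rw [htt, one_mul]
  obtain ⟨q₀, hq₀, hq₀t⟩ := L.d.exists_conj_eq ht ht1 htz
  have hzq₀ : z * q₀ = q₀ * z := L.d.hzc q₀ hq₀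
  have hzt : z * t = t * z := L.d.hzc t ht
  -- `q₀⁻¹ t q₀ = z t`
  have hq₀t' : q₀⁻¹ * t * q₀ = z * t := by
    have h1 : t = q₀⁻¹ * (z * t) * q₀ := by rw [← hq₀t]; group
    have h2 : q₀⁻¹ * (z * t) * q₀ = z * (q₀⁻¹ * t * q₀) := by
      calc q₀⁻¹ * (z * t) * q₀ = q₀⁻¹ * (z * q₀) * (q₀⁻¹ * t * q₀) := by group
        _ = q₀⁻¹ * (q₀ * z) * (q₀⁻¹ * t * q₀) := by rw [hzq₀]
        _ = z * (q₀⁻¹ * t * q₀) := by group
    calc q₀⁻¹ * t * q₀ = (z * z) * (q₀⁻¹ * t * q₀) := by rw [L.d.hzz, one_mul]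
      _ = z * (z * (q₀⁻¹ * t * q₀)) := by group
      _ = z * t := by rw [← h2, ← h1]
  obtain ⟨w, hw⟩ : ∃ w : G, w = q₀⁻¹ * (c * q₀ * c⁻¹) := ⟨_, rfl⟩
  have hwQ : w ∈ Q := by
    rw [hw]
    exact Q.mul_mem (Q.inv_mem hq₀) (L.hN c hcz q₀ hq₀)
  have hwP : ∀ a ∈ Q, a * t = t * a → w * a = a * w := by
    intro p hp hpt
    have hp' : q₀ * p * q₀⁻¹ ∈ Q := Q.mul_mem (Q.mul_mem hq₀ hp) (Q.inv_mem hq₀)
    have hp't : (q₀ * p * q₀⁻¹) * t = t * (q₀ * p * q₀⁻¹) := by
      have hzp : z * p = p * z := L.d.hzc p hp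
      calc (q₀ * p * q₀⁻¹) * t = q₀ * p * (q₀⁻¹ * t * q₀) * q₀⁻¹ := by group
        _ = q₀ * p * (z * t) * q₀⁻¹ := by rw [hq₀t']
        _ = q₀ * (p * z) * t * q₀⁻¹ := by group
        _ = q₀ * (z * p) * t * q₀⁻¹ := by rw [hzp]
        _ = q₀ * z * (p * t) * q₀⁻¹ := by group
        _ = q₀ * z * (t * p) * q₀⁻¹ := by rw [hpt]
        _ = (q₀ * (z * t) * q₀⁻¹) * (q₀ * p * q₀⁻¹) := by group
        _ = (q₀ * (q₀⁻¹ * t * q₀) * q₀⁻¹) * (q₀ * p * q₀⁻¹) := by rw [hq₀t']
        _ = t * (q₀ * p * q₀⁻¹) := by group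
    have h1 := hcP p hp hpt
    have h2 := hcP _ hp' hp't
    have h1' : c⁻¹ * p = p * c⁻¹ := by
      calc c⁻¹ * p = c⁻¹ * (p * c) * c⁻¹ := by group
        _ = c⁻¹ * (c * p) * c⁻¹ := by rw [h1]
        _ = p * c⁻¹ := by group
    rw [hw]
    calc q₀⁻¹ * (c * q₀ * c⁻¹) * p = q₀⁻¹ * c * q₀ * (c⁻¹ * p) := by group
      _ = q₀⁻¹ * c * q₀ * (p * c⁻¹) := by rw [h1']
      _ = q₀⁻¹ * (c * (q₀ * p * q₀⁻¹)) * q₀ * c⁻¹ := by group
      _ = q₀⁻¹ * ((q₀ * p * q₀⁻¹) * c) * q₀ * c⁻¹ := by rw [h2]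
      _ = p * (q₀⁻¹ * (c * q₀ * c⁻¹)) := by group
  have hcq₀ : c * q₀ * c⁻¹ = q₀ * w := by rw [hw]; group
  -- squares
  have hsq : q₀ * q₀ = 1 ∨ q₀ * q₀ = z := L.d.sq_mem hq₀
  have hcsq : (c * q₀ * c⁻¹) * (c * q₀ * c⁻¹) = q₀ * q₀ := by
    have h1 : (c * q₀ * c⁻¹) * (c * q₀ * c⁻¹) = c * (q₀ * q₀) * c⁻¹ := by group
    rw [h1]
    rcases hsq with h | h
    · rw [h]; group
    · rw [h, hcz]; group
  have hsqt : (q₀ * t) * (q₀ * t) = z * (q₀ * q₀) := by
    have h1 : (q₀ * q₀) * t = t * (q₀ * q₀) := by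
      rcases hsq with h | h
      · rw [h, one_mul, mul_one]
      · rw [h, hzt]
    calc (q₀ * t) * (q₀ * t) = (q₀ * t * q₀⁻¹) * ((q₀ * q₀) * t) := by group
      _ = (z * t) * (t * (q₀ * q₀)) := by rw [hq₀t, h1]
      _ = z * (t * t) * (q₀ * q₀) := by group
      _ = z * (q₀ * q₀) := by rw [htt, mul_one]
  have hz1 := L.d.hz1
  have hzz := L.d.hzz
  have hne : z * (q₀ * q₀) ≠ q₀ * q₀ := by
    intro h
    apply hz1
    calc z = (z * (q₀ * q₀)) * (q₀ * q₀)⁻¹ := by group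
      _ = 1 := by rw [h]; group
  have hw' : w = 1 ∨ w = z := by
    rcases L.d.cent_cent ht ht1 htz htt hwQ hwP with h | h | h | h
    · exact Or.inl h
    · exact Or.inr h
    · exfalso
      rw [hcq₀, h, hsqt] at hcsq
      exact hne hcsq
    · exfalso
      rw [hcq₀, h] at hcsq
      have h2 : (q₀ * (z * t)) * (q₀ * (z * t)) = z * (q₀ * q₀) := by
        calc (q₀ * (z * t)) * (q₀ * (z * t)) = q₀ * (z * t) * (q₀ * z) * t := by group
          _ = q₀ * (z * t) * (z * q₀) * t := by rw [hzq₀]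
          _ = q₀ * z * (t * z) * q₀ * t := by group
          _ = q₀ * z * (z * t) * q₀ * t := by rw [hzt]
          _ = q₀ * (z * z) * t * q₀ * t := by group
          _ = (q₀ * t) * (q₀ * t) := by rw [hzz]; group
          _ = z * (q₀ * q₀) := hsqt
      rw [h2] at hcsq
      exact hne hcsq
  -- `c * c` commutes with `q₀`
  have hccq₀ : (c * c) * q₀ = q₀ * (c * c) := by
    have hcw : c * w = w * c := by
      rcases hw' with h | h
      · rw [h, mul_one, one_mul]
      · rw [h, hcz]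
    have hww : w * w = 1 := by
      rcases hw' with h | h
      · rw [h, mul_one]
      · rw [h, hzz]
    have h1 : c * q₀ = q₀ * w * c := by
      calc c * q₀ = (c * q₀ * c⁻¹) * c := by group
        _ = q₀ * w * c := by rw [hcq₀]
    calc (c * c) * q₀ = c * (c * q₀) := by group
      _ = c * (q₀ * w * c) := by rw [h1]
      _ = (c * q₀) * w * c := by group
      _ = (q₀ * w * c) * w * c := by rw [h1]
      _ = q₀ * w * (c * w) * c := by group
      _ = q₀ * w * (w * c) * c := by rw [hcw]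
      _ = q₀ * (w * w) * (c * c) := by group
      _ = q₀ * (c * c) := by rw [hww, mul_one]
  have hccP : ∀ p ∈ Q, p * t = t * p → (c * c) * p = p * (c * c) := by
    intro p hp hpt
    have h1 := hcP p hp hpt
    calc (c * c) * p = c * (c * p) := by group
      _ = c * (p * c) := by rw [h1]
      _ = (c * p) * c := by group
      _ = p * (c * c) := by rw [h1]; group
  have hccQ : ∀ q ∈ Q, (c * c) * q = q * (c * c) := by
    intro q hq
    rcases L.d.conj_eq_or hq ht with h | h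
    · apply hccP q hq
      calc q * t = (q * t * q⁻¹) * q := by group
        _ = t * q := by rw [h]
    · have h1 := ClassTwoData.inv_mul_comm hq₀t h
      have h2 := hccP (q₀⁻¹ * q) (Q.mul_mem (Q.inv_mem hq₀) hq) h1
      calc (c * c) * q = ((c * c) * q₀) * (q₀⁻¹ * q) := by group
        _ = (q₀ * (c * c)) * (q₀⁻¹ * q) := by rw [hccq₀]
        _ = q₀ * ((c * c) * (q₀⁻¹ * q)) := by group
        _ = q₀ * ((q₀⁻¹ * q) * (c * c)) := by rw [h2]
        _ = q * (c * c) := by group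
  have h8 : y ^ 8 = (c * c) * (c * c) := by
    rw [hc]; simp only [pow_succ, pow_zero, one_mul, mul_assoc]
  rw [h8]
  rcases L.hC (c * c) hccQ with h | h
  · rw [h, mul_one]
  · rw [h, hzz]

end

end Cfsg.Agent.Lib.Helper30
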