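import Cfsg.Agent.Lib.Helper30.BabyFusion

/-!
Groups of Monster type: the abstract setting for the centralizer of an involution `t` of `Q` lying
over the class of the minimal vector `leechU`, in a group `X` onto whose involution centralizer
`C_X(z')` the joint centralizer of `z` and `t` maps with kernel `{1, t}`.  Part 1: the homomorphism
onto the stabilizer of `leechU` and the extraspecial kernel.
-/

set_option autoImplicit false

namespace Cfsg.Agent.Lib.Helper30

open Cfsg Cfsg.Spor Cfsg.Agent.Lib.Helper92 Cfsg.Agent.Lib.Helper7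

theorem sqNorm_leechU : sqNorm ((leechU : leechLattice) : GolayPt → ℤ) = 32 := by
  show sqNorm vecU = 32
  rw [vecU_eq, sqNorm_vecOf]
  exact cL_norm.1

theorem co2_le : Spor.Co2 ≤ Co0 := inf_le_left

theorem co2_fix (σ : ↥Spor.Co2) : (σ : Equiv.Perm leechLattice) leechU = leechU := σ.2.2

/-- The map from the stabilizer of `leechU` to the automorphism group modulo its centre. -/
def coTwoHom : ↥Spor.Co2 →* Spor.Co1 :=
  (QuotientGroup.mk' (Subgroup.center Co0)).comp (Subgroup.inclusion co2_le)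

theorem coTwoHom_apply (σ : ↥Spor.Co2) :
    coTwoHom σ = QuotientGroup.mk (⟨(σ : Equiv.Perm leechLattice), co2_le σ.2⟩ : Co0) := rfl

theorem coTwoHom_injective : Function.Injective coTwoHom := by
  rw [injective_iff_map_eq_one]
  intro σ hσ
  have h1 : (⟨(σ : Equiv.Perm leechLattice), co2_le σ.2⟩ : Co0) ∈ Subgroup.center Co0 :=
    (QuotientGroup.eq_one_iff _).1 hσ
  rcases center_co0 _ h1 with h | h
  · have h2 : (σ : Equiv.Perm leechLattice) = 1 :=
      congrArg (fun c : Co0 => (c : Equiv.Perm leechLattice)) h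
    exact Subtype.ext h2
  · exfalso
    have h2 : (σ : Equiv.Perm leechLattice) = negCo :=
      congrArg (fun c : Co0 => (c : Equiv.Perm leechLattice)) h
    have h3 := co2_fix σ
    rw [h2, negCo_apply] at h3
    have h4 : -(vecU none) = vecU none := congrArg (fun w : leechLattice => (w : GolayPt → ℤ) none) h3
    have h5 : vecU none = 4 := by decide
    omega

section

variable {G : Type*} [Group G]

/-- The joint centralizer of `z` and `t`. -/
abbrev jointCent (z t : G) : Subgroup G :=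
  Subgroup.centralizer ({z} : Set G) ⊓ Subgroup.centralizer ({t} : Set G)

/-- The inclusion of the joint centralizer of `z` and `t` into the centralizer of `z`. -/
def jointIncl (z t : G) : ↥(jointCent z t) →* ↥(Subgroup.centralizer ({z} : Set G)) :=
  Subgroup.inclusion inf_le_left

theorem jointIncl_coe (z t : G) (k : ↥(jointCent z t)) :
    ((jointIncl z t k : ↥(Subgroup.centralizer ({z} : Set G))) : G) = (k : G) := rfl

/-- The image in `G` of a subgroup of the centralizer of `z`. -/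
abbrev qImage {z : G} (Q : Subgroup (Subgroup.centralizer ({z} : Set G))) : Subgroup G :=
  Q.map (Subgroup.centralizer ({z} : Set G)).subtype

/-- The abstract setting. -/
structure BabyCtx (z : G)
    (Q : Subgroup (Subgroup.centralizer ({z} : Set G))) [Q.Normal]
    (e : (Subgroup.centralizer ({z} : Set G)) ⧸ Q ≃* Spor.Co1)
    (ψ : leechLattice → Q ⧸ Subgroup.center Q) (t : G)
    {X : Type*} [Group X] (z' : X)
    (θ : ↥(jointCent z t) →* ↥(Subgroup.centralizer ({z'} : Set X))) : Prop where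
  hz : orderOf z = 2
  hF : Cfsg.generalizedFittingSubgroup (Subgroup.centralizer ({z} : Set G)) = Q
  hES : Cfsg.IsExtraspecial 2 Q
  hcard : Nat.card Q = 2 ^ 25
  hψ : Cfsg.IsLeechModTwoIso Q e ψ
  htc : t ∈ Subgroup.centralizer ({z} : Set G)
  htQ : (⟨t, htc⟩ : Subgroup.centralizer ({z} : Set G)) ∈ Q
  hψt : ψ leechU = QuotientGroup.mk ⟨⟨t, htc⟩, htQ⟩
  hθs : Function.Surjective θ
  hθk : ∀ k : ↥(jointCent z t), θ k = 1 ↔ (k : G) = 1 ∨ (k : G) = t
  hθz : ∀ k : ↥(jointCent z t), (k : G) = z →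
    ((θ k : ↥(Subgroup.centralizer ({z'} : Set X))) : X) = z'
  hfus : ∃ g' : X, g' * z' * g'⁻¹ ≠ z' ∧ ∃ k : ↥(jointCent z t), (k : G) ∈ qImage Q ∧
    ((θ k : ↥(Subgroup.centralizer ({z'} : Set X))) : X) = g' * z' * g'⁻¹

namespace BabyCtx

variable {z : G} {Q : Subgroup (Subgroup.centralizer ({z} : Set G))} [Q.Normal]
    {e : (Subgroup.centralizer ({z} : Set G)) ⧸ Q ≃* Spor.Co1}
    {ψ : leechLattice → Q ⧸ Subgroup.center Q} {t : G}
    {X : Type*} [Group X] {z' : X}
    {θ : ↥(jointCent z t) →* ↥(Subgroup.centralizer ({z'} : Set X))}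
    (B : BabyCtx z Q e ψ t z' θ)

include B

theorem quad [Finite G] :
    LeechQuadData Q (⟨z, mem_cent_sing.2 rfl⟩ : Subgroup.centralizer ({z} : Set G)) ψ :=
  leechQuadData_of_monster z Q B.hz B.hF B.hES (by rw [B.hcard]; norm_num) e ψ B.hψ _ rfl

theorem large [Finite G] : LargeData (qImage Q) z := by
  have D := B.quad
  have hB : Subgroup.centralizer (Q : Set (Subgroup.centralizer ({z} : Set G))) ≤ Q := by
    have := centralizer_generalizedFittingSubgroup_le (Subgroup.centralizer ({z} : Set G))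
    rwa [B.hF] at this
  exact largeData_map z Q hB _ rfl D.d (by rw [B.hcard]; norm_num)

theorem t_props [Finite G] : t ≠ 1 ∧ t ≠ z ∧ t * t = 1 := by
  have D := B.quad
  obtain ⟨h1, h2⟩ := D.noncentral_of_norm32 leechU ⟨⟨t, B.htc⟩, B.htQ⟩ B.hψt sqNorm_leechU
  have h3 := (D.sq_eq_one_iff leechU ⟨⟨t, B.htc⟩, B.htQ⟩ B.hψt).2
    ⟨1, by rw [sqNorm_leechU]; norm_num⟩
  exact ⟨fun h => h1 (Subtype.ext h), fun h => h2 (Subtype.ext h), congrArg Subtype.val h3⟩

omit B in
theorem mem_qImage (k : ↥(jointCent z t)) : (k : G) ∈ qImage Q ↔ jointIncl z t k ∈ Q := by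
  constructor
  · rintro ⟨y, hy, hyk⟩
    have : jointIncl z t k = y := Subtype.ext hyk.symm
    rw [this]; exact hy
  · intro h
    exact ⟨jointIncl z t k, h, rfl⟩

omit B in
theorem exists_K_of_mem {q : G} (hq : q ∈ qImage Q) (hqt : q * t = t * q) :
    ∃ k : ↥(jointCent z t), (k : G) = q := by
  obtain ⟨y, -, rfl⟩ := hq
  exact ⟨⟨y, ⟨y.2, mem_cent_sing.2 hqt⟩⟩, rfl⟩

theorem tQ [Finite G] : t ∈ qImage Q := ⟨⟨t, B.htc⟩, B.htQ, rfl⟩

/-- Every element of the joint centralizer lies over an automorphism fixing `leechU`. -/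
theorem exists_coTwo [Finite G] (k : ↥(jointCent z t)) :
    ∃ σ : ↥Spor.Co2, coTwoHom σ = e (QuotientGroup.mk (jointIncl z t k)) := by
  have D := B.quad
  obtain ⟨σ₀, hσ₀⟩ := QuotientGroup.mk_surjective (e (QuotientGroup.mk (jointIncl z t k)))
  have h1 := B.hψ.2.2.2 (jointIncl z t k) σ₀ hσ₀ leechU ⟨⟨t, B.htc⟩, B.htQ⟩ B.hψt
  have h2 : ψ (σ₀ • leechU) = ψ leechU := by
    rw [h1, B.hψt]
    congr 1
    apply Subtype.ext
    apply Subtype.ext
    show (k : G) * t * (k : G)⁻¹ = t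
    have hkt : (k : G) * t = t * (k : G) := mem_cent_sing.1 k.2.2
    rw [hkt]; group
  have h3 := D.cong_of_psi_eq h2
  have hn : sqNorm ((σ₀ • leechU : leechLattice) : GolayPt → ℤ) = 32 :=
    (co0_sqNorm σ₀.2 leechU).trans sqNorm_leechU
  rcases short_cong (σ₀ • leechU).2 leechU.2 h3 (by rw [hn]; norm_num)
    (by rw [sqNorm_leechU]; norm_num) with h | h | h
  · have hfix : (σ₀ : Equiv.Perm leechLattice) leechU = leechU := Subtype.ext h.symm
    exact ⟨⟨(σ₀ : Equiv.Perm leechLattice), ⟨σ₀.2, hfix⟩⟩, hσ₀⟩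
  · have hfix : (negCo * (σ₀ : Equiv.Perm leechLattice)) leechU = leechU := by
      apply Subtype.ext
      show -((σ₀ • leechU : leechLattice) : GolayPt → ℤ) = (leechU : GolayPt → ℤ)
      rw [h]
    refine ⟨⟨negCo * (σ₀ : Equiv.Perm leechLattice), ⟨Co0.mul_mem negCo_mem σ₀.2, hfix⟩⟩, ?_⟩
    show (QuotientGroup.mk (negElt * σ₀) : Spor.Co1) = _
    rw [QuotientGroup.mk_mul, (QuotientGroup.eq_one_iff _).2 negElt_mem_center, one_mul]
    exact hσ₀
  · omega

/-- The homomorphism from `C_X(z')` onto the stabilizer of `leechU`. -/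
theorem exists_phi [Finite G] :
    ∃ Φ : ↥(Subgroup.centralizer ({z'} : Set X)) →* ↥Spor.Co2,
      ∀ k : ↥(jointCent z t), coTwoHom (Φ (θ k)) = e (QuotientGroup.mk (jointIncl z t k)) := by
  classical
  obtain ⟨F, hF⟩ : ∃ F : ↥(jointCent z t) →* Spor.Co1,
      F = e.toMonoidHom.comp ((QuotientGroup.mk' Q).comp (jointIncl z t)) := ⟨_, rfl⟩
  have hFapp : ∀ k, F k = e (QuotientGroup.mk (jointIncl z t k)) := by
    intro k; rw [hF]; rfl
  have hker : θ.ker ≤ F.ker := by
    intro k hk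
    rw [MonoidHom.mem_ker] at hk ⊢
    rw [hFapp]
    have hkQ : jointIncl z t k ∈ Q := by
      rcases (B.hθk k).1 hk with h | h
      · have : jointIncl z t k = 1 := Subtype.ext h
        rw [this]; exact Q.one_mem
      · have : jointIncl z t k = ⟨t, B.htc⟩ := Subtype.ext h
        rw [this]; exact B.htQ
    rw [(QuotientGroup.eq_one_iff _).2 hkQ, map_one]
  obtain ⟨F', hF'⟩ : ∃ F' : ↥(Subgroup.centralizer ({z'} : Set X)) →* Spor.Co1,
      ∀ k, F' (θ k) = F k :=
    ⟨θ.liftOfRightInverse (Function.surjInv B.hθs) (Function.rightInverse_surjInv B.hθs)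
      ⟨F, hker⟩, fun k => MonoidHom.liftOfRightInverse_comp_apply θ (Function.surjInv B.hθs)
        (Function.rightInverse_surjInv B.hθs) ⟨F, hker⟩ k⟩
  have hex : ∀ d, ∃ σ : ↥Spor.Co2, coTwoHom σ = F' d := by
    intro d
    obtain ⟨k, rfl⟩ := B.hθs d
    rw [hF', hFapp]
    exact B.exists_coTwo k
  choose Φ hΦ using hex
  refine ⟨MonoidHom.mk' Φ (fun a b => coTwoHom_injective (by
    rw [hΦ, map_mul, map_mul, hΦ, hΦ])), fun k => ?_⟩
  show coTwoHom (Φ (θ k)) = _
  rw [hΦ, hF', hFapp]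

variable (Φ : ↥(Subgroup.centralizer ({z'} : Set X)) →* ↥Spor.Co2)
  (hΦ : ∀ k : ↥(jointCent z t), coTwoHom (Φ (θ k)) = e (QuotientGroup.mk (jointIncl z t k)))

include hΦ

theorem phi_surj [Finite G] : Function.Surjective Φ := by
  intro σ
  have D := B.quad
  obtain ⟨ht1, htz, htt⟩ := B.t_props
  have hσ : ψ ((⟨(σ : Equiv.Perm leechLattice), co2_le σ.2⟩ : Co0) • leechU) = ψ leechU := by
    congr 1
    exact co2_fix σ
  obtain ⟨c', hc'm, hc'r⟩ := exists_centralizing_lift z Q e ψ B.hψ _ D ⟨⟨t, B.htc⟩, B.htQ⟩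
    (fun h => ht1 (congrArg Subtype.val h)) (fun h => htz (congrArg Subtype.val h)) leechU B.hψt
    ⟨(σ : Equiv.Perm leechLattice), co2_le σ.2⟩ hσ
  have hc't : (c' : G) * t = t * (c' : G) := by
    have h1 : (c' : G) * t * (c' : G)⁻¹ = t := congrArg Subtype.val hc'r
    calc (c' : G) * t = ((c' : G) * t * (c' : G)⁻¹) * (c' : G) := by group
      _ = t * (c' : G) := by rw [h1]
  refine ⟨θ ⟨(c' : G), ⟨c'.2, mem_cent_sing.2 hc't⟩⟩, ?_⟩
  apply coTwoHom_injective
  rw [hΦ]
  exact hc'm.symm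

theorem phi_ker [Finite G] (k : ↥(jointCent z t)) : Φ (θ k) = 1 ↔ (k : G) ∈ qImage Q := by
  rw [mem_qImage]
  constructor
  · intro h
    have h1 := hΦ k
    rw [h, map_one] at h1
    have h2 : (QuotientGroup.mk (jointIncl z t k) :
        (Subgroup.centralizer ({z} : Set G)) ⧸ Q) = 1 := by
      apply e.injective
      rw [← h1, map_one]
    exact (QuotientGroup.eq_one_iff _).1 h2
  · intro h
    apply coTwoHom_injective
    rw [hΦ, map_one, (QuotientGroup.eq_one_iff _).2 h, map_one]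

theorem mem_ker_iff [Finite G] (d : ↥(Subgroup.centralizer ({z'} : Set X))) :
    d ∈ Φ.ker ↔ ∃ k : ↥(jointCent z t), (k : G) ∈ qImage Q ∧ θ k = d := by
  rw [MonoidHom.mem_ker]
  constructor
  · intro h
    obtain ⟨k, rfl⟩ := B.hθs d
    exact ⟨k, (B.phi_ker Φ hΦ k).1 h, rfl⟩
  · rintro ⟨k, hk, rfl⟩
    exact (B.phi_ker Φ hΦ k).2 hk

end BabyCtx

end

end Cfsg.Agent.Lib.Helper30
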