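import Cfsg.Agent.Lib.Helper30.BabyCtx
import Cfsg.Agent.Lib.Helper22.CharP

/-!
Groups of Monster type, abstract setting for the centralizer of `t`, part 2: the kernel of the
homomorphism onto the stabilizer of `leechU` is extraspecial of order `2 ^ 23` and is the
generalized Fitting subgroup of `C_X(z')`.
-/

set_option autoImplicit false

namespace Cfsg.Agent.Lib.Helper30

open Cfsg Cfsg.Spor Cfsg.Agent.Lib.Helper92 Cfsg.Agent.Lib.Helper7

section

variable {G : Type*} [Group G]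

namespace BabyCtx

variable {z : G} {Q : Subgroup (Subgroup.centralizer ({z} : Set G))} [Q.Normal]
    {e : (Subgroup.centralizer ({z} : Set G)) ⧸ Q ≃* Spor.Co1}
    {ψ : leechLattice → Q ⧸ Subgroup.center Q} {t : G}
    {X : Type*} [Group X] {z' : X}
    {θ : ↥(jointCent z t) →* ↥(Subgroup.centralizer ({z'} : Set X))}
    (B : BabyCtx z Q e ψ t z' θ)

include B

theorem zK_exists : ∃ zK : ↥(jointCent z t), (zK : G) = z :=
  ⟨⟨z, ⟨mem_cent_sing.2 rfl, mem_cent_sing.2 (mem_cent_sing.1 B.htc).symm⟩⟩, rfl⟩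

theorem tK_exists : ∃ tK : ↥(jointCent z t), (tK : G) = t :=
  ⟨⟨t, ⟨B.htc, mem_cent_sing.2 rfl⟩⟩, rfl⟩

variable (Φ : ↥(Subgroup.centralizer ({z'} : Set X)) →* ↥Spor.Co2)
  (hΦ : ∀ k : ↥(jointCent z t), coTwoHom (Φ (θ k)) = e (QuotientGroup.mk (jointIncl z t k)))

include hΦ

theorem classTwo [Finite G] (zK : ↥(jointCent z t)) (hzK : (zK : G) = z) :
    ClassTwoData Φ.ker (θ zK) := by
  have L := B.large
  obtain ⟨ht1, htz, htt⟩ := B.t_props
  have hmem := B.mem_ker_iff Φ hΦ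
  have hz1 : z ≠ 1 := L.d.hz1
  have hzz : z * z = 1 := L.d.hzz
  refine ⟨?_, ?_, ?_, ?_, ?_, ?_⟩
  · rw [hmem]
    exact ⟨zK, by rw [hzK]; exact L.d.hzQ, rfl⟩
  · intro h
    rcases (B.hθk zK).1 h with h' | h'
    · exact hz1 (hzK.symm.trans h')
    · exact htz (h'.symm.trans hzK)
  · rw [← map_mul]
    have h1 : zK * zK = 1 := Subtype.ext (by
      show (zK : G) * (zK : G) = 1
      rw [hzK, hzz])
    rw [h1, map_one]
  · intro q hq
    obtain ⟨k, -, rfl⟩ := (hmem q).1 hq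
    rw [← map_mul, ← map_mul]
    congr 1
    apply Subtype.ext
    show (zK : G) * (k : G) = (k : G) * (zK : G)
    rw [hzK]
    exact (mem_cent_sing.1 k.2.1).symm
  · intro x hx y hy
    obtain ⟨a, ha, rfl⟩ := (hmem x).1 hx
    obtain ⟨b, hb, rfl⟩ := (hmem y).1 hy
    have e1 : θ a * θ b * (θ a)⁻¹ * (θ b)⁻¹ = θ (a * b * a⁻¹ * b⁻¹) := by
      rw [map_mul, map_mul, map_mul, map_inv, map_inv]
    rw [e1]
    rcases L.d.hk (a : G) ha (b : G) hb with h | h
    · left
      have h1 : a * b * a⁻¹ * b⁻¹ = 1 := Subtype.ext h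
      rw [h1, map_one]
    · right
      have h1 : a * b * a⁻¹ * b⁻¹ = zK := Subtype.ext (h.trans hzK.symm)
      rw [h1]
  · intro x hx hcomm
    obtain ⟨a, ha, rfl⟩ := (hmem x).1 hx
    have hcD : ∀ b ∈ qImage Q, b * t = t * b → (a : G) * b = b * (a : G) := by
      intro b hb hbt
      obtain ⟨bK, hbK⟩ := exists_K_of_mem hb hbt
      have hbK' : (bK : G) ∈ qImage Q := by rw [hbK]; exact hb
      have h1 := hcomm (θ bK) ((hmem _).2 ⟨bK, hbK', rfl⟩)
      rw [← map_mul, ← map_mul] at h1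
      have h2 : θ ((bK * a)⁻¹ * (a * bK)) = 1 := by
        rw [map_mul, map_inv, h1, inv_mul_cancel]
      rcases L.d.comm_iff ha hb with h | h
      · exact h
      · exfalso
        have h3 : (((bK * a)⁻¹ * (a * bK) : ↥(jointCent z t)) : G) = z := by
          show ((bK : G) * (a : G))⁻¹ * ((a : G) * (bK : G)) = z
          rw [hbK, h, L.d.hzc _ (Subgroup.mul_mem _ hb ha)]
          group
        rcases (B.hθk _).1 h2 with h4 | h4
        · rw [h3] at h4; exact hz1 h4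
        · rw [h3] at h4; exact htz h4.symm
    rcases L.d.cent_cent B.tQ ht1 htz htt ha hcD with h | h | h | h
    · left
      have h1 : a = 1 := Subtype.ext h
      rw [h1, map_one]
    · right
      have h1 : a = zK := Subtype.ext (h.trans hzK.symm)
      rw [h1]
    · left
      exact (B.hθk a).2 (Or.inr h)
    · right
      obtain ⟨tK, htK⟩ := B.tK_exists
      have h1 : a = zK * tK := Subtype.ext (by
        show (a : G) = (zK : G) * (tK : G)
        rw [hzK, htK]; exact h)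
      rw [h1, map_mul, (B.hθk tK).2 (Or.inr htK), mul_one]

theorem ker_extraspecial [Finite G] [Finite X] : Cfsg.IsExtraspecial 2 ↥Φ.ker := by
  obtain ⟨zK, hzK⟩ := B.zK_exists
  have d := B.classTwo Φ hΦ zK hzK
  have L := B.large
  obtain ⟨ht1, htz, htt⟩ := B.t_props
  apply isExtraspecial_of_classTwoData d
  obtain ⟨a, ha, b, hb, hat, hbt, hab⟩ := L.d.exists_comm_eq_z B.tQ ht1 htz htt L.hcard
  obtain ⟨aK, haK⟩ := exists_K_of_mem ha hat
  obtain ⟨bK, hbK⟩ := exists_K_of_mem hb hbt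
  refine ⟨θ aK, (B.mem_ker_iff Φ hΦ _).2 ⟨aK, by rw [haK]; exact ha, rfl⟩, θ bK,
    (B.mem_ker_iff Φ hΦ _).2 ⟨bK, by rw [hbK]; exact hb, rfl⟩, ?_⟩
  rw [← map_inv, ← map_inv, ← map_mul, ← map_mul, ← map_mul]
  congr 1
  apply Subtype.ext
  show (aK : G) * (bK : G) * (aK : G)⁻¹ * (bK : G)⁻¹ = (zK : G)
  rw [haK, hbK, hzK]; exact hab

theorem ker_card [Finite G] [Finite X] : Nat.card ↥Φ.ker = 2 ^ 23 := by
  have L := B.large
  obtain ⟨ht1, htz, htt⟩ := B.t_props
  obtain ⟨P, hP⟩ : ∃ P : Subgroup ↥(jointCent z t),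
      P = (qImage Q).subgroupOf (jointCent z t) := ⟨_, rfl⟩
  have hPmem : ∀ k, k ∈ P ↔ (k : G) ∈ qImage Q := by
    intro k; rw [hP, Subgroup.mem_subgroupOf]
  have cP : Nat.card P = 2 ^ 24 := by
    have h1 := (L.d.dual_four B.tQ ht1 htz htt).2
    have h2 : (qImage Q ⊓ Subgroup.centralizer
        ((fourGroup z t L.d.hzz htt (L.d.zu_comm B.tQ) : Subgroup G) : Set G)) =
        qImage Q ⊓ Subgroup.centralizer ({t} : Set G) := by
      ext x
      simp only [Subgroup.mem_inf]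
      constructor
      · rintro ⟨hx, hc⟩
        refine ⟨hx, mem_cent_sing.2 ?_⟩
        have := Subgroup.mem_centralizer_iff.1 hc t
          ((mem_fourGroup _ _ _).2 (Or.inr (Or.inr (Or.inl rfl))))
        exact this.symm
      · rintro ⟨hx, hc⟩
        refine ⟨hx, ?_⟩
        rw [Subgroup.mem_centralizer_iff]
        intro w hw
        have hxt : x * t = t * x := mem_cent_sing.1 hc
        have hzx : z * x = x * z := L.d.hzc x hx
        rcases (mem_fourGroup _ _ _).1 hw with rfl | rfl | rfl | rfl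
        · simp
        · exact hzx
        · exact hxt.symm
        · rw [mul_assoc, ← hxt, ← mul_assoc, hzx, mul_assoc]
    have h3 : Nat.card P = Nat.card ↥(qImage Q ⊓ Subgroup.centralizer ({t} : Set G)) := by
      have h4 : P.map (jointCent z t).subtype =
          qImage Q ⊓ Subgroup.centralizer ({t} : Set G) := by
        ext x
        constructor
        · rintro ⟨k, hk, rfl⟩
          exact ⟨(hPmem k).1 hk, k.2.2⟩
        · rintro ⟨hx1, hx2⟩
          obtain ⟨y, hy, rfl⟩ := hx1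
          exact ⟨⟨y, ⟨y.2, hx2⟩⟩, (hPmem _).2 ⟨y, hy, rfl⟩, rfl⟩
      rw [← h4, Subgroup.card_map_of_injective (Subgroup.subtype_injective _)]
    rw [h3, ← h2]
    have cQ₁ : Nat.card ↥(qImage Q) = 2 ^ 25 := by
      rw [Subgroup.card_map_of_injective (Subgroup.subtype_injective _), B.hcard]
    rw [cQ₁] at h1
    omega
  obtain ⟨f, hf⟩ : ∃ f : ↥P →* ↥(Subgroup.centralizer ({z'} : Set X)),
      f = θ.domRestrict P := ⟨_, rfl⟩
  have hfapp : ∀ p : ↥P, f p = θ (p : ↥(jointCent z t)) := by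
    intro p; rw [hf]; rfl
  have hrange : Nat.card f.range = Nat.card ↥Φ.ker := by
    have h1 : f.range = Φ.ker := by
      ext d
      rw [B.mem_ker_iff Φ hΦ]
      constructor
      · rintro ⟨p, rfl⟩
        exact ⟨p, (hPmem _).1 p.2, (hfapp p).symm⟩
      · rintro ⟨k, hk, rfl⟩
        exact ⟨⟨k, (hPmem k).2 hk⟩, hfapp _⟩
    rw [h1]
  have hker : Nat.card f.ker = 2 := by
    rw [Nat.card_eq_two_iff]
    obtain ⟨tK, htK⟩ := B.tK_exists
    have htP : tK ∈ P := (hPmem tK).2 (by rw [htK]; exact B.tQ)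
    have htker : (⟨tK, htP⟩ : ↥P) ∈ f.ker := by
      rw [MonoidHom.mem_ker, hfapp]; exact (B.hθk tK).2 (Or.inr htK)
    refine ⟨1, ⟨⟨tK, htP⟩, htker⟩, ?_, ?_⟩
    · intro h
      apply ht1
      have h1 : ((((1 : f.ker) : ↥P) : ↥(jointCent z t)) : G) = (tK : G) := by rw [h]
      rw [htK] at h1
      exact h1.symm
    · ext x
      simp only [Set.mem_insert_iff, Set.mem_singleton_iff, Set.mem_univ, iff_true]
      have hx : f (x : ↥P) = 1 := x.2
      rw [hfapp] at hx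
      rcases (B.hθk _).1 hx with h | h
      · left; exact Subtype.ext (Subtype.ext (Subtype.ext h))
      · right; exact Subtype.ext (Subtype.ext (Subtype.ext (h.trans htK.symm)))
  have hki := Subgroup.card_mul_index f.ker
  rw [Subgroup.index_ker, hker, hrange, cP] at hki
  omega

/-- Every normal 2-subgroup of `C_X(z')` lies in the kernel. -/
theorem normal_two_le [Finite G]
    (N : Subgroup ↥(Subgroup.centralizer ({z'} : Set X))) (hNn : N.Normal) (hNp : IsPGroup 2 N) :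
    N ≤ Φ.ker := by
  have hsurj := B.phi_surj Φ hΦ
  obtain ⟨M, hM⟩ : ∃ M : Subgroup (Equiv.Perm leechLattice),
      M = (N.map Φ).map (Subgroup.subtype Spor.Co2) := ⟨_, rfl⟩
  have hMmem : ∀ n, n ∈ M ↔ ∃ d ∈ N, ((Φ d : ↥Spor.Co2) : Equiv.Perm leechLattice) = n := by
    intro n
    rw [hM]
    constructor
    · rintro ⟨σ, ⟨d, hd, rfl⟩, rfl⟩
      exact ⟨d, hd, rfl⟩
    · rintro ⟨d, hd, rfl⟩
      exact ⟨Φ d, ⟨d, hd, rfl⟩, rfl⟩
  have key := co2_normal_two_trivial M ?_ ?_ ?_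
  · intro d hd
    rw [MonoidHom.mem_ker]
    apply Subtype.ext
    exact key _ ((hMmem _).2 ⟨d, hd, rfl⟩)
  · intro n hn
    obtain ⟨d, -, rfl⟩ := (hMmem n).1 hn
    exact ⟨co2_le (Φ d).2, co2_fix (Φ d)⟩
  · intro s hs hsu n hn
    obtain ⟨d, hd, rfl⟩ := (hMmem n).1 hn
    obtain ⟨ds, hds⟩ := hsurj ⟨s, ⟨hs, hsu⟩⟩
    rw [hMmem]
    refine ⟨ds * d * ds⁻¹, hNn.conj_mem d hd ds, ?_⟩
    rw [map_mul, map_mul, map_inv, hds]
    rfl
  · intro n hn
    obtain ⟨d, hd, rfl⟩ := (hMmem n).1 hn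
    obtain ⟨k, hk⟩ := hNp ⟨d, hd⟩
    refine ⟨k, ?_⟩
    have h1 : d ^ 2 ^ k = 1 := by
      have := congrArg Subtype.val hk
      exact this
    have h2 : (Φ d) ^ 2 ^ k = 1 := by rw [← map_pow, h1, map_one]
    have := congrArg Subtype.val h2
    exact this

theorem ker_fstar [Finite G] [Finite X] :
    Cfsg.generalizedFittingSubgroup ↥(Subgroup.centralizer ({z'} : Set X)) = Φ.ker := by
  have L := B.large
  obtain ⟨ht1, htz, htt⟩ := B.t_props
  have hp2 : IsPGroup 2 ↥Φ.ker := (B.ker_extraspecial Φ hΦ).1.1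
  have hpc : Cfsg.pCore 2 ↥(Subgroup.centralizer ({z'} : Set X)) = Φ.ker := by
    apply le_antisymm
    · apply sSup_le
      rintro N ⟨hNn, hNp⟩
      exact B.normal_two_le Φ hΦ N hNn hNp
    · exact le_sSup ⟨inferInstance, hp2⟩
  have hcent : Subgroup.centralizer (Φ.ker : Set ↥(Subgroup.centralizer ({z'} : Set X))) ≤
      Φ.ker := by
    apply B.normal_two_le Φ hΦ _ inferInstance
    intro x
    refine ⟨3, ?_⟩
    apply Subtype.ext
    obtain ⟨y, hy⟩ := B.hθs (x : ↥(Subgroup.centralizer ({z'} : Set X)))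
    have hx := x.2
    rw [Subgroup.mem_centralizer_iff] at hx
    have hyp : ∀ p ∈ qImage Q, p * t = t * p →
        (y : G) * p * (y : G)⁻¹ * p⁻¹ = 1 ∨ (y : G) * p * (y : G)⁻¹ * p⁻¹ = t := by
      intro p hp hpt
      obtain ⟨pK, hpK⟩ := exists_K_of_mem hp hpt
      have hpK' : (pK : G) ∈ qImage Q := by rw [hpK]; exact hp
      have h1 := hx (θ pK) ((B.mem_ker_iff Φ hΦ _).2 ⟨pK, hpK', rfl⟩)
      rw [← hy, ← map_mul, ← map_mul] at h1
      have h2 : θ (y * pK * y⁻¹ * pK⁻¹) = 1 := by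
        rw [map_mul, map_mul, map_inv, ← h1, map_mul, map_inv]
        group
      have h3 := (B.hθk _).1 h2
      rw [← hpK]
      exact h3
    have h8 : (y : G) ^ 8 = 1 := L.cent_quot_pow B.tQ ht1 htz htt (mem_cent_sing.1 y.2.1)
      (mem_cent_sing.1 y.2.2) hyp
    have h8' : y ^ 8 = 1 := Subtype.ext (by
      show (y : G) ^ 8 = 1
      exact h8)
    show (x : ↥(Subgroup.centralizer ({z'} : Set X))) ^ 2 ^ 3 = 1
    rw [← hy, ← map_pow]
    have e8 : (2 : ℕ) ^ 3 = 8 := by norm_num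
    rw [e8, h8', map_one]
  rw [← hpc] at hcent ⊢
  exact (Cfsg.Agent.Lib.Helper22.generalizedFittingSubgroup_eq_pCore_iff (p := 2)).2 hcent

end BabyCtx

end

end Cfsg.Agent.Lib.Helper30
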