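import Cfsg.Agent.Lib.Helper30.BabyCtx2

/-!
Groups of Monster type, abstract setting for the centralizer of `t`, part 3: the module
identification of the kernel modulo its centre, and the conclusion that `X` is of Baby Monster
type.
-/

set_option autoImplicit false

namespace Cfsg.Agent.Lib.Helper30

open Cfsg Cfsg.Spor Cfsg.Agent.Lib.Helper92 Cfsg.Agent.Lib.Helper7

section

variable {G : Type*} [Group G]

namespace BabyCtx

variable {z : G} {Q : Subgroup (Subgroup.centralizer ({z} : Set G))} [Q.Normal]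
    {e : (Subgroup.centralizer ({z} : Set G)) ⧸ Q ≃* Spor.Co1}
    {ψ : leechLattice → Q ⧸ Subgroup.center Q} {t : G}
    {X : Type*} [Group X] {z' : X}
    {θ : ↥(jointCent z t) →* ↥(Subgroup.centralizer ({z'} : Set X))}
    (B : BabyCtx z Q e ψ t z' θ)
    (Φ : ↥(Subgroup.centralizer ({z'} : Set X)) →* ↥Spor.Co2)
    (hΦ : ∀ k : ↥(jointCent z t), coTwoHom (Φ (θ k)) = e (QuotientGroup.mk (jointIncl z t k)))

include B hΦ

theorem exists_psi [Finite G] [Finite X] :
    ∃ ψ' : leechPerpU → ↥Φ.ker ⧸ Subgroup.center ↥Φ.ker,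
      Cfsg.IsLeechPerpModTwoIso Φ.ker
        (QuotientGroup.quotientKerEquivOfSurjective Φ (B.phi_surj Φ hΦ)) ψ' := by
  have D := B.quad
  obtain ⟨ht1, htz, htt⟩ := B.t_props
  obtain ⟨zK, hzK⟩ := B.zK_exists
  obtain ⟨tK, htK⟩ := B.tK_exists
  have d := B.classTwo Φ hΦ zK hzK
  have hmem := B.mem_ker_iff Φ hΦ
  have hζQ : jointIncl z t zK ∈ Q := by
    have h1 : jointIncl z t zK = ⟨z, mem_cent_sing.2 rfl⟩ := Subtype.ext hzK
    rw [h1]; exact D.d.hzQ
  have htKQ : jointIncl z t tK ∈ Q := by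
    have h1 : jointIncl z t tK = ⟨t, B.htc⟩ := Subtype.ext htK
    rw [h1]; exact B.htQ
  have hψtK : ψ leechU = QuotientGroup.mk ⟨jointIncl z t tK, htKQ⟩ := by
    rw [B.hψt]
    congr 1
    exact Subtype.ext (Subtype.ext htK.symm)
  have hθtK : θ tK = 1 := (B.hθk tK).2 (Or.inr htK)
  -- lifts
  have hlift : ∀ x : leechPerpU, ∃ k : ↥(jointCent z t), ∃ hq : jointIncl z t k ∈ Q,
      ψ (x : leechLattice) = QuotientGroup.mk ⟨jointIncl z t k, hq⟩ := by
    intro x
    obtain ⟨q, hq⟩ := QuotientGroup.mk_surjective (ψ (x : leechLattice))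
    have hx : (16 : ℤ) ∣ dotInt ((x : leechLattice) : GolayPt → ℤ)
        ((leechU : leechLattice) : GolayPt → ℤ) := x.2
    have h1 := (D.comm_iff_dvd (x : leechLattice) leechU q ⟨⟨t, B.htc⟩, B.htQ⟩ hq.symm B.hψt).2 hx
    have h2 : ((q : Subgroup.centralizer ({z} : Set G)) : G) * t =
        t * ((q : Subgroup.centralizer ({z} : Set G)) : G) := congrArg Subtype.val h1
    exact ⟨⟨((q : Subgroup.centralizer ({z} : Set G)) : G),
      ⟨(q : Subgroup.centralizer ({z} : Set G)).2, mem_cent_sing.2 h2⟩⟩, q.2, hq.symm⟩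
  choose kOf hkQ hkψ using hlift
  have memR : ∀ k : ↥(jointCent z t), jointIncl z t k ∈ Q → θ k ∈ Φ.ker :=
    fun k hk => (hmem _).2 ⟨k, (mem_qImage k).2 hk, rfl⟩
  -- the centre of the kernel
  have hζc : (⟨θ zK, d.hzQ⟩ : ↥Φ.ker) ∈ Subgroup.center ↥Φ.ker := by
    rw [Subgroup.mem_center_iff]
    intro g
    exact Subtype.ext (d.hzc g g.2).symm
  have hcenR : ∀ r : ↥Φ.ker, r ∈ Subgroup.center ↥Φ.ker →
      (r : ↥(Subgroup.centralizer ({z'} : Set X))) = 1 ∨
        (r : ↥(Subgroup.centralizer ({z'} : Set X))) = θ zK := by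
    intro r hr
    apply d.hcen _ r.2
    intro y hy
    have h1 := Subgroup.mem_center_iff.1 hr ⟨y, hy⟩
    have h2 := congrArg Subtype.val h1
    exact h2.symm
  have hζQc : (⟨jointIncl z t zK, hζQ⟩ : ↥Q) ∈ Subgroup.center ↥Q := by
    rw [Subgroup.mem_center_iff]
    intro g
    apply Subtype.ext
    have h1 : jointIncl z t zK = ⟨z, mem_cent_sing.2 rfl⟩ := Subtype.ext hzK
    show (g : Subgroup.centralizer ({z} : Set G)) * jointIncl z t zK =
      jointIncl z t zK * (g : Subgroup.centralizer ({z} : Set G))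
    rw [h1]
    exact (D.d.hzc g g.2).symm
  obtain ⟨ψ', hψ'⟩ : ∃ ψ' : leechPerpU → ↥Φ.ker ⧸ Subgroup.center ↥Φ.ker,
      ∀ x, ψ' x = QuotientGroup.mk ⟨θ (kOf x), memR _ (hkQ x)⟩ := ⟨_, fun _ => rfl⟩
  -- the two key properties
  have star : ∀ (x : leechPerpU) (k : ↥(jointCent z t)) (hq : jointIncl z t k ∈ Q),
      ψ (x : leechLattice) = QuotientGroup.mk ⟨jointIncl z t k, hq⟩ →
      ψ' x = QuotientGroup.mk ⟨θ k, memR k hq⟩ := by
    intro x k hq h
    rw [hψ']
    have h1 : (QuotientGroup.mk (⟨jointIncl z t (kOf x), hkQ x⟩ : ↥Q) :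
        ↥Q ⧸ Subgroup.center ↥Q) = QuotientGroup.mk ⟨jointIncl z t k, hq⟩ :=
      (hkψ x).symm.trans h
    rcases D.lift_eq h1 with h2 | h2
    · have h3 : k = kOf x := Subtype.ext (show (k : G) = (kOf x : G) from
        congrArg (fun c : Subgroup.centralizer ({z} : Set G) => (c : G)) h2)
      subst h3
      rfl
    · have h3 : k = kOf x * zK := by
        apply Subtype.ext
        have h4 := congrArg (fun c : Subgroup.centralizer ({z} : Set G) => (c : G)) h2
        show (k : G) = (kOf x : G) * (zK : G)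
        rw [hzK]
        exact h4
      rw [QuotientGroup.eq]
      have h5 : (⟨θ (kOf x), memR _ (hkQ x)⟩ : ↥Φ.ker)⁻¹ * ⟨θ k, memR k hq⟩ =
          ⟨θ zK, d.hzQ⟩ := by
        apply Subtype.ext
        show (θ (kOf x))⁻¹ * θ k = θ zK
        rw [h3, map_mul, inv_mul_cancel_left]
      rw [h5]
      exact hζc
  have dstar : ∀ (x : leechPerpU) (r : ↥Φ.ker), ψ' x = QuotientGroup.mk r →
      ∃ k : ↥(jointCent z t), ∃ hq : jointIncl z t k ∈ Q,
        ψ (x : leechLattice) = QuotientGroup.mk ⟨jointIncl z t k, hq⟩ ∧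
          θ k = (r : ↥(Subgroup.centralizer ({z'} : Set X))) := by
    intro x r h
    rw [hψ', QuotientGroup.eq] at h
    rcases hcenR _ h with h1 | h1
    · refine ⟨kOf x, hkQ x, hkψ x, ?_⟩
      have h2 : (θ (kOf x))⁻¹ * (r : ↥(Subgroup.centralizer ({z'} : Set X))) = 1 := h1
      calc θ (kOf x) = θ (kOf x) * ((θ (kOf x))⁻¹ *
            (r : ↥(Subgroup.centralizer ({z'} : Set X)))) := by rw [h2, mul_one]
        _ = r := by group
    · have h2 : (θ (kOf x))⁻¹ * (r : ↥(Subgroup.centralizer ({z'} : Set X))) = θ zK := h1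
      have hq' : jointIncl z t (kOf x * zK) ∈ Q := by
        rw [map_mul]; exact Q.mul_mem (hkQ x) hζQ
      refine ⟨kOf x * zK, hq', ?_, ?_⟩
      · rw [hkψ x, QuotientGroup.eq]
        have h5 : (⟨jointIncl z t (kOf x), hkQ x⟩ : ↥Q)⁻¹ * ⟨jointIncl z t (kOf x * zK), hq'⟩ =
            ⟨jointIncl z t zK, hζQ⟩ := by
          apply Subtype.ext
          show (jointIncl z t (kOf x))⁻¹ * jointIncl z t (kOf x * zK) = jointIncl z t zK
          rw [map_mul, inv_mul_cancel_left]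
        rw [h5]
        exact hζQc
      · rw [map_mul, ← h2]; group
  refine ⟨ψ', ?_, ?_, ?_, ?_⟩
  · -- additivity
    intro x y
    have hq' : jointIncl z t (kOf x * kOf y) ∈ Q := by
      rw [map_mul]; exact Q.mul_mem (hkQ x) (hkQ y)
    have h1 : ψ ((x + y : leechPerpU) : leechLattice) =
        QuotientGroup.mk ⟨jointIncl z t (kOf x * kOf y), hq'⟩ := by
      have e1 : ((x + y : leechPerpU) : leechLattice) = (x : leechLattice) + (y : leechLattice) :=
        rfl
      rw [e1, D.hadd, hkψ x, hkψ y, ← QuotientGroup.mk_mul]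
      congr 1
    rw [star (x + y) _ hq' h1, hψ' x, hψ' y, ← QuotientGroup.mk_mul]
    congr 1
    exact Subtype.ext (map_mul θ _ _)
  · -- surjectivity
    intro y
    obtain ⟨r, rfl⟩ := QuotientGroup.mk_surjective y
    obtain ⟨k, hk, hkr⟩ := (hmem (r : ↥(Subgroup.centralizer ({z'} : Set X)))).1 r.2
    have hkQ' := (mem_qImage k).1 hk
    obtain ⟨x₀, hx₀⟩ := D.hsurj (QuotientGroup.mk ⟨jointIncl z t k, hkQ'⟩)
    have hx₀U : x₀ ∈ leechPerpU := by
      have h1 := (D.comm_iff_dvd x₀ leechU ⟨jointIncl z t k, hkQ'⟩ ⟨⟨t, B.htc⟩, B.htQ⟩ hx₀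
        B.hψt).1 (Subtype.ext (mem_cent_sing.1 k.2.2))
      exact h1
    refine ⟨⟨x₀, hx₀U⟩, ?_⟩
    rw [star ⟨x₀, hx₀U⟩ k hkQ' hx₀]
    congr 1
    exact Subtype.ext hkr
  · -- kernel
    intro x
    constructor
    · intro h
      obtain ⟨k, hq, hψk, hθk⟩ := dstar x 1 h
      have hθk' : θ k = 1 := hθk
      rcases (B.hθk k).1 hθk' with h1 | h1
      · left
        apply (D.hker _).1
        rw [hψk]
        have h2 : (⟨jointIncl z t k, hq⟩ : ↥Q) = 1 := Subtype.ext (Subtype.ext h1)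
        rw [h2]; rfl
      · right
        apply (D.psi_eq_iff _ _).1
        rw [hψk, B.hψt]
        congr 1
        exact Subtype.ext (Subtype.ext h1)
    · rintro (⟨w, hw⟩ | ⟨w, hw⟩)
      · have h1 : ψ (x : leechLattice) = QuotientGroup.mk ⟨jointIncl z t 1, by
            rw [map_one]; exact Q.one_mem⟩ := by
          rw [(D.hker _).2 ⟨w, hw⟩]
          symm
          rw [QuotientGroup.eq_one_iff]
          have h2 : (⟨jointIncl z t 1, by rw [map_one]; exact Q.one_mem⟩ : ↥Q) = 1 :=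
            Subtype.ext (map_one _)
          rw [h2]; exact Subgroup.one_mem _
        rw [star x 1 _ h1, QuotientGroup.eq_one_iff]
        have h2 : (⟨θ 1, memR 1 (by rw [map_one]; exact Q.one_mem)⟩ : ↥Φ.ker) = 1 :=
          Subtype.ext (map_one θ)
        rw [h2]; exact Subgroup.one_mem _
      · have h1 : ψ (x : leechLattice) = QuotientGroup.mk ⟨jointIncl z t tK, htKQ⟩ := by
          rw [← hψtK]
          exact (D.psi_eq_iff _ _).2 ⟨w, hw⟩
        rw [star x tK htKQ h1, QuotientGroup.eq_one_iff]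
        have h2 : (⟨θ tK, memR tK htKQ⟩ : ↥Φ.ker) = 1 := Subtype.ext hθtK
        rw [h2]; exact Subgroup.one_mem _
  · -- equivariance
    intro h g hg x y hxy q hq
    have hΦh : Φ h = g := hg
    obtain ⟨kh, rfl⟩ := B.hθs h
    obtain ⟨kq, hkq, hψq, hθq⟩ := dstar x q hq
    have hm : (QuotientGroup.mk (⟨(g : Equiv.Perm leechLattice), co2_le g.2⟩ : Co0) : Spor.Co1) =
        e (QuotientGroup.mk (jointIncl z t kh)) := by
      rw [← hΦ kh, hΦh]; rfl
    have h1 := B.hψ.2.2.2 (jointIncl z t kh) ⟨(g : Equiv.Perm leechLattice), co2_le g.2⟩ hm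
      (x : leechLattice) ⟨jointIncl z t kq, hkq⟩ hψq
    have hq' : jointIncl z t (kh * kq * kh⁻¹) ∈ Q := by
      rw [map_mul, map_mul, map_inv]
      exact (inferInstance : Q.Normal).conj_mem _ hkq _
    have h1' : ψ (y : leechLattice) = QuotientGroup.mk ⟨jointIncl z t (kh * kq * kh⁻¹), hq'⟩ := by
      rw [← hxy]
      exact h1
    rw [star y _ hq' h1']
    congr 1
    apply Subtype.ext
    show θ (kh * kq * kh⁻¹) = θ kh * (q : ↥(Subgroup.centralizer ({z'} : Set X))) * (θ kh)⁻¹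
    rw [map_mul, map_mul, map_inv, hθq]

omit hΦ in
/-- In the abstract setting, `X` is of Baby Monster type. -/
theorem isBaby [Finite G] [Finite X] : Cfsg.IsOfBabyMonsterType X := by
  obtain ⟨Φ, hΦ⟩ := B.exists_phi
  obtain ⟨ψ', hψ'⟩ := B.exists_psi Φ hΦ
  obtain ⟨zK, hzK⟩ := B.zK_exists
  have d := B.classTwo Φ hΦ zK hzK
  have hz'eq : ((θ zK : ↥(Subgroup.centralizer ({z'} : Set X))) : X) = z' := B.hθz zK hzK
  obtain ⟨g', hne, k, hk, hkg⟩ := B.hfus
  have hmemk : θ k ∈ Φ.ker := (B.mem_ker_iff Φ hΦ _).2 ⟨k, hk, rfl⟩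
  have key : ∀ (w : X) (hw : w ∈ Subgroup.centralizer ({z'} : Set X)),
      w = ((θ k : ↥(Subgroup.centralizer ({z'} : Set X))) : X) →
      (⟨w, hw⟩ : ↥(Subgroup.centralizer ({z'} : Set X))) ∈ Φ.ker := by
    intro w hw h
    have h1 : (⟨w, hw⟩ : ↥(Subgroup.centralizer ({z'} : Set X))) = θ k := Subtype.ext h
    rw [h1]; exact hmemk
  have hq : g' * z' * g'⁻¹ ∈ Subgroup.centralizer ({z'} : Set X) := by
    rw [← hkg]; exact (θ k).2
  refine ⟨z', Φ.ker, inferInstance, ⟨?_, B.ker_fstar Φ hΦ, B.ker_extraspecial Φ hΦ, ?_,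
    g', ⟨hq, key _ hq hkg.symm⟩, hne⟩, _, ψ', hψ'⟩
  · rw [← hz'eq]
    have h1 : orderOf (θ zK) = 2 := by
      apply orderOf_eq_prime
      · rw [pow_two]; exact d.hzz
      · exact d.hz1
    rw [← h1]
    exact Subgroup.orderOf_coe _
  · rw [B.ker_card Φ hΦ]

end BabyCtx

end

end Cfsg.Agent.Lib.Helper30
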