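import Cfsg.Agent.Lib.Helper30.BabyCtx3

/-!
Groups of Monster type: for an involution `t` of `Q` lying over the class of the minimal vector
`leechU`, the quotient `C_G(t) / ⟨t⟩` is of Baby Monster type.
-/

set_option autoImplicit false

namespace Cfsg.Agent.Lib.Helper30

open Cfsg Cfsg.Spor Cfsg.Agent.Lib.Helper92 Cfsg.Agent.Lib.Helper7

section

variable {G : Type*} [Group G]

/-- The quotient of the centralizer of `t` by the subgroup generated by `t`. -/
abbrev centQuot (t : G)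
    [((Subgroup.zpowers t).subgroupOf (Subgroup.centralizer ({t} : Set G))).Normal] : Type _ :=
  ↥(Subgroup.centralizer ({t} : Set G)) ⧸
    (Subgroup.zpowers t).subgroupOf (Subgroup.centralizer ({t} : Set G))

theorem mem_zpowers_invol {t w : G} (htt : t * t = 1) :
    w ∈ Subgroup.zpowers t ↔ w = 1 ∨ w = t := by
  constructor
  · rintro ⟨k, rfl⟩
    obtain ⟨m, rfl | rfl⟩ := Int.even_or_odd' k
    · left
      show t ^ (2 * m) = 1
      rw [zpow_mul, zpow_two, htt, one_zpow]
    · right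
      show t ^ (2 * m + 1) = t
      rw [zpow_add_one, zpow_mul, zpow_two, htt, one_zpow, one_mul]
  · rintro (rfl | rfl)
    · exact Subgroup.one_mem _
    · exact Subgroup.mem_zpowers _

theorem baby_of_monster [Finite G] (z : G)
    (Q : Subgroup (Subgroup.centralizer ({z} : Set G))) [Q.Normal]
    (hz : orderOf z = 2)
    (hF : Cfsg.generalizedFittingSubgroup (Subgroup.centralizer ({z} : Set G)) = Q)
    (hES : Cfsg.IsExtraspecial 2 Q) (hcard : Nat.card Q = 2 ^ 25)
    (hnwc : ∃ g : G, (∃ hq : g * z * g⁻¹ ∈ Subgroup.centralizer ({z} : Set G),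
      (⟨g * z * g⁻¹, hq⟩ : Subgroup.centralizer ({z} : Set G)) ∈ Q) ∧ g * z * g⁻¹ ≠ z)
    (e : (Subgroup.centralizer ({z} : Set G)) ⧸ Q ≃* Spor.Co1)
    (ψ : leechLattice → Q ⧸ Subgroup.center Q) (hψ : Cfsg.IsLeechModTwoIso Q e ψ)
    (t : G) (htc : t ∈ Subgroup.centralizer ({z} : Set G))
    (htQ : (⟨t, htc⟩ : Subgroup.centralizer ({z} : Set G)) ∈ Q)
    (hψt : ψ leechU = QuotientGroup.mk ⟨⟨t, htc⟩, htQ⟩)
    [hn : ((Subgroup.zpowers t).subgroupOf (Subgroup.centralizer ({t} : Set G))).Normal] :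
    Cfsg.IsOfBabyMonsterType (↥(Subgroup.centralizer ({t} : Set G)) ⧸
      (Subgroup.zpowers t).subgroupOf (Subgroup.centralizer ({t} : Set G))) := by
  have h8 : 8 < Nat.card Q := by rw [hcard]; norm_num
  have hzC : z ∈ Subgroup.centralizer ({z} : Set G) := mem_cent_sing.2 rfl
  have D := leechQuadData_of_monster z Q hz hF hES (by omega) e ψ hψ ⟨z, hzC⟩ rfl
  have hB : Subgroup.centralizer (Q : Set (Subgroup.centralizer ({z} : Set G))) ≤ Q := by
    have := centralizer_generalizedFittingSubgroup_le (Subgroup.centralizer ({z} : Set G))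
    rwa [hF] at this
  have L := largeData_map z Q hB ⟨z, hzC⟩ rfl D.d h8
  obtain ⟨ht1', htz'⟩ := D.noncentral_of_norm32 leechU ⟨⟨t, htc⟩, htQ⟩ hψt sqNorm_leechU
  have ht1 : t ≠ 1 := fun h => ht1' (Subtype.ext h)
  have htz : t ≠ z := fun h => htz' (Subtype.ext h)
  have htt : t * t = 1 := congrArg Subtype.val
    ((D.sq_eq_one_iff leechU ⟨⟨t, htc⟩, htQ⟩ hψt).2 ⟨1, by rw [sqNorm_leechU]; norm_num⟩)
  have htQ₁ : t ∈ qImage Q := ⟨⟨t, htc⟩, htQ, rfl⟩
  have hzt : z * t = t * z := (mem_cent_sing.1 htc).symm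
  -- `t` is not conjugate to `z`
  have hnc : ∀ g : G, g * z * g⁻¹ ≠ t := by
    intro g h
    exact monster_conj_not_short z Q hz hF hES h8 e ψ hψ g ⟨⟨t, htc⟩, htQ⟩ h.symm
      (by rw [h]; exact htz) leechU hψt sqNorm_leechU
  obtain ⟨q₀, hq₀, hq₀t⟩ := L.d.exists_conj_eq htQ₁ ht1 htz
  -- the quotient
  obtain ⟨π, hπdef⟩ : ∃ π : ↥(Subgroup.centralizer ({t} : Set G)) →* centQuot t,
      π = QuotientGroup.mk' _ := ⟨_, rfl⟩
  have hπs : Function.Surjective π := by
    rw [hπdef]; exact QuotientGroup.mk'_surjective _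
  have hπ : ∀ a b : ↥(Subgroup.centralizer ({t} : Set G)),
      π a = π b ↔ (b : G) = (a : G) ∨ (b : G) = (a : G) * t := by
    intro a b
    rw [hπdef]
    show (QuotientGroup.mk a : centQuot t) = QuotientGroup.mk b ↔ _
    rw [QuotientGroup.eq, Subgroup.mem_subgroupOf, mem_zpowers_invol htt]
    show (a : G)⁻¹ * (b : G) = 1 ∨ (a : G)⁻¹ * (b : G) = t ↔ _
    constructor
    · rintro (h | h)
      · left
        calc (b : G) = (a : G) * ((a : G)⁻¹ * (b : G)) := by group
          _ = a := by rw [h, mul_one]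
      · right
        calc (b : G) = (a : G) * ((a : G)⁻¹ * (b : G)) := by group
          _ = (a : G) * t := by rw [h]
    · rintro (h | h)
      · left; rw [h]; group
      · right; rw [h]; group
  obtain ⟨zt, hzt'⟩ : ∃ zt : ↥(Subgroup.centralizer ({t} : Set G)), (zt : G) = z :=
    ⟨⟨z, mem_cent_sing.2 hzt⟩, rfl⟩
  obtain ⟨z', hz'⟩ : ∃ z' : centQuot t, z' = π zt := ⟨_, rfl⟩
  have key : ∀ x : ↥(Subgroup.centralizer ({t} : Set G)),
      π x ∈ Subgroup.centralizer ({z'} : Set (centQuot t)) ↔ (x : G) * z = z * (x : G) := by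
    intro x
    rw [mem_cent_sing, hz', ← map_mul, ← map_mul, hπ]
    show (zt : G) * (x : G) = (x : G) * (zt : G) ∨
      (zt : G) * (x : G) = (x : G) * (zt : G) * t ↔ _
    rw [hzt']
    constructor
    · rintro (h | h)
      · exact h.symm
      · exfalso
        apply hnc (q₀⁻¹ * (x : G)⁻¹)
        have h1 : (x : G)⁻¹ * z * (x : G) = z * t := by
          calc (x : G)⁻¹ * z * (x : G) = (x : G)⁻¹ * (z * (x : G)) := by group
            _ = (x : G)⁻¹ * ((x : G) * z * t) := by rw [h]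
            _ = z * t := by group
        calc q₀⁻¹ * (x : G)⁻¹ * z * (q₀⁻¹ * (x : G)⁻¹)⁻¹ =
            q₀⁻¹ * ((x : G)⁻¹ * z * (x : G)) * q₀ := by group
          _ = q₀⁻¹ * (q₀ * t * q₀⁻¹) * q₀ := by rw [h1, hq₀t]
          _ = t := by group
    · intro h
      left; exact h.symm
  obtain ⟨θ, hθapp⟩ : ∃ θ : ↥(jointCent z t) →*
      ↥(Subgroup.centralizer ({z'} : Set (centQuot t))),
      ∀ k : ↥(jointCent z t), ((θ k : ↥(Subgroup.centralizer ({z'} : Set (centQuot t)))) :
        centQuot t) = π ⟨(k : G), k.2.2⟩ :=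
    ⟨(π.comp (Subgroup.inclusion (inf_le_right :
        jointCent z t ≤ Subgroup.centralizer ({t} : Set G)))).codRestrict _
      (fun k => (key _).2 (mem_cent_sing.1 k.2.1)), fun k => rfl⟩
  have B : BabyCtx z Q e ψ t z' θ := by
    refine ⟨hz, hF, hES, hcard, hψ, htc, htQ, hψt, ?_, ?_, ?_, ?_⟩
    · intro d
      obtain ⟨x, hx⟩ := hπs (d : centQuot t)
      have hxz : (x : G) * z = z * (x : G) := (key x).1 (by rw [hx]; exact d.2)
      refine ⟨⟨(x : G), ⟨mem_cent_sing.2 hxz, x.2⟩⟩, ?_⟩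
      apply Subtype.ext
      rw [hθapp]
      exact hx
    · intro k
      have h1 : θ k = 1 ↔ π ⟨(k : G), k.2.2⟩ = π 1 := by
        constructor
        · intro h
          rw [← hθapp, h, map_one]; rfl
        · intro h
          apply Subtype.ext
          rw [hθapp, h, map_one]; rfl
      rw [h1]
      constructor
      · intro h
        rcases (hπ 1 ⟨(k : G), k.2.2⟩).1 h.symm with h2 | h2
        · left; exact h2
        · right
          have h3 : (k : G) = (1 : G) * t := h2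
          rw [one_mul] at h3; exact h3
      · intro h
        apply ((hπ 1 ⟨(k : G), k.2.2⟩).2 _).symm
        rcases h with h2 | h2
        · left; exact h2
        · right
          show (k : G) = (1 : G) * t
          rw [one_mul]; exact h2
    · intro k hk
      rw [hθapp, hz']
      congr 1
      exact Subtype.ext (hk.trans hzt'.symm)
    · obtain ⟨g, hgt, ⟨hq, hQ⟩, hgne⟩ := monster_fusion_cent z Q hz hF hES hcard hnwc e ψ hψ
        ⟨⟨t, htc⟩, htQ⟩ leechU hψt sqNorm_leechU
      have hgt' : g * t = t * g := hgt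
      obtain ⟨gt, hgt''⟩ : ∃ gt : ↥(Subgroup.centralizer ({t} : Set G)), (gt : G) = g :=
        ⟨⟨g, mem_cent_sing.2 hgt'⟩, rfl⟩
      have hconj : ((gt * zt * gt⁻¹ : ↥(Subgroup.centralizer ({t} : Set G))) : G) =
          g * z * g⁻¹ := by
        show (gt : G) * (zt : G) * (gt : G)⁻¹ = _
        rw [hgt'', hzt']
      refine ⟨π gt, ?_, ⟨g * z * g⁻¹, ⟨hq, by rw [← hconj]; exact (gt * zt * gt⁻¹).2⟩⟩,
        ⟨⟨g * z * g⁻¹, hq⟩, hQ, rfl⟩, ?_⟩
      · rw [hz', ← map_inv, ← map_mul, ← map_mul]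
        intro h
        rcases (hπ _ _).1 h with h1 | h1
        · apply hgne
          rw [← hconj, ← h1, hzt']
        · rw [hconj, hzt'] at h1
          have h2 : g * z * g⁻¹ = z * t := by
            calc g * z * g⁻¹ = (g * z * g⁻¹ * t) * t := by
                  rw [mul_assoc (g * z * g⁻¹) t t, htt, mul_one]
              _ = z * t := by rw [← h1]
          apply hnc (q₀⁻¹ * g)
          calc q₀⁻¹ * g * z * (q₀⁻¹ * g)⁻¹ = q₀⁻¹ * (g * z * g⁻¹) * q₀ := by group
            _ = q₀⁻¹ * (q₀ * t * q₀⁻¹) * q₀ := by rw [h2, hq₀t]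
            _ = t := by group
      · rw [hθapp, hz', ← map_inv, ← map_mul, ← map_mul]
        congr 1
        exact Subtype.ext hconj.symm
  exact B.isBaby

end

end Cfsg.Agent.Lib.Helper30
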