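import Cfsg.Agent.Lib.Helper92.LeechOrder
import Cfsg.Agent.Lib.Helper7.GolaySimple
import Cfsg.Agent.Lib.Helper6.Golay

/-!
Normal 2-subgroups of the stabilizer of a cross (a class of vectors of sum of squares `64` modulo
twice the lattice) in the automorphism group of the Leech lattice consist of sign changes; in
particular they have order at most `2 ^ 12`.
-/

set_option autoImplicit false

namespace Cfsg.Agent.Lib.Helper30

open Cfsg Cfsg.Spor Cfsg.Agent.Lib.Helper92 Cfsg.Agent.Lib.Helper7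

theorem latEight_coe (i : GolayPt) : ((latEight i : leechLattice) : GolayPt → ℤ) = Pi.single i 8 :=
  vecEight_eq_single i

/-- The axis through `8 e_i`. -/
def axis (i : GolayPt) : Sym2 leechLattice := s(latEight i, -latEight i)

theorem latEight_ne (i j : GolayPt) (h : latEight i = -latEight j) : False := by
  have h1 := congrFun (congrArg Subtype.val h) i
  have h2 : ((-latEight j : leechLattice) : GolayPt → ℤ) i = -((latEight j : leechLattice) : GolayPt → ℤ) i :=
    rfl
  rw [h2, latEight_coe, latEight_coe] at h1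
  simp only [Pi.single_apply] at h1
  split_ifs at h1 <;> omega

theorem latEight_inj {i j : GolayPt} (h : latEight i = latEight j) : i = j := by
  have h1 := congrFun (congrArg Subtype.val h) i
  rw [latEight_coe, latEight_coe] at h1
  simp only [Pi.single_apply, if_true] at h1
  by_contra hij
  rw [if_neg hij] at h1
  omega

theorem axis_injective : Function.Injective axis := by
  intro i j h
  unfold axis at h
  rw [Sym2.eq_iff] at h
  rcases h with ⟨h1, -⟩ | ⟨h1, -⟩
  · exact latEight_inj h1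
  · exact (latEight_ne i j h1).elim

theorem axis_map_of {g : Equiv.Perm leechLattice} (hg : g ∈ Co0) {i j : GolayPt}
    (h : g (latEight i) = latEight j ∨ g (latEight i) = -latEight j) :
    Sym2.map g (axis i) = axis j := by
  unfold axis
  rw [Sym2.map_mk, co0_map_neg hg]
  rcases h with h | h
  · rw [h]
  · rw [h, neg_neg, Sym2.eq_swap]

theorem of_axis_map {g : Equiv.Perm leechLattice} {i j : GolayPt}
    (h : Sym2.map g (axis i) = axis j) :
    g (latEight i) = latEight j ∨ g (latEight i) = -latEight j := by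
  unfold axis at h
  rw [Sym2.map_mk, Sym2.eq_iff] at h
  rcases h with ⟨h1, -⟩ | ⟨h1, -⟩
  · exact Or.inl h1
  · exact Or.inr h1

theorem sym2_map_mul (g h : Equiv.Perm leechLattice) (p : Sym2 leechLattice) :
    Sym2.map (g * h : Equiv.Perm leechLattice) p = Sym2.map g (Sym2.map h p) := by
  rw [Sym2.map_map]; rfl

theorem sym2_map_inv {g : Equiv.Perm leechLattice} {p q : Sym2 leechLattice}
    (h : Sym2.map g p = q) : Sym2.map (g⁻¹ : Equiv.Perm leechLattice) q = p := by
  rw [← h, Sym2.map_map]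
  have : ((g⁻¹ : Equiv.Perm leechLattice) : leechLattice → leechLattice) ∘ g = id := by
    funext x; simp
  rw [this, Sym2.map_id]; rfl

/-- A monomial map sends `8 e_i` to `± 8 e_{σ i}`. -/
theorem mono_latEight {m : Equiv.Perm leechLattice} {σ : Equiv.Perm GolayPt} {u : GolayPt → ZMod 2}
    (h : ∀ x : leechLattice, ((m x : leechLattice) : GolayPt → ℤ) =
      signVec u (permVec σ (x : GolayPt → ℤ))) (i : GolayPt) :
    m (latEight i) = latEight (σ i) ∨ m (latEight i) = -latEight (σ i) := by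
  have h1 := h (latEight i)
  rw [latEight_coe, signVec_permVec_single] at h1
  unfold sgn at h1
  split_ifs at h1
  · right
    apply Subtype.ext
    rw [h1]
    show _ = -((latEight (σ i) : leechLattice) : GolayPt → ℤ)
    rw [latEight_coe, ← Pi.single_neg]
    norm_num
  · left
    apply Subtype.ext
    rw [h1, latEight_coe]
    norm_num


/-- A 2-group of automorphisms of the standard cross that is normalized by the monomial group fixes
every axis. -/
theorem std_axes_fixed (M : Subgroup (Equiv.Perm leechLattice))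
    (hM : ∀ m ∈ M, ∃ hm : m ∈ Co0, StabCross ⟨m, hm⟩)
    (hnorm : ∀ s : Co0, StabCross s → ∀ m ∈ M,
      (s : Equiv.Perm leechLattice) * m * (s : Equiv.Perm leechLattice)⁻¹ ∈ M)
    (h2 : ∀ m ∈ M, ∃ k : ℕ, m ^ 2 ^ k = 1) :
    ∀ m ∈ M, ∀ i : GolayPt, m (latEight i) = latEight i ∨ m (latEight i) = -latEight i := by
  classical
  -- every element maps axes to axes
  have hax : ∀ m ∈ M, ∀ i : GolayPt, ∃ j : GolayPt, Sym2.map m (axis i) = axis j := by
    intro m hm i
    obtain ⟨hm0, hs⟩ := hM m hm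
    obtain ⟨σ, -, u, -, hσ⟩ := stab_cross_struct ⟨m, hm0⟩ hs
    exact ⟨σ i, axis_map_of hm0 (mono_latEight hσ i)⟩
  by_contra hcon
  push Not at hcon
  obtain ⟨m₀, hm₀, a, ha1, ha2⟩ := hcon
  obtain ⟨b, hb⟩ := hax m₀ hm₀ a
  have hab : a ≠ b := by
    intro h
    rw [← h] at hb
    rcases of_axis_map hb with h1 | h1
    · exact ha1 h1
    · exact ha2 h1
  obtain ⟨axisF, haxisF⟩ : ∃ axisF : Finset (Sym2 leechLattice),
      axisF = Finset.univ.image axis := ⟨_, rfl⟩
  have hmemF : ∀ i : GolayPt, axis i ∈ axisF := by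
    intro i; rw [haxisF]; exact Finset.mem_image_of_mem _ (Finset.mem_univ i)
  have hmap : ∀ m ∈ M, ∀ p ∈ axisF, Sym2.map (m : Equiv.Perm leechLattice) p ∈ axisF := by
    intro m hm p hp
    rw [haxisF] at hp
    obtain ⟨i, -, rfl⟩ := Finset.mem_image.1 hp
    obtain ⟨j, hj⟩ := hax m hm i
    rw [hj]; exact hmemF j
  let _ : MulAction ↥M {p : Sym2 leechLattice // p ∈ axisF} :=
    { smul := fun n p => ⟨Sym2.map ((n : Equiv.Perm leechLattice) : leechLattice → leechLattice) p.1,
        hmap n n.2 p.1 p.2⟩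
      one_smul := fun p => by
        apply Subtype.ext
        show Sym2.map (((1 : ↥M) : Equiv.Perm leechLattice) : leechLattice → leechLattice) p.1 = p.1
        have : ((((1 : ↥M) : Equiv.Perm leechLattice)) : leechLattice → leechLattice) = id := rfl
        rw [this, Sym2.map_id]; rfl
      mul_smul := fun a b p => by
        apply Subtype.ext
        show Sym2.map (((a * b : ↥M) : Equiv.Perm leechLattice) : leechLattice → leechLattice) p.1 =
          Sym2.map ((a : Equiv.Perm leechLattice) : leechLattice → leechLattice)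
            (Sym2.map ((b : Equiv.Perm leechLattice) : leechLattice → leechLattice) p.1)
        rw [Sym2.map_map]; rfl }
  have hp : IsPGroup 2 ↥M := by
    intro n
    obtain ⟨k, hk⟩ := h2 n n.2
    exact ⟨k, Subtype.ext hk⟩
  -- transitivity
  have htrans : ∀ c d : GolayPt, ∃ m ∈ M, Sym2.map m (axis c) = axis d := by
    intro c d
    by_cases hcd : c = d
    · refine ⟨1, M.one_mem, ?_⟩
      rw [hcd]
      have : ((1 : Equiv.Perm leechLattice) : leechLattice → leechLattice) = id := rfl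
      rw [this, Sym2.map_id]; rfl
    · obtain ⟨π, hπ, hπa, hπb⟩ := M24_trans2 hab hcd
      obtain ⟨n, hn⟩ : ∃ n : Co0, n = monoElt (⟨π, hπ⟩, 0) := ⟨_, rfl⟩
      have hns : StabCross n := by rw [hn]; exact monoElt_stab _
      have hnx : ∀ x : leechLattice, (((n : Equiv.Perm leechLattice) x : leechLattice) : GolayPt → ℤ) =
          signVec (0 : golayCode).1 (permVec π (x : GolayPt → ℤ)) := by
        intro x; rw [hn]; rfl
      have e1 : Sym2.map (n : Equiv.Perm leechLattice) (axis a) = axis c := by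
        have := axis_map_of n.2 (mono_latEight hnx a)
        rw [hπa] at this; exact this
      have e2 : Sym2.map (n : Equiv.Perm leechLattice) (axis b) = axis d := by
        have := axis_map_of n.2 (mono_latEight hnx b)
        rw [hπb] at this; exact this
      refine ⟨(n : Equiv.Perm leechLattice) * m₀ * (n : Equiv.Perm leechLattice)⁻¹,
        hnorm n hns m₀ hm₀, ?_⟩
      rw [sym2_map_mul, sym2_map_mul, sym2_map_inv e1, hb, e2]
  have horb : MulAction.orbit ↥M (⟨axis a, hmemF a⟩ : {p : Sym2 leechLattice // p ∈ axisF}) =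
      Set.univ := by
    ext ⟨p, hp'⟩
    simp only [Set.mem_univ, iff_true]
    have hp'' := hp'
    rw [haxisF] at hp''
    obtain ⟨d, -, rfl⟩ := Finset.mem_image.1 hp''
    obtain ⟨m, hm, hmd⟩ := htrans a d
    exact ⟨⟨m, hm⟩, Subtype.ext hmd⟩
  obtain ⟨k, hk⟩ := hp.card_orbit (⟨axis a, hmemF a⟩ : {p : Sym2 leechLattice // p ∈ axisF})
  rw [horb, Nat.card_congr (Equiv.Set.univ _), Nat.card_eq_fintype_card, Fintype.card_coe, haxisF,
    Finset.card_image_of_injective _ axis_injective, Finset.card_univ, card_fintype_golayPt] at hk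
  have h3 : (3 : ℕ) ∣ 2 ^ k := by
    rw [← hk]; norm_num
  have h4 := (Nat.Prime.dvd_of_dvd_pow Nat.prime_three h3)
  omega


/-- An automorphism of the standard cross fixing every axis is a sign change on a code word. -/
theorem sign_of_axes_fixed {m : Equiv.Perm leechLattice} (hm : m ∈ Co0) (hs : StabCross ⟨m, hm⟩)
    (hfix : ∀ i : GolayPt, m (latEight i) = latEight i ∨ m (latEight i) = -latEight i) :
    ∃ (u : GolayPt → ZMod 2) (hu : u ∈ golayCode), m = signCo u hu := by
  obtain ⟨σ, -, u, hu, hform⟩ := stab_cross_struct ⟨m, hm⟩ hs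
  have hσ : σ = 1 := by
    apply Equiv.ext
    intro i
    have h1 := axis_map_of hm (mono_latEight hform i)
    have h2 := axis_map_of hm (hfix i)
    exact axis_injective (h1.symm.trans h2)
  refine ⟨u, hu, ?_⟩
  apply Equiv.ext
  intro x
  apply Subtype.ext
  rw [signCo_apply]
  have h3 := hform x
  rw [hσ] at h3
  exact h3

theorem stabCross_iff (s : Equiv.Perm leechLattice) (hs : s ∈ Co0) :
    StabCross ⟨s, hs⟩ ↔ ∃ w : leechLattice, s (latEight none) = latEight none + (w + w) := by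
  constructor
  · intro h
    have h1 : ((s (latEight none) : leechLattice) : GolayPt → ℤ) ∈ stdCross :=
      h (latEight none) (latEight_mem_stdCross none)
    rw [← cross_eight] at h1
    obtain ⟨-, -, z, hz, hxz⟩ := h1
    refine ⟨-⟨z, hz⟩, ?_⟩
    apply Subtype.ext
    show ((s (latEight none) : leechLattice) : GolayPt → ℤ) = vecEight none + (-z + -z)
    have e : (2 : ℕ) • z = z + z := two_nsmul z
    rw [e] at hxz
    rw [← neg_add, ← hxz]
    abel
  · rintro ⟨w, hw⟩ v₁ hv₁
    have hv' : (v₁ : GolayPt → ℤ) ∈ cross (vecEight none) := by rw [cross_eight]; exact hv₁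
    obtain ⟨-, hvn, z, hz, hxz⟩ := hv'
    rw [← cross_eight]
    have e : latEight none = v₁ + ((⟨z, hz⟩ : leechLattice) + ⟨z, hz⟩) := by
      apply Subtype.ext
      show vecEight none = v₁.1 + (z + z)
      rw [← two_nsmul z, ← hxz]
      abel
    have e2 : s (latEight none) = s v₁ + (s ⟨z, hz⟩ + s ⟨z, hz⟩) := by
      conv_lhs => rw [e]
      rw [co0_map_add hs, co0_map_add hs]
    rw [hw] at e2
    have e3 : vecEight none + ((w : GolayPt → ℤ) + (w : GolayPt → ℤ)) =
        ((s v₁ : leechLattice) : GolayPt → ℤ) +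
          (((s ⟨z, hz⟩ : leechLattice) : GolayPt → ℤ) + ((s ⟨z, hz⟩ : leechLattice) : GolayPt → ℤ)) :=
      congrArg Subtype.val e2
    refine ⟨(s v₁).2, (co0_sqNorm hs v₁).trans hvn,
      ((s ⟨z, hz⟩ - w : leechLattice) : GolayPt → ℤ), (s ⟨z, hz⟩ - w).2, ?_⟩
    show vecEight none - ((s v₁ : leechLattice) : GolayPt → ℤ) =
      (2 : ℕ) • (((s ⟨z, hz⟩ : leechLattice) : GolayPt → ℤ) - (w : GolayPt → ℤ))
    rw [two_nsmul]
    have e4 : vecEight none = ((s v₁ : leechLattice) : GolayPt → ℤ) +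
          (((s ⟨z, hz⟩ : leechLattice) : GolayPt → ℤ) + ((s ⟨z, hz⟩ : leechLattice) : GolayPt → ℤ)) -
          ((w : GolayPt → ℤ) + (w : GolayPt → ℤ)) := by
      rw [← e3]; abel
    rw [e4]
    abel

/-- A normal 2-subgroup of the stabilizer of the class of `v` (of sum of squares `64`) modulo twice
the lattice consists, after transport to the standard cross, of sign changes on code words. -/
theorem cross_normal_two_sign (v : leechLattice) (τ : Equiv.Perm leechLattice) (hτ : τ ∈ Co0)
    (hτv : τ v = latEight none) (M : Subgroup (Equiv.Perm leechLattice))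
    (hM : ∀ m ∈ M, m ∈ Co0 ∧ ∃ w : leechLattice, m v = v + (w + w))
    (hnorm : ∀ s : Equiv.Perm leechLattice, s ∈ Co0 → (∃ w : leechLattice, s v = v + (w + w)) →
      ∀ m ∈ M, s * m * s⁻¹ ∈ M)
    (h2 : ∀ m ∈ M, ∃ k : ℕ, m ^ 2 ^ k = 1) :
    ∀ m ∈ M, ∃ (u : GolayPt → ZMod 2) (hu : u ∈ golayCode), τ * m * τ⁻¹ = signCo u hu := by
  have hτi : τ⁻¹ (latEight none) = v := by
    rw [Equiv.Perm.inv_eq_iff_eq]; exact hτv.symm
  have hτi0 : τ⁻¹ ∈ Co0 := Co0.inv_mem hτ
  obtain ⟨M', hM'⟩ : ∃ M' : Subgroup (Equiv.Perm leechLattice),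
      M' = M.map (MulAut.conj τ).toMonoidHom := ⟨_, rfl⟩
  have hmem : ∀ m, m ∈ M' ↔ τ⁻¹ * m * τ ∈ M := by
    intro m; rw [hM', Subgroup.mem_map_equiv, MulAut.conj_symm_apply]
  have hco : ∀ m ∈ M', m ∈ Co0 := by
    intro m hm
    rw [hmem] at hm
    have e : m = τ * (τ⁻¹ * m * τ) * τ⁻¹ := by group
    rw [e]; exact Co0.mul_mem (Co0.mul_mem hτ (hM _ hm).1) hτi0
  have h1 : ∀ m ∈ M', ∃ hm : m ∈ Co0, StabCross ⟨m, hm⟩ := by
    intro m hm
    refine ⟨hco m hm, ?_⟩
    rw [stabCross_iff]
    rw [hmem] at hm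
    obtain ⟨-, w, hw⟩ := hM _ hm
    refine ⟨τ w, ?_⟩
    have h3 : τ ((τ⁻¹ * m * τ) v) = τ (v + (w + w)) := by rw [hw]
    rw [Equiv.Perm.mul_apply, Equiv.Perm.mul_apply, hτv, co0_map_add hτ, co0_map_add hτ, hτv] at h3
    have h4 : τ (τ⁻¹ (m (latEight none))) = m (latEight none) := Equiv.apply_symm_apply τ _
    rw [h4] at h3
    exact h3
  have h3 : ∀ s : Co0, StabCross s → ∀ m ∈ M',
      (s : Equiv.Perm leechLattice) * m * (s : Equiv.Perm leechLattice)⁻¹ ∈ M' := by
    intro s hs m hm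
    rw [hmem] at hm ⊢
    have hs' : StabCross ⟨(s : Equiv.Perm leechLattice), s.2⟩ := hs
    rw [stabCross_iff] at hs'
    obtain ⟨w, hw⟩ := hs'
    have h4 : ∃ w' : leechLattice,
        (τ⁻¹ * (s : Equiv.Perm leechLattice) * τ) v = v + (w' + w') := by
      refine ⟨τ⁻¹ w, ?_⟩
      rw [Equiv.Perm.mul_apply, Equiv.Perm.mul_apply, hτv, hw, co0_map_add hτi0,
        co0_map_add hτi0, hτi]
    have h5 := hnorm (τ⁻¹ * (s : Equiv.Perm leechLattice) * τ)
      (Co0.mul_mem (Co0.mul_mem hτi0 s.2) hτ) h4 _ hm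
    have e : τ⁻¹ * ((s : Equiv.Perm leechLattice) * m * (s : Equiv.Perm leechLattice)⁻¹) * τ =
        τ⁻¹ * (s : Equiv.Perm leechLattice) * τ * (τ⁻¹ * m * τ) *
          (τ⁻¹ * (s : Equiv.Perm leechLattice) * τ)⁻¹ := by group
    rw [e]; exact h5
  have h4 : ∀ m ∈ M', ∃ k : ℕ, m ^ 2 ^ k = 1 := by
    intro m hm
    rw [hmem] at hm
    obtain ⟨k, hk⟩ := h2 _ hm
    refine ⟨k, ?_⟩
    have e : τ⁻¹ * m * τ = τ⁻¹ * m * τ⁻¹⁻¹ := by rw [inv_inv]
    rw [e, conj_pow] at hk
    calc m ^ 2 ^ k = τ * (τ⁻¹ * m ^ 2 ^ k * τ⁻¹⁻¹) * τ⁻¹ := by group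
      _ = 1 := by rw [hk]; group
  have hfix := std_axes_fixed M' h1 h3 h4
  intro m hm
  have hm' : τ * m * τ⁻¹ ∈ M' := by
    rw [hmem]
    have e : τ⁻¹ * (τ * m * τ⁻¹) * τ = m := by group
    rw [e]; exact hm
  obtain ⟨hm0, hs⟩ := h1 _ hm'
  exact sign_of_axes_fixed hm0 hs (hfix _ hm')

/-- A normal 2-subgroup of the stabilizer of the class of `v` (of sum of squares `64`) modulo twice
the lattice has order at most `2 ^ 12`. -/
theorem cross_normal_two_card (v : leechLattice) (hv : sqNorm (v : GolayPt → ℤ) = 64)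
    (M : Subgroup (Equiv.Perm leechLattice))
    (hM : ∀ m ∈ M, m ∈ Co0 ∧ ∃ w : leechLattice, m v = v + (w + w))
    (hnorm : ∀ s : Equiv.Perm leechLattice, s ∈ Co0 → (∃ w : leechLattice, s v = v + (w + w)) →
      ∀ m ∈ M, s * m * s⁻¹ ∈ M)
    (h2 : ∀ m ∈ M, ∃ k : ℕ, m ^ 2 ^ k = 1) : Nat.card M ≤ 2 ^ 12 := by
  obtain ⟨g, hg⟩ := co0_trans_64 v (latEight none) hv (sqNorm_vecEight none)
  have hs := cross_normal_two_sign v g g.2 hg M hM hnorm h2
  have hs' : ∀ m : ↥M, ∃ c : golayCode, (g : Equiv.Perm leechLattice) * (m : Equiv.Perm leechLattice) *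
      (g : Equiv.Perm leechLattice)⁻¹ = signCo c.1 c.2 := by
    intro m
    obtain ⟨u, hu, h⟩ := hs m m.2
    exact ⟨⟨u, hu⟩, h⟩
  choose f hf using hs'
  have hinj : Function.Injective f := by
    intro m m' h
    have h1 := hf m
    have h2 := hf m'
    rw [h] at h1
    have h3 : (g : Equiv.Perm leechLattice) * (m : Equiv.Perm leechLattice) *
        (g : Equiv.Perm leechLattice)⁻¹ = (g : Equiv.Perm leechLattice) *
        (m' : Equiv.Perm leechLattice) * (g : Equiv.Perm leechLattice)⁻¹ := h1.trans h2.symm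
    apply Subtype.ext
    exact mul_left_cancel (mul_right_cancel h3)
  have hfin : Finite golayCode := Nat.finite_of_card_ne_zero (by
    rw [Cfsg.Agent.Lib.Helper6.Golay.card_golayCode]; norm_num)
  have h := Nat.card_le_card_of_injective f hinj
  rw [Cfsg.Agent.Lib.Helper6.Golay.card_golayCode] at h
  calc Nat.card M ≤ 4096 := h
    _ = 2 ^ 12 := by norm_num

end Cfsg.Agent.Lib.Helper30
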