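import Cfsg.Agent.Lib.Helper30.CrossCore

/-!
The monomial group of the standard cross of the Leech lattice: the homomorphism from `M24` to the
automorphism group of the lattice, sign changes, and the normal 2-subgroup of the stabilizer of a
cross of order `2 ^ 12`.
-/

set_option autoImplicit false

namespace Cfsg.Agent.Lib.Helper30

open Cfsg Cfsg.Spor Cfsg.Agent.Lib.Helper92 Cfsg.Agent.Lib.Helper7

/-- Coordinate permutations, as a homomorphism from `M24` to the automorphism group. -/
def permHom : M24 →* Co0 where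
  toFun π := ⟨permCo π.1 π.2, permCo_mem _ _⟩
  map_one' := by
    apply Subtype.ext
    apply Equiv.ext
    intro x
    apply Subtype.ext
    rfl
  map_mul' π π' := by
    apply Subtype.ext
    apply Equiv.ext
    intro x
    apply Subtype.ext
    rfl

theorem permHom_coe (π : M24) : ((permHom π : Co0) : Equiv.Perm leechLattice) = permCo π.1 π.2 := rfl

theorem permCo_latEight (π : Equiv.Perm GolayPt) (hπ : π ∈ M24) (i : GolayPt) :
    permCo π hπ (latEight i) = latEight (π i) := by
  apply Subtype.ext
  rw [permCo_apply]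
  show permVec π ((latEight i : leechLattice) : GolayPt → ℤ) = ((latEight (π i) : leechLattice) : GolayPt → ℤ)
  rw [latEight_coe, latEight_coe]
  funext j
  simp only [permVec, Pi.single_apply]
  by_cases h : j = π i
  · rw [if_pos h, if_pos (by rw [h, Equiv.symm_apply_apply])]
  · rw [if_neg h, if_neg (fun h' => h (by rw [← h', Equiv.apply_symm_apply]))]

theorem permHom_stabCross (π : M24) : StabCross (permHom π) := by
  intro v₁ hv₁
  obtain ⟨i, h | h⟩ := (mem_stdCross_iff _).1 hv₁
  · have e1 : v₁ = latEight i := Subtype.ext h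
    rw [e1]
    show ((permCo π.1 π.2 (latEight i) : leechLattice) : GolayPt → ℤ) ∈ stdCross
    rw [permCo_latEight]
    exact latEight_mem_stdCross _
  · have e1 : v₁ = -latEight i := Subtype.ext h
    rw [e1]
    show ((permCo π.1 π.2 (-latEight i) : leechLattice) : GolayPt → ℤ) ∈ stdCross
    rw [co0_map_neg (permCo_mem _ _), permCo_latEight]
    rw [mem_stdCross_iff]
    exact ⟨π.1 i, Or.inr rfl⟩

theorem signCo_latEight (u : GolayPt → ZMod 2) (hu : u ∈ golayCode) (i : GolayPt) :
    signCo u hu (latEight i) = latEight i ∨ signCo u hu (latEight i) = -latEight i := by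
  have h : ∀ x : leechLattice, ((signCo u hu x : leechLattice) : GolayPt → ℤ) =
      signVec u (permVec (1 : Equiv.Perm GolayPt) (x : GolayPt → ℤ)) := fun x => rfl
  exact mono_latEight h i

/-- A coordinate permutation which is a sign change is trivial. -/
theorem perm_eq_one_of_sign (π : M24) (u : GolayPt → ZMod 2) (hu : u ∈ golayCode)
    (h : permCo π.1 π.2 = signCo u hu) : π = 1 := by
  apply Subtype.ext
  apply Equiv.ext
  intro i
  have h1 : Sym2.map (permCo π.1 π.2) (axis i) = axis (π.1 i) :=
    axis_map_of (permCo_mem _ _) (Or.inl (permCo_latEight π.1 π.2 i))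
  have h2 : Sym2.map (signCo u hu) (axis i) = axis i :=
    axis_map_of (signCo_mem _ _) (signCo_latEight u hu i)
  rw [h] at h1
  exact axis_injective (h1.symm.trans h2)

theorem permHom_injective_mod_center (π : M24) (h : permHom π ∈ Subgroup.center Co0) : π = 1 := by
  apply Subtype.ext
  apply Equiv.ext
  intro i
  have h1 : Sym2.map (permCo π.1 π.2) (axis i) = axis (π.1 i) :=
    axis_map_of (permCo_mem _ _) (Or.inl (permCo_latEight π.1 π.2 i))
  have h2 : Sym2.map (permCo π.1 π.2) (axis i) = axis i := by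
    apply axis_map_of (permCo_mem _ _)
    rcases center_co0 _ h with h3 | h3
    · left
      have h4 : permCo π.1 π.2 = 1 := congrArg Subtype.val h3
      rw [h4]; rfl
    · right
      have h4 : permCo π.1 π.2 = negCo := congrArg Subtype.val h3
      rw [h4]; rfl
  exact axis_injective (h1.symm.trans h2)

/-- If the normal 2-subgroup has order `2 ^ 12` it contains (the transports of) all sign changes. -/
theorem cross_normal_two_surj (v : leechLattice) (τ : Equiv.Perm leechLattice) (hτ : τ ∈ Co0)
    (hτv : τ v = latEight none) (M : Subgroup (Equiv.Perm leechLattice))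
    (hM : ∀ m ∈ M, m ∈ Co0 ∧ ∃ w : leechLattice, m v = v + (w + w))
    (hnorm : ∀ s : Equiv.Perm leechLattice, s ∈ Co0 → (∃ w : leechLattice, s v = v + (w + w)) →
      ∀ m ∈ M, s * m * s⁻¹ ∈ M)
    (h2 : ∀ m ∈ M, ∃ k : ℕ, m ^ 2 ^ k = 1) (hc : 2 ^ 12 ≤ Nat.card M)
    (u : GolayPt → ZMod 2) (hu : u ∈ golayCode) : τ⁻¹ * signCo u hu * τ ∈ M := by
  have hs := cross_normal_two_sign v τ hτ hτv M hM hnorm h2
  have hs' : ∀ m : ↥M, ∃ c : golayCode, τ * (m : Equiv.Perm leechLattice) * τ⁻¹ =
      signCo c.1 c.2 := by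
    intro m
    obtain ⟨u, hu, h⟩ := hs m m.2
    exact ⟨⟨u, hu⟩, h⟩
  choose f hf using hs'
  have hinj : Function.Injective f := by
    intro m m' h
    have h1 := hf m
    have h2 := hf m'
    rw [h] at h1
    have h3 : τ * (m : Equiv.Perm leechLattice) * τ⁻¹ = τ * (m' : Equiv.Perm leechLattice) * τ⁻¹ :=
      h1.trans h2.symm
    apply Subtype.ext
    exact mul_left_cancel (mul_right_cancel h3)
  have hfin : Finite golayCode := Nat.finite_of_card_ne_zero (by
    rw [Cfsg.Agent.Lib.Helper6.Golay.card_golayCode]; norm_num)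
  have hbij := hinj.bijective_of_nat_card_le (by
    rw [Cfsg.Agent.Lib.Helper6.Golay.card_golayCode]
    calc 4096 = 2 ^ 12 := by norm_num
      _ ≤ Nat.card M := hc)
  obtain ⟨m, hm⟩ := hbij.2 ⟨u, hu⟩
  have h1 := hf m
  rw [hm] at h1
  have h2 : τ⁻¹ * signCo u hu * τ = (m : Equiv.Perm leechLattice) := by
    show τ⁻¹ * signCo (⟨u, hu⟩ : golayCode).1 (⟨u, hu⟩ : golayCode).2 * τ = _
    rw [← h1]; group
  rw [h2]; exact m.2

end Cfsg.Agent.Lib.Helper30
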