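import Mathlib
import Cfsg.Prelude.Def_Transfer
import Cfsg.Agent.Lib.Helper30.TIFamily2

/-!
Elementary abelian 2-subgroups acting on a normal elementary abelian 2-subgroup `E`:
fixed point estimates `|E| ≤ |C_E(B)| ^ |B : B ∩ E|`, and extension of an elementary abelian
subgroup by a commuting involution.
-/

set_option autoImplicit false

namespace Cfsg.Agent.Lib.Helper30

variable {X : Type*} [Group X]

/-- If an involution `v` normalizes an elementary abelian 2-subgroup `F`, then
`|F| ≤ |C_F(v)|²`. -/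
theorem card_le_sq_fixed [Finite X] (F : Subgroup X)
    (hFc : ∀ x ∈ F, ∀ y ∈ F, x * y = y * x) (hF2 : ∀ x ∈ F, x ^ 2 = 1)
    (v : X) (hv2 : v ^ 2 = 1) (hv : ∀ f ∈ F, v * f * v⁻¹ ∈ F) :
    Nat.card F ≤ Nat.card (F ⊓ Subgroup.centralizer ({v} : Set X) : Subgroup X) ^ 2 := by
  have hvinv : v⁻¹ = v := inv_eq_of_mul_eq_one_left (by rw [← pow_two]; exact hv2)
  let φ : F →* F :=
    { toFun := fun f => ⟨(f : X) * (v * f * v⁻¹), F.mul_mem f.2 (hv f f.2)⟩
      map_one' := by
        apply Subtype.ext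
        show (1 : X) * (v * 1 * v⁻¹) = 1
        group
      map_mul' := by
        intro f g
        apply Subtype.ext
        show ((f : X) * (g : X)) * (v * ((f : X) * (g : X)) * v⁻¹) =
          ((f : X) * (v * f * v⁻¹)) * ((g : X) * (v * g * v⁻¹))
        have h1 := hFc (g : X) g.2 (v * f * v⁻¹) (hv f f.2)
        calc ((f : X) * (g : X)) * (v * ((f : X) * (g : X)) * v⁻¹)
            = (f : X) * ((g : X) * (v * f * v⁻¹)) * (v * g * v⁻¹) := by group
          _ = (f : X) * ((v * f * v⁻¹) * (g : X)) * (v * g * v⁻¹) := by rw [h1]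
          _ = ((f : X) * (v * f * v⁻¹)) * ((g : X) * (v * g * v⁻¹)) := by group }
  have hφ : ∀ f : F, ((φ f : F) : X) = (f : X) * (v * f * v⁻¹) := fun f => rfl
  have hker : φ.ker ≤ (F ⊓ Subgroup.centralizer ({v} : Set X)).subgroupOf F := by
    intro f hf
    rw [MonoidHom.mem_ker] at hf
    have h1 : (f : X) * (v * f * v⁻¹) = 1 := by rw [← hφ, hf]; rfl
    rw [Subgroup.mem_subgroupOf]
    refine Subgroup.mem_inf.2 ⟨f.2, ?_⟩
    rw [Subgroup.mem_centralizer_iff]
    intro y hy
    rw [Set.mem_singleton_iff] at hy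
    rw [hy]
    have hfinv : (f : X)⁻¹ = f := inv_eq_of_mul_eq_one_left (by rw [← pow_two]; exact hF2 f f.2)
    have h2 : v * f * v⁻¹ = (f : X) := by
      have := eq_inv_of_mul_eq_one_right h1
      rw [this, hfinv]
    calc v * (f : X) = (v * f * v⁻¹) * v := by group
      _ = f * v := by rw [h2]
  have hrange : φ.range ≤ (F ⊓ Subgroup.centralizer ({v} : Set X)).subgroupOf F := by
    rintro _ ⟨f, rfl⟩
    rw [Subgroup.mem_subgroupOf]
    refine Subgroup.mem_inf.2 ⟨(φ f).2, ?_⟩
    rw [Subgroup.mem_centralizer_iff]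
    intro y hy
    rw [Set.mem_singleton_iff] at hy
    rw [hy, hφ]
    have h1 := hFc (f : X) f.2 (v * f * v⁻¹) (hv f f.2)
    have hvv : v * v = 1 := by rw [← pow_two]; exact hv2
    calc v * ((f : X) * (v * f * v⁻¹)) = (v * f * v⁻¹) * (v * v) * f * v⁻¹ := by group
      _ = (v * f * v⁻¹) * f * v⁻¹ := by rw [hvv, mul_one]
      _ = (f : X) * (v * f * v⁻¹) * v⁻¹ := by rw [h1]
      _ = (f : X) * (v * f * v⁻¹) * v := by rw [hvinv]
  have hcard : Nat.card ((F ⊓ Subgroup.centralizer ({v} : Set X)).subgroupOf F) =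
      Nat.card (F ⊓ Subgroup.centralizer ({v} : Set X) : Subgroup X) :=
    Nat.card_congr (Subgroup.subgroupOfEquivOfLe inf_le_left).toEquiv
  have h1 : Nat.card φ.ker * Nat.card φ.range = Nat.card F := by
    rw [← Subgroup.index_ker]; exact Subgroup.card_mul_index _
  rw [← h1, pow_two, ← hcard]
  exact Nat.mul_le_mul (Subgroup.card_le_of_le hker) (Subgroup.card_le_of_le hrange)

/-- Fixed points of an elementary abelian 2-subgroup `B` on a normal elementary abelian
2-subgroup `E`: `|E| ≤ |C_E(B)| ^ |B : B ∩ E|`. -/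
theorem card_le_pow_fixed [Finite X] (E : Subgroup X) (hEn : E.Normal)
    (hEc : ∀ x ∈ E, ∀ y ∈ E, x * y = y * x) (hE2 : ∀ x ∈ E, x ^ 2 = 1) :
    ∀ B : Subgroup X, (∀ x ∈ B, ∀ y ∈ B, x * y = y * x) → (∀ x ∈ B, x ^ 2 = 1) →
      Nat.card E ≤ Nat.card (E ⊓ Subgroup.centralizer (B : Set X) : Subgroup X) ^
        (B ⊓ E).relIndex B := by
  intro B
  induction B using WellFoundedLT.induction with
  | ind B ih =>
    intro hBc hB2
    by_cases hBE : B ≤ E
    · have h1 : E ⊓ Subgroup.centralizer (B : Set X) = E := by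
        apply inf_eq_left.2
        intro e he
        rw [Subgroup.mem_centralizer_iff]
        intro b hb
        exact hEc b (hBE hb) e he
      have h2 : (B ⊓ E).relIndex B = 1 := Subgroup.relIndex_eq_one.2 (le_inf le_rfl hBE)
      rw [h1, h2, pow_one]
    · have hlt : B ⊓ E < B := by
        refine lt_of_le_of_ne inf_le_left ?_
        intro h
        exact hBE (h ▸ inf_le_right)
      have hBp : IsPGroup 2 B := by
        intro b
        refine ⟨1, Subtype.ext ?_⟩
        simpa using hB2 b b.2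
      obtain ⟨M, hCM, hMB, hidx⟩ := exists_index_two_of_lt hBp hlt
      have hMne : M ≠ B := by
        intro h
        rw [h, Subgroup.subgroupOf_self, Subgroup.index_top] at hidx
        omega
      have hMlt : M < B := lt_of_le_of_ne hMB hMne
      have ihM := ih M hMlt (fun x hx y hy => hBc x (hMB hx) y (hMB hy))
        (fun x hx => hB2 x (hMB hx))
      obtain ⟨h, hhB, hhM⟩ : ∃ h, h ∈ B ∧ h ∉ M := by
        by_contra hcon
        push Not at hcon
        exact hMne (le_antisymm hMB hcon)
      have hME : M ⊓ E = B ⊓ E :=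
        le_antisymm (inf_le_inf_right E hMB) (le_inf hCM inf_le_right)
      -- the fixed points of `M` on `E`
      have hFc : ∀ x ∈ E ⊓ Subgroup.centralizer (M : Set X),
          ∀ y ∈ E ⊓ Subgroup.centralizer (M : Set X), x * y = y * x :=
        fun x hx y hy => hEc x hx.1 y hy.1
      have hF2 : ∀ x ∈ E ⊓ Subgroup.centralizer (M : Set X), x ^ 2 = 1 :=
        fun x hx => hE2 x hx.1
      have hhF : ∀ f ∈ E ⊓ Subgroup.centralizer (M : Set X),
          h * f * h⁻¹ ∈ E ⊓ Subgroup.centralizer (M : Set X) := by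
        intro f hf
        refine Subgroup.mem_inf.2 ⟨hEn.conj_mem f hf.1 h, ?_⟩
        rw [Subgroup.mem_centralizer_iff]
        intro m hm
        have h1 := Subgroup.mem_centralizer_iff.1 hf.2 m hm
        have h2 := hBc h hhB m (hMB hm)
        have h3 : h⁻¹ * m = m * h⁻¹ := by
          calc h⁻¹ * m = h⁻¹ * (m * h) * h⁻¹ := by group
            _ = h⁻¹ * (h * m) * h⁻¹ := by rw [h2]
            _ = m * h⁻¹ := by group
        calc m * (h * f * h⁻¹) = (m * h) * f * h⁻¹ := by group
          _ = (h * m) * f * h⁻¹ := by rw [h2]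
          _ = h * (m * f) * h⁻¹ := by group
          _ = h * (f * m) * h⁻¹ := by rw [h1]
          _ = h * f * (m * h⁻¹) := by group
          _ = h * f * (h⁻¹ * m) := by rw [h3]
          _ = h * f * h⁻¹ * m := by group
      have hL := card_le_sq_fixed (E ⊓ Subgroup.centralizer (M : Set X)) hFc hF2 h (hB2 h hhB) hhF
      have hsub : (E ⊓ Subgroup.centralizer (M : Set X)) ⊓ Subgroup.centralizer ({h} : Set X) ≤
          E ⊓ Subgroup.centralizer (B : Set X) := by
        intro e he
        have he1 : e ∈ E := he.1.1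
        have he2 := Subgroup.mem_centralizer_iff.1 he.1.2
        have he3 : h * e = e * h := Subgroup.mem_centralizer_iff.1 he.2 h rfl
        refine Subgroup.mem_inf.2 ⟨he1, ?_⟩
        rw [Subgroup.mem_centralizer_iff]
        intro b hb
        by_cases hbM : b ∈ M
        · exact he2 b hbM
        · have hbh : b * h ∈ M := by
            have h1 := Subgroup.mul_mem_iff_of_index_two hidx (a := (⟨b, hb⟩ : B))
              (b := (⟨h, hhB⟩ : B))
            rw [Subgroup.mem_subgroupOf, Subgroup.mem_subgroupOf, Subgroup.mem_subgroupOf] at h1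
            exact h1.2 ⟨fun hh => absurd hh hbM, fun hh => absurd hh hhM⟩
          have h4 := he2 (b * h) hbh
          have h5 : h⁻¹ * e = e * h⁻¹ := by
            calc h⁻¹ * e = h⁻¹ * (e * h) * h⁻¹ := by group
              _ = h⁻¹ * (h * e) * h⁻¹ := by rw [he3]
              _ = e * h⁻¹ := by group
          calc b * e = (b * h) * (h⁻¹ * e) := by group
            _ = (b * h) * (e * h⁻¹) := by rw [h5]
            _ = ((b * h) * e) * h⁻¹ := by group
            _ = (e * (b * h)) * h⁻¹ := by rw [h4]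
            _ = e * b := by group
      have hcard2 : Nat.card (E ⊓ Subgroup.centralizer (M : Set X) : Subgroup X) ≤
          Nat.card (E ⊓ Subgroup.centralizer (B : Set X) : Subgroup X) ^ 2 :=
        hL.trans (Nat.pow_le_pow_left (Subgroup.card_le_of_le hsub) 2)
      have hrel : (B ⊓ E).relIndex B = (M ⊓ E).relIndex M * 2 := by
        have h1 := Subgroup.relIndex_mul_relIndex (B ⊓ E) M B hCM hMB
        have h2 : M.relIndex B = 2 := hidx
        rw [h2] at h1
        rw [hME, h1]
      rw [hrel, pow_mul']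
      exact ihM.trans (Nat.pow_le_pow_left hcard2 _)

theorem num_aux : ∀ m ≤ 8, ∀ t ≤ 8, m * t ∣ 8 → ¬ 32 ≤ m ^ t := by decide

/-- An elementary abelian 2-subgroup of order dividing 8 is centralized by an element of a
normal elementary abelian subgroup `E` of order at least 32 lying outside it. -/
theorem exists_centralizing_not_mem [Finite X] (E : Subgroup X) (hEn : E.Normal)
    (hEc : ∀ x ∈ E, ∀ y ∈ E, x * y = y * x) (hE2 : ∀ x ∈ E, x ^ 2 = 1)
    (hE32 : 32 ≤ Nat.card E) (A : Subgroup X) (hAc : ∀ x ∈ A, ∀ y ∈ A, x * y = y * x)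
    (hA2 : ∀ x ∈ A, x ^ 2 = 1) (hA8 : Nat.card A ∣ 8) :
    ∃ e ∈ E, (∀ a ∈ A, e * a = a * e) ∧ e ∉ A := by
  by_contra hcon
  push Not at hcon
  have hP := card_le_pow_fixed E hEn hEc hE2 A hAc hA2
  have hle : E ⊓ Subgroup.centralizer (A : Set X) ≤ A ⊓ E := by
    intro e he
    refine Subgroup.mem_inf.2 ⟨hcon e he.1 ?_, he.1⟩
    intro a ha
    exact (Subgroup.mem_centralizer_iff.1 he.2 a ha).symm
  have hc := Subgroup.card_le_of_le hle
  have hmt : Nat.card (A ⊓ E : Subgroup X) * (A ⊓ E).relIndex A = Nat.card A := by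
    have h1 := Subgroup.card_mul_index ((A ⊓ E).subgroupOf A)
    have h2 : Nat.card ((A ⊓ E).subgroupOf A) = Nat.card (A ⊓ E : Subgroup X) :=
      Nat.card_congr (Subgroup.subgroupOfEquivOfLe inf_le_left).toEquiv
    rw [h2] at h1
    exact h1
  have h32 : 32 ≤ Nat.card (A ⊓ E : Subgroup X) ^ (A ⊓ E).relIndex A :=
    hE32.trans (hP.trans (Nat.pow_le_pow_left hc _))
  have hmt8 : Nat.card (A ⊓ E : Subgroup X) * (A ⊓ E).relIndex A ∣ 8 := by rw [hmt]; exact hA8
  have hm8 : Nat.card (A ⊓ E : Subgroup X) ∣ 8 := (Dvd.intro _ rfl).trans hmt8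
  have ht8 : (A ⊓ E).relIndex A ∣ 8 := (Dvd.intro_left _ rfl).trans hmt8
  exact num_aux _ (Nat.le_of_dvd (by norm_num) hm8) _ (Nat.le_of_dvd (by norm_num) ht8) hmt8 h32

/-- Extension of an elementary abelian 2-subgroup `V` by an involution `e ∉ V` centralizing
it. -/
theorem exists_elab_extension [Finite X] (V : Subgroup X)
    (hVc : ∀ x ∈ V, ∀ y ∈ V, x * y = y * x) (hV2 : ∀ x ∈ V, x ^ 2 = 1)
    (e : X) (he2 : e ^ 2 = 1) (hec : ∀ x ∈ V, e * x = x * e) (heV : e ∉ V) :
    ∃ A : Subgroup X, V ≤ A ∧ e ∈ A ∧ (∀ x ∈ A, ∀ y ∈ A, x * y = y * x) ∧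
      (∀ x ∈ A, x ^ 2 = 1) ∧ Nat.card A = Nat.card V * 2 ∧ ∀ x ∈ A, x ∈ V ∨ x * e ∈ V := by
  have hee : e * e = 1 := by rw [← pow_two]; exact he2
  have heinv : e⁻¹ = e := inv_eq_of_mul_eq_one_left hee
  have hmul : ∀ a b : X, (a ∈ V ∨ a * e ∈ V) → (b ∈ V ∨ b * e ∈ V) →
      (a * b ∈ V ∨ a * b * e ∈ V) := by
    rintro a b (ha | ha) (hb | hb)
    · exact Or.inl (V.mul_mem ha hb)
    · right
      have h1 : a * b * e = a * (b * e) := by group
      rw [h1]; exact V.mul_mem ha hb
    · right
      have h1 : a * b * e = (a * e) * (e * b * e) := by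
        calc a * b * e = a * (e * e) * b * e := by rw [hee, mul_one]
          _ = (a * e) * (e * b * e) := by group
      have h2 : e * b * e = b := by rw [hec b hb, mul_assoc, hee, mul_one]
      rw [h1, h2]; exact V.mul_mem ha hb
    · left
      have h2 : e * (b * e) = (b * e) * e := hec _ hb
      have h1 : a * b = (a * e) * (b * e) := by
        calc a * b = a * b * (e * e) := by rw [hee, mul_one]
          _ = a * ((b * e) * e) := by group
          _ = a * (e * (b * e)) := by rw [h2]
          _ = (a * e) * (b * e) := by group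
      rw [h1]; exact V.mul_mem ha hb
  have hinv : ∀ a : X, (a ∈ V ∨ a * e ∈ V) → (a⁻¹ ∈ V ∨ a⁻¹ * e ∈ V) := by
    rintro a (ha | ha)
    · exact Or.inl (V.inv_mem ha)
    · right
      have h2 : e * (a * e) = (a * e) * e := hec _ ha
      have hae : e * a = a * e := by
        calc e * a = (e * (a * e)) * e⁻¹ := by group
          _ = ((a * e) * e) * e⁻¹ := by rw [h2]
          _ = a * e := by group
      have hae' : e * a⁻¹ = a⁻¹ * e := by
        calc e * a⁻¹ = a⁻¹ * (a * e) * a⁻¹ := by group
          _ = a⁻¹ * (e * a) * a⁻¹ := by rw [hae]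
          _ = a⁻¹ * e := by group
      have h1 : a⁻¹ * e = (a * e)⁻¹ := by
        have h3 : (a * e) * (a⁻¹ * e) = 1 := by
          calc (a * e) * (a⁻¹ * e) = a * (e * a⁻¹) * e := by group
            _ = a * (a⁻¹ * e) * e := by rw [hae']
            _ = e * e := by group
            _ = 1 := hee
        exact eq_inv_of_mul_eq_one_right h3
      rw [h1]; exact V.inv_mem ha
  let A : Subgroup X :=
    { carrier := {x | x ∈ V ∨ x * e ∈ V}
      one_mem' := Or.inl V.one_mem
      mul_mem' := fun {a b} ha hb => hmul a b ha hb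
      inv_mem' := fun {a} ha => hinv a ha }
  have hmemA : ∀ x, x ∈ A ↔ (x ∈ V ∨ x * e ∈ V) := fun x => Iff.rfl
  have hVA : V ≤ A := fun x hx => Or.inl hx
  have heA : e ∈ A := Or.inr (by rw [hee]; exact V.one_mem)
  -- every element of `A` commutes with `e` and with `V`
  have hdecomp : ∀ x ∈ A, ∃ v ∈ V, x = v ∨ x = v * e := by
    rintro x (hx | hx)
    · exact ⟨x, hx, Or.inl rfl⟩
    · refine ⟨x * e, hx, Or.inr ?_⟩
      rw [mul_assoc, hee, mul_one]
  have hAc : ∀ x ∈ A, ∀ y ∈ A, x * y = y * x := by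
    intro x hx y hy
    obtain ⟨v, hv, hxv⟩ := hdecomp x hx
    obtain ⟨w, hw, hyw⟩ := hdecomp y hy
    rcases hxv with hxv | hxv <;> rcases hyw with hyw | hyw <;> rw [hxv, hyw]
    · exact hVc v hv w hw
    · have h1 := hVc v hv w hw
      have h2 := hec v hv
      calc v * (w * e) = (v * w) * e := by group
        _ = (w * v) * e := by rw [h1]
        _ = w * (v * e) := by group
        _ = w * (e * v) := by rw [h2]
        _ = w * e * v := by group
    · have h1 := hVc v hv w hw
      have h2 := hec w hw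
      calc v * e * w = v * (e * w) := by group
        _ = v * (w * e) := by rw [h2]
        _ = (v * w) * e := by group
        _ = (w * v) * e := by rw [h1]
        _ = w * (v * e) := by group
    · have h1 := hVc v hv w hw
      have h2 := hec w hw
      have h3 := hec v hv
      calc v * e * (w * e) = v * (e * w) * e := by group
        _ = v * (w * e) * e := by rw [h2]
        _ = (v * w) * e * e := by group
        _ = (w * v) * e * e := by rw [h1]
        _ = w * (v * e) * e := by group
        _ = w * (e * v) * e := by rw [h3]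
        _ = w * e * (v * e) := by group
  have hA2 : ∀ x ∈ A, x ^ 2 = 1 := by
    intro x hx
    obtain ⟨v, hv, hxv⟩ := hdecomp x hx
    rcases hxv with hxv | hxv <;> rw [hxv]
    · exact hV2 v hv
    · have h3 := hec v hv
      have hvv : v * v = 1 := by rw [← pow_two]; exact hV2 v hv
      rw [pow_two]
      calc v * e * (v * e) = v * (e * v) * e := by group
        _ = v * (v * e) * e := by rw [h3]
        _ = (v * v) * (e * e) := by group
        _ = 1 := by rw [hvv, hee, one_mul]
  refine ⟨A, hVA, heA, hAc, hA2, ?_, fun x hx => hx⟩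
  have hidx : (V.subgroupOf A).index = 2 := by
    rw [Subgroup.index_eq_two_iff]
    refine ⟨⟨e, heA⟩, fun b => ?_⟩
    rw [Subgroup.mem_subgroupOf, Subgroup.mem_subgroupOf]
    show Xor ((b : X) * e ∈ V) ((b : X) ∈ V)
    rcases b.2 with hb | hb
    · right
      refine ⟨hb, fun hbe => heV ?_⟩
      have h1 : e = (b : X)⁻¹ * ((b : X) * e) := by group
      rw [h1]; exact V.mul_mem (V.inv_mem hb) hbe
    · left
      refine ⟨hb, fun hb' => heV ?_⟩
      have h1 : e = (b : X)⁻¹ * ((b : X) * e) := by group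
      rw [h1]; exact V.mul_mem (V.inv_mem hb') hb
  have h1 := Subgroup.card_mul_index (V.subgroupOf A)
  have h2 : Nat.card (V.subgroupOf A) = Nat.card V :=
    Nat.card_congr (Subgroup.subgroupOfEquivOfLe hVA).toEquiv
  rw [h2, hidx] at h1
  exact h1.symm

end Cfsg.Agent.Lib.Helper30
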