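import Cfsg.Agent.Lib.Helper30.MonsterFusion
import Cfsg.Agent.Lib.Helper30.CrossCore

/-!
Groups of Monster type: the lattice automorphisms lying over a subgroup of `C(z)` that centralizes
a conjugate `r` of `z` in `Q`, and the order of `Q ∩ Q^g`.
-/

set_option autoImplicit false

namespace Cfsg.Agent.Lib.Helper30

open Cfsg Cfsg.Spor Cfsg.Agent.Lib.Helper92 Cfsg.Agent.Lib.Helper7

namespace LeechQuadData

variable {H : Type*} [Group H] {Q : Subgroup H} {ζ : H}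
  {ψ : leechLattice → ↥Q ⧸ Subgroup.center ↥Q} (D : LeechQuadData Q ζ ψ)

include D

theorem psi_eq_iff (a b : leechLattice) : ψ a = ψ b ↔ ∃ w : leechLattice, a = b + (w + w) := by
  constructor
  · intro h
    have h1 : ψ (a + -b) = 1 := by rw [D.hadd, D.psi_neg, h, mul_inv_cancel]
    obtain ⟨w, hw⟩ := (D.hker _).1 h1
    refine ⟨w, ?_⟩
    rw [← hw]; abel
  · rintro ⟨w, rfl⟩
    rw [D.hadd, D.psi_double, mul_one]

end LeechQuadData

section

variable {G : Type*} [Group G]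

/-- An automorphism preserving the class of `v` lies over an element of `C(z)` centralizing the
element `r` of `Q` over that class. -/
theorem exists_centralizing_lift (z : G)
    (Q : Subgroup (Subgroup.centralizer ({z} : Set G))) [Q.Normal]
    (e : (Subgroup.centralizer ({z} : Set G)) ⧸ Q ≃* Spor.Co1)
    (ψ : leechLattice → Q ⧸ Subgroup.center Q) (hψ : Cfsg.IsLeechModTwoIso Q e ψ)
    (ζ : Subgroup.centralizer ({z} : Set G)) (D : LeechQuadData Q ζ ψ)
    (r : Q) (hr1 : (r : Subgroup.centralizer ({z} : Set G)) ≠ 1)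
    (hrζ : (r : Subgroup.centralizer ({z} : Set G)) ≠ ζ)
    (v : leechLattice) (hv : ψ v = QuotientGroup.mk r)
    (σ : Co0) (hσ : ψ (σ • v) = ψ v) :
    ∃ c' : Subgroup.centralizer ({z} : Set G),
      (QuotientGroup.mk σ : Spor.Co1) = e (QuotientGroup.mk c') ∧
        c' * (r : Subgroup.centralizer ({z} : Set G)) * c'⁻¹ = r := by
  have hint := hψ.2.2.2
  obtain ⟨c, hc⟩ := QuotientGroup.mk_surjective (e.symm (QuotientGroup.mk σ))
  have hc' : (QuotientGroup.mk σ : Spor.Co1) = e (QuotientGroup.mk c) := by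
    rw [hc]; simp
  have h1 := hint c σ hc' v r hv
  rw [hσ, hv] at h1
  rcases D.lift_eq h1 with h2 | h2
  · exact ⟨c, hc', h2⟩
  · obtain ⟨q, hq, hqr⟩ := D.d.exists_conj_eq r.2 hr1 hrζ
    have h2' : c * (r : Subgroup.centralizer ({z} : Set G)) * c⁻¹ =
        (r : Subgroup.centralizer ({z} : Set G)) * ζ := h2
    have hqζ : q * ζ * q⁻¹ = ζ := by
      have := D.d.hzc q hq
      calc q * ζ * q⁻¹ = (ζ * q) * q⁻¹ := by rw [this]
        _ = ζ := by group
    refine ⟨q * c, ?_, ?_⟩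
    · rw [hc', QuotientGroup.mk_mul, (QuotientGroup.eq_one_iff q).2 hq, one_mul]
    · calc (q * c) * (r : Subgroup.centralizer ({z} : Set G)) * (q * c)⁻¹
          = q * (c * (r : Subgroup.centralizer ({z} : Set G)) * c⁻¹) * q⁻¹ := by group
        _ = q * ((r : Subgroup.centralizer ({z} : Set G)) * ζ) * q⁻¹ := by rw [h2']
        _ = (q * (r : Subgroup.centralizer ({z} : Set G)) * q⁻¹) * (q * ζ * q⁻¹) := by group
        _ = (ζ * (r : Subgroup.centralizer ({z} : Set G))) * ζ := by rw [hqr, hqζ]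
        _ = ((r : Subgroup.centralizer ({z} : Set G)) * ζ) * ζ := by rw [D.d.hzc _ r.2]
        _ = r := by rw [mul_assoc, D.d.hzz, mul_one]

/-- The lattice automorphisms lying over elements of `C(z)` in `R`. -/
def coverSub (z : G) (Q : Subgroup (Subgroup.centralizer ({z} : Set G))) [Q.Normal]
    (e : (Subgroup.centralizer ({z} : Set G)) ⧸ Q ≃* Spor.Co1) (R : Subgroup G) :
    Subgroup (Equiv.Perm leechLattice) where
  carrier := {γ | ∃ hγ : γ ∈ Co0, ∃ y : Subgroup.centralizer ({z} : Set G),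
      (y : G) ∈ R ∧ (QuotientGroup.mk (⟨γ, hγ⟩ : Co0) : Spor.Co1) = e (QuotientGroup.mk y)}
  one_mem' := ⟨Co0.one_mem, 1, R.one_mem, by
    have : (⟨1, Co0.one_mem⟩ : Co0) = 1 := rfl
    rw [this, QuotientGroup.mk_one, QuotientGroup.mk_one, map_one]⟩
  mul_mem' := by
    rintro a b ⟨ha, ya, hya, hma⟩ ⟨hb, yb, hyb, hmb⟩
    refine ⟨Co0.mul_mem ha hb, ya * yb, R.mul_mem hya hyb, ?_⟩
    have : (⟨a * b, Co0.mul_mem ha hb⟩ : Co0) = ⟨a, ha⟩ * ⟨b, hb⟩ := rfl
    rw [this, QuotientGroup.mk_mul, hma, hmb, QuotientGroup.mk_mul, map_mul]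
  inv_mem' := by
    rintro a ⟨ha, ya, hya, hma⟩
    refine ⟨Co0.inv_mem ha, ya⁻¹, R.inv_mem hya, ?_⟩
    have : (⟨a⁻¹, Co0.inv_mem ha⟩ : Co0) = (⟨a, ha⟩ : Co0)⁻¹ := rfl
    rw [this, QuotientGroup.mk_inv, hma, QuotientGroup.mk_inv, map_inv]

theorem mem_coverSub (z : G) (Q : Subgroup (Subgroup.centralizer ({z} : Set G))) [Q.Normal]
    (e : (Subgroup.centralizer ({z} : Set G)) ⧸ Q ≃* Spor.Co1) (R : Subgroup G)
    (γ : Equiv.Perm leechLattice) :
    γ ∈ coverSub z Q e R ↔ ∃ hγ : γ ∈ Co0, ∃ y : Subgroup.centralizer ({z} : Set G),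
      (y : G) ∈ R ∧ (QuotientGroup.mk (⟨γ, hγ⟩ : Co0) : Spor.Co1) = e (QuotientGroup.mk y) :=
  Iff.rfl

/-- The three properties of `coverSub` needed for the lattice lemma on normal 2-subgroups of the
stabilizer of a cross. -/
theorem coverSub_props (z : G)
    (Q : Subgroup (Subgroup.centralizer ({z} : Set G))) [Q.Normal]
    (e : (Subgroup.centralizer ({z} : Set G)) ⧸ Q ≃* Spor.Co1)
    (ψ : leechLattice → Q ⧸ Subgroup.center Q) (hψ : Cfsg.IsLeechModTwoIso Q e ψ)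
    (ζ : Subgroup.centralizer ({z} : Set G)) (D : LeechQuadData Q ζ ψ)
    (r : Q) (hr1 : (r : Subgroup.centralizer ({z} : Set G)) ≠ 1)
    (hrζ : (r : Subgroup.centralizer ({z} : Set G)) ≠ ζ)
    (v : leechLattice) (hv : ψ v = QuotientGroup.mk r) (R : Subgroup G)
    (h₁ : ∀ y : Subgroup.centralizer ({z} : Set G), (y : G) ∈ R →
      y * (r : Subgroup.centralizer ({z} : Set G)) * y⁻¹ = r)
    (h₂ : ∀ c : Subgroup.centralizer ({z} : Set G),
      c * (r : Subgroup.centralizer ({z} : Set G)) * c⁻¹ = r →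
      ∀ y : Subgroup.centralizer ({z} : Set G), (y : G) ∈ R →
        ((c * y * c⁻¹ : Subgroup.centralizer ({z} : Set G)) : G) ∈ R)
    (h₃ : ∀ y : Subgroup.centralizer ({z} : Set G), (y : G) ∈ R → y ^ 4 = 1) :
    (∀ m ∈ coverSub z Q e R, m ∈ Co0 ∧ ∃ w : leechLattice, m v = v + (w + w)) ∧
    (∀ s : Equiv.Perm leechLattice, s ∈ Co0 → (∃ w : leechLattice, s v = v + (w + w)) →
      ∀ m ∈ coverSub z Q e R, s * m * s⁻¹ ∈ coverSub z Q e R) ∧
    (∀ m ∈ coverSub z Q e R, ∃ k : ℕ, m ^ 2 ^ k = 1) := by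
  have hint := hψ.2.2.2
  refine ⟨?_, ?_, ?_⟩
  · rintro m ⟨hm, y, hy, hmy⟩
    refine ⟨hm, ?_⟩
    have h1 := hint y ⟨m, hm⟩ hmy v r hv
    have h2 : ψ ((⟨m, hm⟩ : Co0) • v) = ψ v := by
      rw [h1, hv]
      congr 1
      exact Subtype.ext (h₁ y hy)
    exact (D.psi_eq_iff _ _).1 h2
  · rintro s hs hsv m ⟨hm, y, hy, hmy⟩
    have h1 : ψ ((⟨s, hs⟩ : Co0) • v) = ψ v := (D.psi_eq_iff _ _).2 hsv
    obtain ⟨c', hc'm, hc'r⟩ := exists_centralizing_lift z Q e ψ hψ ζ D r hr1 hrζ v hv ⟨s, hs⟩ h1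
    refine ⟨Co0.mul_mem (Co0.mul_mem hs hm) (Co0.inv_mem hs), c' * y * c'⁻¹, h₂ c' hc'r y hy, ?_⟩
    have : (⟨s * m * s⁻¹, Co0.mul_mem (Co0.mul_mem hs hm) (Co0.inv_mem hs)⟩ : Co0) =
        ⟨s, hs⟩ * ⟨m, hm⟩ * (⟨s, hs⟩ : Co0)⁻¹ := rfl
    rw [this, QuotientGroup.mk_mul, QuotientGroup.mk_mul, QuotientGroup.mk_inv, hc'm, hmy,
      QuotientGroup.mk_mul, QuotientGroup.mk_mul, QuotientGroup.mk_inv, map_mul, map_mul,
      map_inv]
  · rintro m ⟨hm, y, hy, hmy⟩
    refine ⟨3, ?_⟩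
    have hy4 := h₃ y hy
    have h1 : (QuotientGroup.mk ((⟨m, hm⟩ : Co0) ^ 4) : Spor.Co1) = 1 := by
      rw [QuotientGroup.mk_pow, hmy, ← map_pow, ← QuotientGroup.mk_pow, hy4, QuotientGroup.mk_one,
        map_one]
    have h3 : (⟨m, hm⟩ : Co0) ^ 4 ∈ Subgroup.center Co0 := (QuotientGroup.eq_one_iff _).1 h1
    have e8 : (2 : ℕ) ^ 3 = 4 * 2 := by norm_num
    rw [e8, pow_mul]
    rcases center_co0 _ h3 with h4 | h4
    · have h5 : m ^ 4 = 1 := congrArg Subtype.val h4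
      rw [h5, one_pow]
    · have h5 : m ^ 4 = negCo := congrArg Subtype.val h4
      rw [h5, pow_two]
      apply Equiv.ext
      intro x
      show negCo (negCo x) = x
      rw [negCo_apply, negCo_apply, neg_neg]


/-- The order of `Q ∩ Q^g`, of the group of lattice automorphisms lying over `Q^g ∩ C(z)`, and of
the image of `Q^g ∩ C(z)` in `C(z) / Q`. -/
theorem monster_cover_card [Finite G] (z : G)
    (Q : Subgroup (Subgroup.centralizer ({z} : Set G))) [Q.Normal]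
    (hz : orderOf z = 2)
    (hF : Cfsg.generalizedFittingSubgroup (Subgroup.centralizer ({z} : Set G)) = Q)
    (hES : Cfsg.IsExtraspecial 2 Q) (hcard : Nat.card Q = 2 ^ 25)
    (e : (Subgroup.centralizer ({z} : Set G)) ⧸ Q ≃* Spor.Co1)
    (ψ : leechLattice → Q ⧸ Subgroup.center Q) (hψ : Cfsg.IsLeechModTwoIso Q e ψ)
    (g : G) (r : Q) (hr : ((r : Subgroup.centralizer ({z} : Set G)) : G) = g * z * g⁻¹)
    (hne : g * z * g⁻¹ ≠ z) :
    Nat.card ↥((Q.map (Subgroup.centralizer ({z} : Set G)).subtype) ⊓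
      (Q.map (Subgroup.centralizer ({z} : Set G)).subtype).map (MulAut.conj g).toMonoidHom) =
        2 ^ 13 ∧
    Nat.card ↥(coverSub z Q e ((Q.map (Subgroup.centralizer ({z} : Set G)).subtype).map
      (MulAut.conj g).toMonoidHom)) = 2 ^ 12 ∧
    Nat.card ↥((((Q.map (Subgroup.centralizer ({z} : Set G)).subtype).map
      (MulAut.conj g).toMonoidHom ⊓ Subgroup.centralizer ({z} : Set G)).subgroupOf
        (Subgroup.centralizer ({z} : Set G))).map (QuotientGroup.mk' Q)) = 2 ^ 11 := by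
  have h8 : 8 < Nat.card Q := by rw [hcard]; norm_num
  have hzC : z ∈ Subgroup.centralizer ({z} : Set G) := mem_cent_sing.2 rfl
  obtain ⟨ζ, hζdef⟩ : ∃ ζ : Subgroup.centralizer ({z} : Set G), ζ = ⟨z, hzC⟩ := ⟨_, rfl⟩
  have hζ : (ζ : G) = z := by rw [hζdef]
  have D := leechQuadData_of_monster z Q hz hF hES (by omega) e ψ hψ ζ hζ
  have hB : Subgroup.centralizer (Q : Set (Subgroup.centralizer ({z} : Set G))) ≤ Q := by
    have := centralizer_generalizedFittingSubgroup_le (Subgroup.centralizer ({z} : Set G))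
    rwa [hF] at this
  have L := largeData_map z Q hB ζ hζ D.d h8
  obtain ⟨v, hv, hv64⟩ := monster_conj_lift z Q hz hF hES h8 e ψ hψ g r hr hne
  have cQ₁' : Nat.card ↥(Q.map (Subgroup.centralizer ({z} : Set G)).subtype) = 2 ^ 25 := by
    rw [Subgroup.card_map_of_injective (Subgroup.subtype_injective _), hcard]
  obtain ⟨Q₁, hQ₁⟩ : ∃ Q₁ : Subgroup G,
      Q₁ = Q.map (Subgroup.centralizer ({z} : Set G)).subtype := ⟨_, rfl⟩
  rw [← hQ₁] at L cQ₁' ⊢
  have hQ₁mem : ∀ x : G, x ∈ Q₁ ↔ ∃ hx : x ∈ Subgroup.centralizer ({z} : Set G),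
      (⟨x, hx⟩ : Subgroup.centralizer ({z} : Set G)) ∈ Q := by
    intro x
    rw [hQ₁]
    constructor
    · rintro ⟨y, hy, rfl⟩
      exact ⟨y.2, hy⟩
    · rintro ⟨hx, hxQ⟩
      exact ⟨⟨x, hx⟩, hxQ, rfl⟩
  have cQ₂' : Nat.card ↥(Q₁.map (MulAut.conj g).toMonoidHom) = 2 ^ 25 := by
    rw [Subgroup.card_map_of_injective (MulAut.conj g).injective, cQ₁']
  obtain ⟨Q₂, hQ₂⟩ : ∃ Q₂ : Subgroup G, Q₂ = Q₁.map (MulAut.conj g).toMonoidHom := ⟨_, rfl⟩
  rw [← hQ₂] at cQ₂' ⊢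
  have hQ₂mem : ∀ y, y ∈ Q₂ ↔ g⁻¹ * y * g ∈ Q₁ := by
    intro y; rw [hQ₂, Subgroup.mem_map_equiv, MulAut.conj_symm_apply]
  have huQ : g * z * g⁻¹ ∈ Q₁ := by
    rw [hQ₁, ← hr]; exact ⟨r, r.2, rfl⟩
  have P : LargePair Q₁ Q₂ z (g * z * g⁻¹) := LargePair.of_conj L g huQ hne Q₂ hQ₂mem
  obtain ⟨u, hu⟩ : ∃ u : G, u = g * z * g⁻¹ := ⟨_, rfl⟩
  rw [← hu] at P hr hne huQ
  have hr1 : ((r : Subgroup.centralizer ({z} : Set G))) ≠ 1 := by
    intro h
    apply P.u1
    rw [← hr, h]; rfl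
  have hrζ : ((r : Subgroup.centralizer ({z} : Set G))) ≠ ζ := by
    intro h
    apply hne
    rw [← hr, h]; exact hζ
  -- upper bound for the intersection
  have hEle : Nat.card ↥(Q₁ ⊓ Q₂) ≤ 2 ^ 13 := by
    have hzE : z ∈ Q₁ ⊓ Q₂ := Subgroup.mem_inf.2 ⟨L.d.hzQ, P.hz⟩
    have h1 := L.d.card_centralizer_mul_card (Q₁ ⊓ Q₂) inf_le_left hzE
    have h2 : Q₁ ⊓ Q₂ ≤ Q₁ ⊓ Subgroup.centralizer ((Q₁ ⊓ Q₂ : Subgroup G) : Set G) := by
      intro x hx
      refine Subgroup.mem_inf.2 ⟨hx.1, ?_⟩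
      rw [Subgroup.mem_centralizer_iff]
      intro y hy
      exact P.E_comm hy hx
    have h3 := Subgroup.card_le_of_le h2
    rw [cQ₁'] at h1
    by_contra hcon
    push Not at hcon
    have h4 : Nat.card ↥(Q₁ ⊓ Q₂) * Nat.card ↥(Q₁ ⊓ Q₂) ≤ 2 * 2 ^ 25 := by
      rw [← h1]; exact Nat.mul_le_mul_right _ h3
    nlinarith
  -- the order of `Q₂ ∩ C(z)`
  have cR₂ : Nat.card ↥(Q₂ ⊓ Subgroup.centralizer ({z} : Set G)) = 2 ^ 24 := by
    have h1 := (P.L₂.d.dual_four P.hz P.z1 P.hne P.zz).2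
    have h2 : (Q₂ ⊓ Subgroup.centralizer
        ((fourGroup u z P.L₂.d.hzz P.zz (P.L₂.d.zu_comm P.hz) : Subgroup G) : Set G)) =
        Q₂ ⊓ Subgroup.centralizer ({z} : Set G) := by
      ext x
      simp only [Subgroup.mem_inf]
      constructor
      · rintro ⟨hx, hc⟩
        refine ⟨hx, mem_cent_sing.2 ?_⟩
        have := Subgroup.mem_centralizer_iff.1 hc z
          ((mem_fourGroup _ _ _).2 (Or.inr (Or.inr (Or.inl rfl))))
        exact this.symm
      · rintro ⟨hx, hc⟩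
        refine ⟨hx, ?_⟩
        rw [Subgroup.mem_centralizer_iff]
        intro w hw
        have hxz : x * z = z * x := mem_cent_sing.1 hc
        have hxu : u * x = x * u := P.L₂.d.hzc x hx
        rcases (mem_fourGroup _ _ _).1 hw with rfl | rfl | rfl | rfl
        · simp
        · exact hxu
        · exact hxz.symm
        · rw [mul_assoc, ← hxz, ← mul_assoc, hxu, mul_assoc]
    rw [h2, cQ₂'] at h1
    omega
  obtain ⟨R₂', hR₂'⟩ : ∃ R₂' : Subgroup (Subgroup.centralizer ({z} : Set G)),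
      R₂' = (Q₂ ⊓ Subgroup.centralizer ({z} : Set G)).subgroupOf
        (Subgroup.centralizer ({z} : Set G)) := ⟨_, rfl⟩
  rw [← hR₂']
  have hR₂'mem : ∀ y : Subgroup.centralizer ({z} : Set G), y ∈ R₂' ↔ (y : G) ∈ Q₂ := by
    intro y
    rw [hR₂', Subgroup.mem_subgroupOf, Subgroup.mem_inf]
    exact ⟨fun h => h.1, fun h => ⟨h, y.2⟩⟩
  have cR₂' : Nat.card R₂' = 2 ^ 24 := by
    rw [hR₂', Nat.card_congr (Subgroup.subgroupOfEquivOfLe inf_le_right).toEquiv, cR₂]
  obtain ⟨F', hF'⟩ : ∃ F' : ↥R₂' →* Spor.Co1,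
      F' = (e.toMonoidHom.comp (QuotientGroup.mk' Q)).domRestrict R₂' := ⟨_, rfl⟩
  have hF'app : ∀ y : ↥R₂',
      F' y = e (QuotientGroup.mk (y : Subgroup.centralizer ({z} : Set G))) := by
    intro y; rw [hF']; rfl
  have hki := Subgroup.card_mul_index F'.ker
  rw [Subgroup.index_ker, cR₂'] at hki
  -- the kernel embeds in the intersection
  have hmemE : ∀ x : F'.ker,
      (((x : ↥R₂') : Subgroup.centralizer ({z} : Set G)) : G) ∈ Q₁ ⊓ Q₂ := by
    intro x
    have h1 : F' (x : ↥R₂') = 1 := x.2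
    rw [hF'app] at h1
    have h2 : (QuotientGroup.mk ((x : ↥R₂') : Subgroup.centralizer ({z} : Set G)) :
        (Subgroup.centralizer ({z} : Set G)) ⧸ Q) = 1 := by
      apply e.injective
      rw [h1, map_one]
    exact Subgroup.mem_inf.2 ⟨(hQ₁mem _).2 ⟨_, (QuotientGroup.eq_one_iff _).1 h2⟩,
      (hR₂'mem _).1 (x : ↥R₂').2⟩
  have hkerle : Nat.card F'.ker ≤ Nat.card ↥(Q₁ ⊓ Q₂) := by
    apply Nat.card_le_card_of_injective (fun x => (⟨_, hmemE x⟩ : ↥(Q₁ ⊓ Q₂)))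
    intro a b h
    have h1 : (((a : ↥R₂') : Subgroup.centralizer ({z} : Set G)) : G) =
        (((b : ↥R₂') : Subgroup.centralizer ({z} : Set G)) : G) := by
      have := congrArg Subtype.val h
      exact this
    exact Subtype.ext (Subtype.ext (Subtype.ext h1))
  -- the automorphisms over `Q₂ ∩ C(z)`
  have hMeq : coverSub z Q e Q₂ =
      (F'.range.comap (QuotientGroup.mk' (Subgroup.center Co0))).map Co0.subtype := by
    ext γ
    rw [mem_coverSub]
    constructor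
    · rintro ⟨hγ, y, hy, hm⟩
      refine ⟨⟨γ, hγ⟩, ?_, rfl⟩
      show (QuotientGroup.mk' (Subgroup.center Co0)) ⟨γ, hγ⟩ ∈ F'.range
      exact ⟨⟨y, (hR₂'mem y).2 hy⟩, by rw [hF'app]; exact hm.symm⟩
    · rintro ⟨γ', hγ', rfl⟩
      obtain ⟨y, hy⟩ := hγ'
      refine ⟨γ'.2, (y : Subgroup.centralizer ({z} : Set G)), (hR₂'mem _).1 y.2, ?_⟩
      rw [← hF'app]; exact hy.symm
  have cM : Nat.card ↥(coverSub z Q e Q₂) = 2 * Nat.card F'.range := by
    rw [hMeq, Subgroup.card_map_of_injective (Subgroup.subtype_injective _)]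
    have hfin : Finite Co0 := Nat.finite_of_card_ne_zero (by rw [card_co0]; norm_num)
    have i1 := Subgroup.card_mul_index (F'.range.comap (QuotientGroup.mk' (Subgroup.center Co0)))
    have i2 := Subgroup.card_mul_index F'.range
    have i3 := Subgroup.index_comap_of_surjective (H := F'.range)
      (QuotientGroup.mk'_surjective (Subgroup.center Co0))
    have i4 := Subgroup.card_eq_card_quotient_mul_card_subgroup (Subgroup.center Co0)
    rw [card_center_co0] at i4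
    rw [i3] at i1
    have i5 : F'.range.index ≠ 0 := Subgroup.index_ne_zero_of_finite
    have i6 : Nat.card ↥(F'.range.comap (QuotientGroup.mk' (Subgroup.center Co0))) *
        F'.range.index = (2 * Nat.card F'.range) * F'.range.index := by
      rw [i1, i4, ← i2]; ring
    exact Nat.eq_of_mul_eq_mul_right (Nat.pos_of_ne_zero i5) i6
  have h₁ : ∀ y : Subgroup.centralizer ({z} : Set G), (y : G) ∈ Q₂ →
      y * (r : Subgroup.centralizer ({z} : Set G)) * y⁻¹ = r := by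
    intro y hy
    apply Subtype.ext
    show (y : G) * ((r : Subgroup.centralizer ({z} : Set G)) : G) * (y : G)⁻¹ = _
    rw [hr]
    have := P.L₂.d.hzc (y : G) hy
    calc (y : G) * u * (y : G)⁻¹ = (u * (y : G)) * (y : G)⁻¹ := by rw [this]
      _ = u := by group
  have h₂ : ∀ c : Subgroup.centralizer ({z} : Set G),
      c * (r : Subgroup.centralizer ({z} : Set G)) * c⁻¹ = r →
      ∀ y : Subgroup.centralizer ({z} : Set G), (y : G) ∈ Q₂ →
        ((c * y * c⁻¹ : Subgroup.centralizer ({z} : Set G)) : G) ∈ Q₂ := by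
    intro c hc y hy
    have hcu : (c : G) * u = u * (c : G) := by
      have h : (c : G) * ((r : Subgroup.centralizer ({z} : Set G)) : G) * (c : G)⁻¹ =
          ((r : Subgroup.centralizer ({z} : Set G)) : G) := congrArg Subtype.val hc
      rw [hr] at h
      calc (c : G) * u = ((c : G) * u * (c : G)⁻¹) * (c : G) := by group
        _ = u * (c : G) := by rw [h]
    exact P.L₂.hN (c : G) hcu (y : G) hy
  have h₃ : ∀ y : Subgroup.centralizer ({z} : Set G), (y : G) ∈ Q₂ → y ^ 4 = 1 := by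
    intro y hy
    apply Subtype.ext
    have := P.L₂.pow_four hy
    simpa using this
  obtain ⟨p1, p2, p3⟩ := coverSub_props z Q e ψ hψ ζ D r hr1 hrζ v hv Q₂ h₁ h₂ h₃
  have cMle := cross_normal_two_card v hv64 (coverSub z Q e Q₂) p1 p2 p3
  -- the image of `R₂'` in `C / Q`
  have cimg : Nat.card ↥(R₂'.map (QuotientGroup.mk' Q)) = Nat.card F'.range := by
    have h1 : F'.range = (R₂'.map (QuotientGroup.mk' Q)).map e.toMonoidHom := by
      rw [hF', MonoidHom.domRestrict_range, Subgroup.map_map]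
    rw [h1]
    exact (Subgroup.card_map_of_injective (f := e.toMonoidHom)
      (K := R₂'.map (QuotientGroup.mk' Q)) e.injective).symm
  rw [cimg, cM]
  have e24 : (2 : ℕ) ^ 24 = 16777216 := by norm_num
  have e13 : (2 : ℕ) ^ 13 = 8192 := by norm_num
  have e12 : (2 : ℕ) ^ 12 = 4096 := by norm_num
  have e11 : (2 : ℕ) ^ 11 = 2048 := by norm_num
  rw [e24] at hki
  rw [e13] at hEle ⊢
  rw [e12] at cMle ⊢
  rw [e11]
  rw [cM] at cMle
  have hb : Nat.card F'.range = 2048 := by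
    by_contra hcon
    have h1 : Nat.card F'.range ≤ 2047 := by omega
    have h2 : Nat.card F'.ker ≤ 8192 := le_trans hkerle hEle
    have h3 := Nat.mul_le_mul h2 h1
    omega
  rw [hb] at hki
  refine ⟨?_, ?_, hb⟩
  · omega
  · omega

end

end Cfsg.Agent.Lib.Helper30
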