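import Cfsg.Agent.Lib.Helper30.MonsterCross
import Cfsg.Agent.Lib.Helper30.CrossCore2

/-!
Groups of Monster type: the image in `C(z) / Q` of the centralizer of a conjugate `s ≠ z` of `z`
in `Q` is a split extension of an elementary abelian group of order `2 ^ 11` (the image of
`Q^g ∩ C(z)`) by `M24`.
-/

set_option autoImplicit false

namespace Cfsg.Agent.Lib.Helper30

open Cfsg Cfsg.Spor Cfsg.Agent.Lib.Helper92 Cfsg.Agent.Lib.Helper7

section

variable {G : Type*} [Group G]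

theorem monster_cross_structure [Finite G] (z : G)
    (Q : Subgroup (Subgroup.centralizer ({z} : Set G))) [Q.Normal]
    (hz : orderOf z = 2)
    (hF : Cfsg.generalizedFittingSubgroup (Subgroup.centralizer ({z} : Set G)) = Q)
    (hES : Cfsg.IsExtraspecial 2 Q) (hcard : Nat.card Q = 2 ^ 25)
    (e : (Subgroup.centralizer ({z} : Set G)) ⧸ Q ≃* Spor.Co1)
    (ψ : leechLattice → Q ⧸ Subgroup.center Q) (hψ : Cfsg.IsLeechModTwoIso Q e ψ)
    (g : G) (r : Q) (hr : ((r : Subgroup.centralizer ({z} : Set G)) : G) = g * z * g⁻¹)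
    (hne : g * z * g⁻¹ ≠ z)
    (X E : Subgroup ((Subgroup.centralizer ({z} : Set G)) ⧸ Q))
    (hX : X = ((Subgroup.centralizer ({z} : Set G) ⊓
      Subgroup.centralizer ({g * z * g⁻¹} : Set G)).subgroupOf
        (Subgroup.centralizer ({z} : Set G))).map (QuotientGroup.mk' Q))
    (hE : E = (((Q.map (Subgroup.centralizer ({z} : Set G)).subtype).map
      (MulAut.conj g).toMonoidHom ⊓ Subgroup.centralizer ({z} : Set G)).subgroupOf
        (Subgroup.centralizer ({z} : Set G))).map (QuotientGroup.mk' Q)) :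
    E ≤ X ∧ (∀ x ∈ X, ∀ y ∈ E, x * y * x⁻¹ ∈ E) ∧ Cfsg.IsElementaryAbelian 2 E ∧
      Nat.card E = 2 ^ 11 ∧
      ∃ K : Subgroup ((Subgroup.centralizer ({z} : Set G)) ⧸ Q),
        K ≤ X ∧ E ⊓ K = ⊥ ∧ E ⊔ K = X ∧ Nonempty (K ≃* Cfsg.M24) := by
  obtain ⟨-, c12, c11⟩ := monster_cover_card z Q hz hF hES hcard e ψ hψ g r hr hne
  have h8 : 8 < Nat.card Q := by rw [hcard]; norm_num
  have hzC : z ∈ Subgroup.centralizer ({z} : Set G) := mem_cent_sing.2 rfl
  obtain ⟨ζ, hζdef⟩ : ∃ ζ : Subgroup.centralizer ({z} : Set G), ζ = ⟨z, hzC⟩ := ⟨_, rfl⟩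
  have hζ : (ζ : G) = z := by rw [hζdef]
  have D := leechQuadData_of_monster z Q hz hF hES (by omega) e ψ hψ ζ hζ
  have hint := hψ.2.2.2
  have hB : Subgroup.centralizer (Q : Set (Subgroup.centralizer ({z} : Set G))) ≤ Q := by
    have := centralizer_generalizedFittingSubgroup_le (Subgroup.centralizer ({z} : Set G))
    rwa [hF] at this
  have L := largeData_map z Q hB ζ hζ D.d h8
  obtain ⟨v, hv, hv64⟩ := monster_conj_lift z Q hz hF hES h8 e ψ hψ g r hr hne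
  obtain ⟨Q₁, hQ₁⟩ : ∃ Q₁ : Subgroup G,
      Q₁ = Q.map (Subgroup.centralizer ({z} : Set G)).subtype := ⟨_, rfl⟩
  rw [← hQ₁] at L c12 c11 hE
  have hQ₁mem : ∀ x : G, x ∈ Q₁ ↔ ∃ hx : x ∈ Subgroup.centralizer ({z} : Set G),
      (⟨x, hx⟩ : Subgroup.centralizer ({z} : Set G)) ∈ Q := by
    intro x
    rw [hQ₁]
    constructor
    · rintro ⟨y, hy, rfl⟩
      exact ⟨y.2, hy⟩
    · rintro ⟨hx, hxQ⟩
      exact ⟨⟨x, hx⟩, hxQ, rfl⟩
  obtain ⟨Q₂, hQ₂⟩ : ∃ Q₂ : Subgroup G, Q₂ = Q₁.map (MulAut.conj g).toMonoidHom := ⟨_, rfl⟩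
  rw [← hQ₂] at c12 c11 hE
  have hQ₂mem : ∀ y, y ∈ Q₂ ↔ g⁻¹ * y * g ∈ Q₁ := by
    intro y; rw [hQ₂, Subgroup.mem_map_equiv, MulAut.conj_symm_apply]
  have huQ : g * z * g⁻¹ ∈ Q₁ := by
    rw [hQ₁, ← hr]; exact ⟨r, r.2, rfl⟩
  have P : LargePair Q₁ Q₂ z (g * z * g⁻¹) := LargePair.of_conj L g huQ hne Q₂ hQ₂mem
  obtain ⟨u, hu⟩ : ∃ u : G, u = g * z * g⁻¹ := ⟨_, rfl⟩
  rw [← hu] at P hr hne huQ hX
  have hr1 : ((r : Subgroup.centralizer ({z} : Set G))) ≠ 1 := by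
    intro h
    apply P.u1
    rw [← hr, h]; rfl
  have hrζ : ((r : Subgroup.centralizer ({z} : Set G))) ≠ ζ := by
    intro h
    apply hne
    rw [← hr, h]; exact hζ
  obtain ⟨R₂', hR₂'⟩ : ∃ R₂' : Subgroup (Subgroup.centralizer ({z} : Set G)),
      R₂' = (Q₂ ⊓ Subgroup.centralizer ({z} : Set G)).subgroupOf
        (Subgroup.centralizer ({z} : Set G)) := ⟨_, rfl⟩
  rw [← hR₂'] at c11 hE
  have hR₂'mem : ∀ y : Subgroup.centralizer ({z} : Set G), y ∈ R₂' ↔ (y : G) ∈ Q₂ := by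
    intro y
    rw [hR₂', Subgroup.mem_subgroupOf, Subgroup.mem_inf]
    exact ⟨fun h => h.1, fun h => ⟨h, y.2⟩⟩
  obtain ⟨XC, hXC⟩ : ∃ XC : Subgroup (Subgroup.centralizer ({z} : Set G)),
      XC = (Subgroup.centralizer ({z} : Set G) ⊓ Subgroup.centralizer ({u} : Set G)).subgroupOf
        (Subgroup.centralizer ({z} : Set G)) := ⟨_, rfl⟩
  rw [← hXC] at hX
  have hXCmem : ∀ c : Subgroup.centralizer ({z} : Set G), c ∈ XC ↔ (c : G) * u = u * (c : G) := by
    intro c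
    rw [hXC, Subgroup.mem_subgroupOf, Subgroup.mem_inf]
    exact ⟨fun h => mem_cent_sing.1 h.2, fun h => ⟨c.2, mem_cent_sing.2 h⟩⟩
  have hcr_of : ∀ c : Subgroup.centralizer ({z} : Set G), (c : G) * u = u * (c : G) →
      c * (r : Subgroup.centralizer ({z} : Set G)) * c⁻¹ = r := by
    intro c hc
    apply Subtype.ext
    show (c : G) * ((r : Subgroup.centralizer ({z} : Set G)) : G) * (c : G)⁻¹ = _
    rw [hr]
    calc (c : G) * u * (c : G)⁻¹ = (u * (c : G)) * (c : G)⁻¹ := by rw [hc]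
      _ = u := by group
  have hcu_of : ∀ c : Subgroup.centralizer ({z} : Set G),
      c * (r : Subgroup.centralizer ({z} : Set G)) * c⁻¹ = r → (c : G) * u = u * (c : G) := by
    intro c hc
    have h : (c : G) * ((r : Subgroup.centralizer ({z} : Set G)) : G) * (c : G)⁻¹ =
        ((r : Subgroup.centralizer ({z} : Set G)) : G) := congrArg Subtype.val hc
    rw [hr] at h
    calc (c : G) * u = ((c : G) * u * (c : G)⁻¹) * (c : G) := by group
      _ = u * (c : G) := by rw [h]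
  have h₁ : ∀ y : Subgroup.centralizer ({z} : Set G), (y : G) ∈ Q₂ →
      y * (r : Subgroup.centralizer ({z} : Set G)) * y⁻¹ = r := by
    intro y hy
    exact hcr_of y (P.L₂.d.hzc (y : G) hy).symm
  have h₂ : ∀ c : Subgroup.centralizer ({z} : Set G),
      c * (r : Subgroup.centralizer ({z} : Set G)) * c⁻¹ = r →
      ∀ y : Subgroup.centralizer ({z} : Set G), (y : G) ∈ Q₂ →
        ((c * y * c⁻¹ : Subgroup.centralizer ({z} : Set G)) : G) ∈ Q₂ := by
    intro c hc y hy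
    exact P.L₂.hN (c : G) (hcu_of c hc) (y : G) hy
  have h₃ : ∀ y : Subgroup.centralizer ({z} : Set G), (y : G) ∈ Q₂ → y ^ 4 = 1 := by
    intro y hy
    apply Subtype.ext
    have := P.L₂.pow_four hy
    simpa using this
  obtain ⟨p1, p2, p3⟩ := coverSub_props z Q e ψ hψ ζ D r hr1 hrζ v hv Q₂ h₁ h₂ h₃
  have hrQ : (QuotientGroup.mk' Q) (r : Subgroup.centralizer ({z} : Set G)) = 1 :=
    (QuotientGroup.eq_one_iff _).2 r.2
  -- (a)
  have hEX : E ≤ X := by
    rw [hE, hX]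
    apply Subgroup.map_mono
    intro y hy
    rw [hXCmem]
    exact (P.L₂.d.hzc (y : G) ((hR₂'mem y).1 hy)).symm
  -- (b)
  have hnormE : ∀ x ∈ X, ∀ y ∈ E, x * y * x⁻¹ ∈ E := by
    intro x hx y hy
    rw [hX] at hx
    rw [hE] at hy ⊢
    obtain ⟨c, hc, rfl⟩ := hx
    obtain ⟨y', hy', rfl⟩ := hy
    refine ⟨c * y' * c⁻¹, ?_, ?_⟩
    · exact (hR₂'mem _).2 (P.L₂.hN (c : G) ((hXCmem c).1 hc) (y' : G) ((hR₂'mem y').1 hy'))
    · rw [map_mul, map_mul, map_inv]
  -- (c)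
  have helem : Cfsg.IsElementaryAbelian 2 E := by
    refine ⟨⟨⟨fun a b => ?_⟩⟩, fun a ha => ?_⟩
    · apply Subtype.ext
      obtain ⟨a', ha', hae⟩ : ∃ a' ∈ R₂', (QuotientGroup.mk' Q) a' =
          (a : (Subgroup.centralizer ({z} : Set G)) ⧸ Q) := hE.le a.2
      obtain ⟨b', hb', hbe⟩ : ∃ b' ∈ R₂', (QuotientGroup.mk' Q) b' =
          (b : (Subgroup.centralizer ({z} : Set G)) ⧸ Q) := hE.le b.2
      show (a : (Subgroup.centralizer ({z} : Set G)) ⧸ Q) * (b : _) = (b : _) * (a : _)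
      rw [← hae, ← hbe, ← map_mul, ← map_mul]
      rcases P.L₂.d.comm_iff ((hR₂'mem a').1 ha') ((hR₂'mem b').1 hb') with h | h
      · have : a' * b' = b' * a' := Subtype.ext h
        rw [this]
      · have : a' * b' = (r : Subgroup.centralizer ({z} : Set G)) * (b' * a') := by
          apply Subtype.ext
          show (a' : G) * (b' : G) =
            ((r : Subgroup.centralizer ({z} : Set G)) : G) * ((b' : G) * (a' : G))
          rw [hr]; exact h
        rw [this, map_mul, hrQ, one_mul]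
    · rw [hE] at ha
      obtain ⟨a', ha', rfl⟩ := ha
      rw [← map_pow]
      rcases P.L₂.d.sq_mem ((hR₂'mem a').1 ha') with h | h
      · have : a' ^ 2 = 1 := by
          apply Subtype.ext
          show (a' : G) ^ 2 = 1
          rw [pow_two]; exact h
        rw [this, map_one]
      · have : a' ^ 2 = (r : Subgroup.centralizer ({z} : Set G)) := by
          apply Subtype.ext
          show (a' : G) ^ 2 = ((r : Subgroup.centralizer ({z} : Set G)) : G)
          rw [pow_two, hr]; exact h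
        rw [this]; exact hrQ
  -- (d)
  have hcardE : Nat.card E = 2 ^ 11 := by rw [hE]; exact c11
  -- (e)
  obtain ⟨τ, hτv⟩ := co0_trans_64 v (latEight none) hv64 (sqNorm_vecEight none)
  have hτv' : (τ : Equiv.Perm leechLattice) v = latEight none := hτv
  have hτi : (τ : Equiv.Perm leechLattice)⁻¹ (latEight none) = v := by
    rw [Equiv.Perm.inv_eq_iff_eq]; exact hτv'.symm
  have hτi0 : (τ : Equiv.Perm leechLattice)⁻¹ ∈ Co0 := Co0.inv_mem τ.2
  obtain ⟨κ, hκ⟩ : ∃ κ : Cfsg.M24 →* (Subgroup.centralizer ({z} : Set G)) ⧸ Q,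
      κ = e.symm.toMonoidHom.comp ((QuotientGroup.mk' (Subgroup.center Co0)).comp
        ((MulAut.conj τ⁻¹).toMonoidHom.comp permHom)) := ⟨_, rfl⟩
  have hκapp : ∀ π : Cfsg.M24, κ π = e.symm (QuotientGroup.mk (τ⁻¹ * permHom π * τ)) := by
    intro π
    rw [hκ]
    show e.symm (QuotientGroup.mk (τ⁻¹ * permHom π * τ⁻¹⁻¹)) = _
    rw [inv_inv]
  have K1 : ∀ π : Cfsg.M24, ∃ c' : Subgroup.centralizer ({z} : Set G), c' ∈ XC ∧
      κ π = QuotientGroup.mk c' := by
    intro π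
    have hs : StabCross ⟨((permHom π : Co0) : Equiv.Perm leechLattice), (permHom π).2⟩ :=
      permHom_stabCross π
    rw [stabCross_iff] at hs
    obtain ⟨w, hw⟩ := hs
    have hσv : ∃ w' : leechLattice, (τ⁻¹ * permHom π * τ : Co0) • v = v + (w' + w') := by
      refine ⟨(τ : Equiv.Perm leechLattice)⁻¹ w, ?_⟩
      show (τ : Equiv.Perm leechLattice)⁻¹ (((permHom π : Co0) : Equiv.Perm leechLattice)
        ((τ : Equiv.Perm leechLattice) v)) = _
      rw [hτv', hw, co0_map_add hτi0, co0_map_add hτi0, hτi]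
    have hσ := (D.psi_eq_iff _ _).2 hσv
    obtain ⟨c', hc'm, hc'r⟩ := exists_centralizing_lift z Q e ψ hψ ζ D r hr1 hrζ v hv _ hσ
    refine ⟨c', (hXCmem c').2 (hcu_of c' hc'r), ?_⟩
    rw [hκapp, hc'm]
    exact e.symm_apply_apply _
  have K2 : ∀ π : Cfsg.M24, κ π ∈ E → π = 1 := by
    intro π hπE
    rw [hE] at hπE
    obtain ⟨y, hy, hyκ⟩ := hπE
    have hm : (QuotientGroup.mk (τ⁻¹ * permHom π * τ) : Spor.Co1) = e (QuotientGroup.mk y) := by
      have h := congrArg e hyκ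
      rw [hκapp, e.apply_symm_apply] at h
      exact h.symm
    have hmem : ((τ⁻¹ * permHom π * τ : Co0) : Equiv.Perm leechLattice) ∈ coverSub z Q e Q₂ :=
      ⟨(τ⁻¹ * permHom π * τ).2, y, (hR₂'mem y).1 hy, hm⟩
    obtain ⟨u', hu', hsign⟩ := cross_normal_two_sign v τ τ.2 hτv' (coverSub z Q e Q₂) p1 p2 p3 _ hmem
    have h1 : permCo π.1 π.2 = signCo u' hu' := by
      rw [← hsign]
      show _ = (τ : Equiv.Perm leechLattice) * ((τ : Equiv.Perm leechLattice)⁻¹ * permCo π.1 π.2 *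
        (τ : Equiv.Perm leechLattice)) * (τ : Equiv.Perm leechLattice)⁻¹
      group
    exact perm_eq_one_of_sign π u' hu' h1
  have hκinj : Function.Injective κ := by
    rw [injective_iff_map_eq_one]
    intro π hπ
    apply K2
    rw [hπ]; exact E.one_mem
  have K4 : ∀ x ∈ X, ∃ a ∈ E, ∃ π : Cfsg.M24, x = a * κ π := by
    intro x hx
    rw [hX] at hx
    obtain ⟨c, hc, rfl⟩ := hx
    obtain ⟨σ, hσ⟩ := QuotientGroup.mk_surjective (e (QuotientGroup.mk c))
    have h1 := hint c σ hσ v r hv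
    have hcr := hcr_of c ((hXCmem c).1 hc)
    have h2 : ψ (σ • v) = ψ v := by
      rw [h1, hv]
      congr 1
      exact Subtype.ext hcr
    obtain ⟨w, hw⟩ := (D.psi_eq_iff _ _).1 h2
    have hρ : StabCross (τ * σ * τ⁻¹) := by
      have h3 : StabCross ⟨((τ * σ * τ⁻¹ : Co0) : Equiv.Perm leechLattice), (τ * σ * τ⁻¹).2⟩ := by
        rw [stabCross_iff]
        refine ⟨(τ : Equiv.Perm leechLattice) w, ?_⟩
        show (τ : Equiv.Perm leechLattice) ((σ : Equiv.Perm leechLattice)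
          ((τ : Equiv.Perm leechLattice)⁻¹ (latEight none))) = _
        rw [hτi]
        have hw' : (σ : Equiv.Perm leechLattice) v = v + (w + w) := hw
        rw [hw', co0_map_add τ.2, co0_map_add τ.2, hτv']
      exact h3
    obtain ⟨π, hπ, u', hu', hform⟩ := stab_cross_struct _ hρ
    have hdecomp : τ * σ * τ⁻¹ =
        (⟨signCo u' hu', signCo_mem _ _⟩ : Co0) * permHom ⟨π, hπ⟩ := by
      apply Subtype.ext
      apply Equiv.ext
      intro x
      apply Subtype.ext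
      exact hform x
    have hσeq : σ = (τ⁻¹ * (⟨signCo u' hu', signCo_mem _ _⟩ : Co0) * τ) *
        (τ⁻¹ * permHom ⟨π, hπ⟩ * τ) := by
      calc σ = τ⁻¹ * (τ * σ * τ⁻¹) * τ := by group
        _ = τ⁻¹ * ((⟨signCo u' hu', signCo_mem _ _⟩ : Co0) * permHom ⟨π, hπ⟩) * τ := by
          rw [hdecomp]
        _ = _ := by group
    have hS : (τ : Equiv.Perm leechLattice)⁻¹ * signCo u' hu' * (τ : Equiv.Perm leechLattice) ∈
        coverSub z Q e Q₂ :=
      cross_normal_two_surj v τ τ.2 hτv' _ p1 p2 p3 (by rw [c12]) u' hu'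
    obtain ⟨hγ, y, hy, hmy⟩ := hS
    refine ⟨QuotientGroup.mk y, by rw [hE]; exact ⟨y, (hR₂'mem y).2 hy, rfl⟩, ⟨π, hπ⟩, ?_⟩
    apply e.injective
    rw [map_mul, hκapp, e.apply_symm_apply, ← hmy]
    show e ((QuotientGroup.mk c : (Subgroup.centralizer ({z} : Set G)) ⧸ Q)) = _
    rw [← hσ, ← QuotientGroup.mk_mul]
    congr 1
  refine ⟨hEX, hnormE, helem, hcardE, κ.range, ?_, ?_, ?_,
    ⟨(MonoidHom.ofInjective hκinj).symm⟩⟩
  · rintro _ ⟨π, rfl⟩
    obtain ⟨c', hc', hκc⟩ := K1 π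
    rw [hX, hκc]
    exact ⟨c', hc', rfl⟩
  · rw [eq_bot_iff]
    rintro x ⟨hxE, ⟨π, rfl⟩⟩
    have := K2 π hxE
    rw [this, map_one]
    exact Subgroup.mem_bot.2 rfl
  · apply le_antisymm
    · apply sup_le hEX
      rintro _ ⟨π, rfl⟩
      obtain ⟨c', hc', hκc⟩ := K1 π
      rw [hX, hκc]
      exact ⟨c', hc', rfl⟩
    · intro x hx
      obtain ⟨a, ha, π, rfl⟩ := K4 x hx
      exact Subgroup.mul_mem_sup ha ⟨π, rfl⟩

end

end Cfsg.Agent.Lib.Helper30
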