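import Cfsg.Agent.Lib.Helper30.MonsterQuad
import Cfsg.Agent.Lib.Helper30.CoTwoCore

/-!
Groups of Monster type: a conjugate of `z` lying in `Q` and different from `z` does not lie over
the class of a minimal vector of the Leech lattice (so it lies over a class of vectors of sum of
squares `64`).
-/

set_option autoImplicit false

namespace Cfsg.Agent.Lib.Helper30

open Cfsg Cfsg.Spor Cfsg.Agent.Lib.Helper92 Cfsg.Agent.Lib.Helper7

namespace LeechQuadData

variable {H : Type*} [Group H] {Q : Subgroup H} {ζ : H}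
  {ψ : leechLattice → ↥Q ⧸ Subgroup.center ↥Q} (D : LeechQuadData Q ζ ψ)

include D

theorem psi_neg (a : leechLattice) : ψ (-a) = (ψ a)⁻¹ := by
  have h := D.hadd a (-a)
  rw [add_neg_cancel, D.psi_zero] at h
  exact eq_inv_of_mul_eq_one_right h.symm

theorem cong_of_psi_eq {a b : leechLattice} (h : ψ a = ψ b) :
    (a : GolayPt → ℤ) - (b : GolayPt → ℤ) ∈ twoL := by
  have h1 : ψ (a + -b) = 1 := by rw [D.hadd, D.psi_neg, h, mul_inv_cancel]
  obtain ⟨w, hw⟩ := (D.hker _).1 h1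
  rw [mem_twoL]
  refine ⟨w, w.2, ?_⟩
  have h2 : (a : GolayPt → ℤ) + -(b : GolayPt → ℤ) = (w : GolayPt → ℤ) + (w : GolayPt → ℤ) :=
    congrArg Subtype.val hw
  rw [two_nsmul, ← h2, sub_eq_add_neg]

/-- An element lying over the class of a vector of sum of squares `64` is not central. -/
theorem noncentral_of_norm64 (v : leechLattice) (x : ↥Q) (hv : ψ v = QuotientGroup.mk x)
    (h64 : sqNorm (v : GolayPt → ℤ) = 64) : (x : H) ≠ 1 ∧ (x : H) ≠ ζ := by
  have key : ¬ ((x : H) = 1 ∨ (x : H) = ζ) := by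
    intro hx
    have hc : x ∈ Subgroup.center ↥Q := by
      rw [Subgroup.mem_center_iff]
      intro q
      apply Subtype.ext
      show (q : H) * (x : H) = (x : H) * (q : H)
      rcases hx with h | h
      · rw [h, mul_one, one_mul]
      · rw [h]; exact (D.d.hzc q q.2).symm
    have h1 : ψ v = 1 := by
      rw [hv]; exact (QuotientGroup.eq_one_iff x).2 hc
    obtain ⟨w, hw⟩ := (D.hker v).1 h1
    have h2 : (v : GolayPt → ℤ) = (w : GolayPt → ℤ) + (w : GolayPt → ℤ) := congrArg Subtype.val hw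
    rw [h2, sqNorm_add, dotInt_self] at h64
    by_cases hw0 : (w : GolayPt → ℤ) = 0
    · rw [hw0] at h64
      simp [sqNorm] at h64
    · have := sqNorm_ge w.2 hw0
      omega
  exact ⟨fun h => key (Or.inl h), fun h => key (Or.inr h)⟩

end LeechQuadData

section

variable {G : Type*} [Group G]

/-- `LargeData` for the image in `G` of a subgroup of the centralizer of `z`. -/
theorem largeData_map (z : G) (Q : Subgroup (Subgroup.centralizer ({z} : Set G))) [hQn : Q.Normal]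
    (hB : Subgroup.centralizer (Q : Set (Subgroup.centralizer ({z} : Set G))) ≤ Q)
    (ζ : Subgroup.centralizer ({z} : Set G)) (hζ : (ζ : G) = z) (d : ClassTwoData Q ζ)
    (hcard : 8 < Nat.card Q) :
    LargeData (Q.map (Subgroup.centralizer ({z} : Set G)).subtype) z := by
  have hmem : ∀ x : G, x ∈ Q.map (Subgroup.centralizer ({z} : Set G)).subtype ↔
      ∃ hx : x ∈ Subgroup.centralizer ({z} : Set G),
        (⟨x, hx⟩ : Subgroup.centralizer ({z} : Set G)) ∈ Q := by
    intro x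
    constructor
    · rintro ⟨y, hy, rfl⟩
      exact ⟨y.2, hy⟩
    · rintro ⟨hx, hxQ⟩
      exact ⟨⟨x, hx⟩, hxQ, rfl⟩
  have hzQ : z ∈ Q.map (Subgroup.centralizer ({z} : Set G)).subtype := ⟨ζ, d.hzQ, hζ⟩
  have key : ∀ w : G, w = (ζ : G) →
      ClassTwoData (Q.map (Subgroup.centralizer ({z} : Set G)).subtype) w := by
    intro w hw
    subst hw
    refine ⟨⟨ζ, d.hzQ, rfl⟩, ?_, ?_, ?_, ?_, ?_⟩
    · intro h
      exact d.hz1 (Subtype.ext h)
    · exact congrArg Subtype.val d.hzz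
    · rintro q ⟨q', hq', rfl⟩
      exact congrArg Subtype.val (d.hzc q' hq')
    · rintro x ⟨x', hx', rfl⟩ y ⟨y', hy', rfl⟩
      rcases d.hk x' hx' y' hy' with h | h
      · left; exact congrArg Subtype.val h
      · right; exact congrArg Subtype.val h
    · rintro x ⟨x', hx', rfl⟩ hc
      have h1 : ∀ y ∈ Q, x' * y = y * x' := by
        intro y hy
        apply Subtype.ext
        exact hc (y : G) ⟨y, hy, rfl⟩
      rcases d.hcen x' hx' h1 with h | h
      · left; exact congrArg Subtype.val h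
      · right; exact congrArg Subtype.val h
  have d' : ClassTwoData (Q.map (Subgroup.centralizer ({z} : Set G)).subtype) z := key z hζ.symm
  refine ⟨d', ?_, ?_, ?_⟩
  · intro c hc q hq
    obtain ⟨hqC, hqQ⟩ := (hmem q).1 hq
    have hcC : c ∈ Subgroup.centralizer ({z} : Set G) := mem_cent_sing.2 hc
    rw [hmem]
    exact ⟨Subgroup.mul_mem _ (Subgroup.mul_mem _ hcC hqC) (Subgroup.inv_mem _ hcC),
      hQn.conj_mem ⟨q, hqC⟩ hqQ ⟨c, hcC⟩⟩
  · intro c hc
    have hcC : c ∈ Subgroup.centralizer ({z} : Set G) := mem_cent_sing.2 (hc z hzQ)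
    have h1 : (⟨c, hcC⟩ : Subgroup.centralizer ({z} : Set G)) ∈
        Subgroup.centralizer (Q : Set (Subgroup.centralizer ({z} : Set G))) := by
      rw [Subgroup.mem_centralizer_iff]
      intro f hf
      apply Subtype.ext
      exact (hc (f : G) ⟨f, hf, rfl⟩).symm
    exact d'.hcen c ((hmem c).2 ⟨hcC, hB h1⟩) hc
  · rw [Subgroup.card_map_of_injective (Subgroup.subtype_injective _)]
    exact hcard

/-- The lattice automorphisms fixing `v` that lie over elements of `C(z)` in `R`. -/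
def fuseSub (z : G) (Q : Subgroup (Subgroup.centralizer ({z} : Set G))) [Q.Normal]
    (e : (Subgroup.centralizer ({z} : Set G)) ⧸ Q ≃* Spor.Co1) (R : Subgroup G)
    (v : leechLattice) : Subgroup (Equiv.Perm leechLattice) where
  carrier := {γ | ∃ hγ : γ ∈ Co0, γ v = v ∧ ∃ y : Subgroup.centralizer ({z} : Set G),
      (y : G) ∈ R ∧ (QuotientGroup.mk (⟨γ, hγ⟩ : Co0) : Spor.Co1) = e (QuotientGroup.mk y)}
  one_mem' := ⟨Co0.one_mem, rfl, 1, R.one_mem, by
    have : (⟨1, Co0.one_mem⟩ : Co0) = 1 := rfl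
    rw [this, QuotientGroup.mk_one, QuotientGroup.mk_one, map_one]⟩
  mul_mem' := by
    rintro a b ⟨ha, hav, ya, hya, hma⟩ ⟨hb, hbv, yb, hyb, hmb⟩
    refine ⟨Co0.mul_mem ha hb, ?_, ya * yb, R.mul_mem hya hyb, ?_⟩
    · rw [Equiv.Perm.mul_apply, hbv, hav]
    · have : (⟨a * b, Co0.mul_mem ha hb⟩ : Co0) = ⟨a, ha⟩ * ⟨b, hb⟩ := rfl
      rw [this, QuotientGroup.mk_mul, hma, hmb, QuotientGroup.mk_mul, map_mul]
  inv_mem' := by
    rintro a ⟨ha, hav, ya, hya, hma⟩
    refine ⟨Co0.inv_mem ha, ?_, ya⁻¹, R.inv_mem hya, ?_⟩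
    · rw [Equiv.Perm.inv_eq_iff_eq]; exact hav.symm
    · have : (⟨a⁻¹, Co0.inv_mem ha⟩ : Co0) = (⟨a, ha⟩ : Co0)⁻¹ := rfl
      rw [this, QuotientGroup.mk_inv, hma, QuotientGroup.mk_inv, map_inv]

theorem mem_fuseSub (z : G) (Q : Subgroup (Subgroup.centralizer ({z} : Set G))) [Q.Normal]
    (e : (Subgroup.centralizer ({z} : Set G)) ⧸ Q ≃* Spor.Co1) (R : Subgroup G)
    (v : leechLattice) (γ : Equiv.Perm leechLattice) :
    γ ∈ fuseSub z Q e R v ↔ ∃ hγ : γ ∈ Co0, γ v = v ∧ ∃ y : Subgroup.centralizer ({z} : Set G),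
      (y : G) ∈ R ∧ (QuotientGroup.mk (⟨γ, hγ⟩ : Co0) : Spor.Co1) = e (QuotientGroup.mk y) :=
  Iff.rfl


/-- A conjugate of `z` in `Q`, different from `z`, does not lie over the class of a minimal
vector. -/
theorem monster_conj_not_short [Finite G] (z : G)
    (Q : Subgroup (Subgroup.centralizer ({z} : Set G))) [Q.Normal]
    (hz : orderOf z = 2)
    (hF : Cfsg.generalizedFittingSubgroup (Subgroup.centralizer ({z} : Set G)) = Q)
    (hES : Cfsg.IsExtraspecial 2 Q) (hcard : 8 < Nat.card Q)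
    (e : (Subgroup.centralizer ({z} : Set G)) ⧸ Q ≃* Spor.Co1)
    (ψ : leechLattice → Q ⧸ Subgroup.center Q) (hψ : Cfsg.IsLeechModTwoIso Q e ψ)
    (g : G) (r : Q) (hr : ((r : Subgroup.centralizer ({z} : Set G)) : G) = g * z * g⁻¹)
    (hne : g * z * g⁻¹ ≠ z) (v : leechLattice) (hv : ψ v = QuotientGroup.mk r) :
    sqNorm (v : GolayPt → ℤ) ≠ 32 := by
  intro hv32
  have hzC : z ∈ Subgroup.centralizer ({z} : Set G) := mem_cent_sing.2 rfl
  obtain ⟨ζ, hζdef⟩ : ∃ ζ : Subgroup.centralizer ({z} : Set G), ζ = ⟨z, hzC⟩ := ⟨_, rfl⟩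
  have hζ : (ζ : G) = z := by rw [hζdef]
  have D := leechQuadData_of_monster z Q hz hF hES (by omega) e ψ hψ ζ hζ
  have hint := hψ.2.2.2
  have hB : Subgroup.centralizer (Q : Set (Subgroup.centralizer ({z} : Set G))) ≤ Q := by
    have := centralizer_generalizedFittingSubgroup_le (Subgroup.centralizer ({z} : Set G))
    rwa [hF] at this
  have L := largeData_map z Q hB ζ hζ D.d hcard
  obtain ⟨Q₁, hQ₁⟩ : ∃ Q₁ : Subgroup G,
      Q₁ = Q.map (Subgroup.centralizer ({z} : Set G)).subtype := ⟨_, rfl⟩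
  rw [← hQ₁] at L
  have hQ₁mem : ∀ x : G, x ∈ Q₁ ↔ ∃ hx : x ∈ Subgroup.centralizer ({z} : Set G),
      (⟨x, hx⟩ : Subgroup.centralizer ({z} : Set G)) ∈ Q := by
    intro x
    rw [hQ₁]
    constructor
    · rintro ⟨y, hy, rfl⟩
      exact ⟨y.2, hy⟩
    · rintro ⟨hx, hxQ⟩
      exact ⟨⟨x, hx⟩, hxQ, rfl⟩
  obtain ⟨Q₂, hQ₂⟩ : ∃ Q₂ : Subgroup G, Q₂ = Q₁.map (MulAut.conj g).toMonoidHom := ⟨_, rfl⟩
  have hQ₂mem : ∀ y, y ∈ Q₂ ↔ g⁻¹ * y * g ∈ Q₁ := by
    intro y; rw [hQ₂, Subgroup.mem_map_equiv, MulAut.conj_symm_apply]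
  have huQ : g * z * g⁻¹ ∈ Q₁ := by
    rw [hQ₁, ← hr]; exact ⟨r, r.2, rfl⟩
  have P : LargePair Q₁ Q₂ z (g * z * g⁻¹) := LargePair.of_conj L g huQ hne Q₂ hQ₂mem
  obtain ⟨u, hu⟩ : ∃ u : G, u = g * z * g⁻¹ := ⟨_, rfl⟩
  rw [← hu] at P hr hne huQ
  have hr1 : ((r : Subgroup.centralizer ({z} : Set G))) ≠ 1 := by
    intro h
    apply P.u1
    rw [← hr, h]; rfl
  have hrζ : ((r : Subgroup.centralizer ({z} : Set G))) ≠ ζ := by
    intro h
    apply hne
    rw [← hr, h]; exact hζ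
  -- an element of `Q₂ ∩ C(z)` outside `Q₁`
  obtain ⟨x, hxQ₂, hxz, hxQ₁⟩ : ∃ x ∈ Q₂, x * z = z * x ∧ x ∉ Q₁ := by
    obtain ⟨a, ha, b, hb, haz, hbz, hab⟩ :=
      P.L₂.d.exists_comm_eq_z P.hz P.z1 P.hne P.zz P.L₂.hcard
    by_cases haQ : a ∈ Q₁
    · by_cases hbQ : b ∈ Q₁
      · exfalso
        have h1 := P.E_comm (Subgroup.mem_inf.2 ⟨haQ, ha⟩) (Subgroup.mem_inf.2 ⟨hbQ, hb⟩)
        apply P.u1
        rw [← hab, h1]; group
      · exact ⟨b, hb, hbz, hbQ⟩
    · exact ⟨a, ha, haz, haQ⟩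
  have hxC : x ∈ Subgroup.centralizer ({z} : Set G) := mem_cent_sing.2 hxz
  -- the subgroup of the stabilizer of `v`
  have hN : ∀ n ∈ fuseSub z Q e Q₂ v, n ∈ Co0 ∧ n v = v := by
    rintro n ⟨hγ, hnv, -⟩
    exact ⟨hγ, hnv⟩
  have hnorm : ∀ s : Equiv.Perm leechLattice, s ∈ Co0 → s v = v →
      ∀ n ∈ fuseSub z Q e Q₂ v, s * n * s⁻¹ ∈ fuseSub z Q e Q₂ v := by
    intro s hs hsv n hn
    obtain ⟨hγ, hnv, y, hy, hm⟩ := hn
    obtain ⟨c, hc⟩ := QuotientGroup.mk_surjective (e.symm (QuotientGroup.mk (⟨s, hs⟩ : Co0)))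
    have hc' : (QuotientGroup.mk (⟨s, hs⟩ : Co0) : Spor.Co1) = e (QuotientGroup.mk c) := by
      rw [hc]; simp
    have h1 := hint c ⟨s, hs⟩ hc' v r hv
    have hsv' : (⟨s, hs⟩ : Co0) • v = v := hsv
    rw [hsv', hv] at h1
    obtain ⟨c', hc'm, hc'u⟩ : ∃ c' : Subgroup.centralizer ({z} : Set G),
        (QuotientGroup.mk (⟨s, hs⟩ : Co0) : Spor.Co1) = e (QuotientGroup.mk c') ∧
          (c' : G) * u = u * (c' : G) := by
      rcases D.lift_eq h1 with h2 | h2
      · refine ⟨c, hc', ?_⟩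
        have h3 : (c : G) * u * (c : G)⁻¹ = u := by
          have := congrArg Subtype.val h2
          rw [← hr]; exact this
        calc (c : G) * u = ((c : G) * u * (c : G)⁻¹) * (c : G) := by group
          _ = u * (c : G) := by rw [h3]
      · obtain ⟨q, hq, hqr⟩ := D.d.exists_conj_eq r.2 hr1 hrζ
        have h2' : c * (r : Subgroup.centralizer ({z} : Set G)) * c⁻¹ =
            (r : Subgroup.centralizer ({z} : Set G)) * ζ := h2
        have hqζ : q * ζ * q⁻¹ = ζ := by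
          have := D.d.hzc q hq
          calc q * ζ * q⁻¹ = (ζ * q) * q⁻¹ := by rw [this]
            _ = ζ := by group
        have h4 : (q * c) * (r : Subgroup.centralizer ({z} : Set G)) * (q * c)⁻¹ = r := by
          calc (q * c) * (r : Subgroup.centralizer ({z} : Set G)) * (q * c)⁻¹
              = q * (c * (r : Subgroup.centralizer ({z} : Set G)) * c⁻¹) * q⁻¹ := by group
            _ = q * ((r : Subgroup.centralizer ({z} : Set G)) * ζ) * q⁻¹ := by rw [h2']
            _ = (q * (r : Subgroup.centralizer ({z} : Set G)) * q⁻¹) * (q * ζ * q⁻¹) := by group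
            _ = (ζ * (r : Subgroup.centralizer ({z} : Set G))) * ζ := by rw [hqr, hqζ]
            _ = ((r : Subgroup.centralizer ({z} : Set G)) * ζ) * ζ := by rw [D.d.hzc _ r.2]
            _ = r := by rw [mul_assoc, D.d.hzz, mul_one]
        refine ⟨q * c, ?_, ?_⟩
        · rw [hc', QuotientGroup.mk_mul, (QuotientGroup.eq_one_iff q).2 hq, one_mul]
        · have h3 : ((q * c : Subgroup.centralizer ({z} : Set G)) : G) * u *
              ((q * c : Subgroup.centralizer ({z} : Set G)) : G)⁻¹ = u := by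
            have := congrArg Subtype.val h4
            rw [← hr]; exact this
          calc ((q * c : Subgroup.centralizer ({z} : Set G)) : G) * u
              = (((q * c : Subgroup.centralizer ({z} : Set G)) : G) * u *
                ((q * c : Subgroup.centralizer ({z} : Set G)) : G)⁻¹) *
                ((q * c : Subgroup.centralizer ({z} : Set G)) : G) := by group
            _ = u * ((q * c : Subgroup.centralizer ({z} : Set G)) : G) := by rw [h3]
    have hsi : s⁻¹ v = v := by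
      rw [Equiv.Perm.inv_eq_iff_eq]; exact hsv.symm
    refine ⟨Co0.mul_mem (Co0.mul_mem hs hγ) (Co0.inv_mem hs), ?_, c' * y * c'⁻¹,
      P.L₂.hN (c' : G) hc'u (y : G) hy, ?_⟩
    · rw [Equiv.Perm.mul_apply, Equiv.Perm.mul_apply, hsi, hnv, hsv]
    · have : (⟨s * n * s⁻¹, Co0.mul_mem (Co0.mul_mem hs hγ) (Co0.inv_mem hs)⟩ : Co0) =
          ⟨s, hs⟩ * ⟨n, hγ⟩ * (⟨s, hs⟩ : Co0)⁻¹ := rfl
      rw [this, QuotientGroup.mk_mul, QuotientGroup.mk_mul, QuotientGroup.mk_inv, hc'm, hm,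
        QuotientGroup.mk_mul, QuotientGroup.mk_mul, QuotientGroup.mk_inv, map_mul, map_mul,
        map_inv]
  have h2 : ∀ n ∈ fuseSub z Q e Q₂ v, ∃ k : ℕ, n ^ 2 ^ k = 1 := by
    intro n hn
    obtain ⟨hγ, hnv, y, hy, hm⟩ := hn
    refine ⟨2, ?_⟩
    have hy4 : y ^ 4 = 1 := by
      apply Subtype.ext
      have := P.L₂.pow_four hy
      simpa using this
    have h1 : (QuotientGroup.mk ((⟨n, hγ⟩ : Co0) ^ 4) : Spor.Co1) = 1 := by
      rw [QuotientGroup.mk_pow, hm, ← map_pow, ← QuotientGroup.mk_pow, hy4, QuotientGroup.mk_one,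
        map_one]
    have h3 : (⟨n, hγ⟩ : Co0) ^ 4 ∈ Subgroup.center Co0 := (QuotientGroup.eq_one_iff _).1 h1
    have e4 : (2 : ℕ) ^ 2 = 4 := by norm_num
    rw [e4]
    rcases center_co0 _ h3 with h4 | h4
    · exact congrArg Subtype.val h4
    · exfalso
      have h5 : (n ^ 4) v = v := by
        simp [pow_succ, Equiv.Perm.mul_apply, hnv]
      have h6 : n ^ 4 = negCo := congrArg Subtype.val h4
      rw [h6, negCo_apply] at h5
      have h7 : -(v : GolayPt → ℤ) = (v : GolayPt → ℤ) := congrArg Subtype.val h5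
      have h0 : (v : GolayPt → ℤ) = 0 := by
        funext p
        have := congrFun h7 p
        simp only [Pi.neg_apply, Pi.zero_apply] at this ⊢
        omega
      rw [h0] at hv32
      simp [sqNorm] at hv32
  have htriv := stab_min_normal_two_trivial v hv32 (fuseSub z Q e Q₂ v) hN hnorm h2
  -- a nontrivial element
  obtain ⟨γ, hγm⟩ := QuotientGroup.mk_surjective
    (e (QuotientGroup.mk (⟨x, hxC⟩ : Subgroup.centralizer ({z} : Set G))))
  have h1 := hint ⟨x, hxC⟩ γ hγm v r hv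
  have hxr : (⟨x, hxC⟩ : Subgroup.centralizer ({z} : Set G)) *
      (r : Subgroup.centralizer ({z} : Set G)) *
      (⟨x, hxC⟩ : Subgroup.centralizer ({z} : Set G))⁻¹ = r := by
    apply Subtype.ext
    show x * ((r : Subgroup.centralizer ({z} : Set G)) : G) * x⁻¹ = _
    rw [hr]
    have := P.L₂.d.hzc x hxQ₂
    calc x * u * x⁻¹ = (u * x) * x⁻¹ := by rw [this]
      _ = u := by group
  have h3 : ψ (γ • v) = ψ v := by
    rw [h1, hv]
    congr 1
    exact Subtype.ext hxr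
  have h4 := D.cong_of_psi_eq h3.symm
  have hγn : sqNorm ((γ • v : leechLattice) : GolayPt → ℤ) = 32 := (co0_sqNorm γ.2 v).trans hv32
  obtain ⟨γ', hγ'v, hγ'm⟩ : ∃ γ' : Co0, (γ' : Equiv.Perm leechLattice) v = v ∧
      (QuotientGroup.mk γ' : Spor.Co1) =
        e (QuotientGroup.mk (⟨x, hxC⟩ : Subgroup.centralizer ({z} : Set G))) := by
    rcases short_cong v.2 (γ • v).2 h4 (by omega) (by omega) with h5 | h5 | h5
    · exact ⟨γ, Subtype.ext h5, hγm⟩
    · refine ⟨negElt * γ, ?_, ?_⟩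
      · show negCo ((γ : Equiv.Perm leechLattice) v) = v
        rw [negCo_apply]
        apply Subtype.ext
        show -((γ • v : leechLattice) : GolayPt → ℤ) = _
        rw [h5, neg_neg]
      · rw [QuotientGroup.mk_mul, (QuotientGroup.eq_one_iff negElt).2 negElt_mem_center, one_mul,
          hγm]
    · omega
  have hmem : (γ' : Equiv.Perm leechLattice) ∈ fuseSub z Q e Q₂ v :=
    ⟨γ'.2, hγ'v, ⟨x, hxC⟩, hxQ₂, hγ'm⟩
  have h6 : γ' = 1 := Subtype.ext (htriv _ hmem)
  rw [h6, QuotientGroup.mk_one] at hγ'm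
  have h7 : (QuotientGroup.mk (⟨x, hxC⟩ : Subgroup.centralizer ({z} : Set G)) :
      (Subgroup.centralizer ({z} : Set G)) ⧸ Q) = 1 := by
    apply e.injective
    rw [← hγ'm, map_one]
  exact hxQ₁ ((hQ₁mem x).2 ⟨hxC, (QuotientGroup.eq_one_iff _).1 h7⟩)


/-- A conjugate of `z` in `Q`, different from `z`, lies over the class of a vector of sum of
squares `64`. -/
theorem monster_conj_lift [Finite G] (z : G)
    (Q : Subgroup (Subgroup.centralizer ({z} : Set G))) [Q.Normal]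
    (hz : orderOf z = 2)
    (hF : Cfsg.generalizedFittingSubgroup (Subgroup.centralizer ({z} : Set G)) = Q)
    (hES : Cfsg.IsExtraspecial 2 Q) (hcard : 8 < Nat.card Q)
    (e : (Subgroup.centralizer ({z} : Set G)) ⧸ Q ≃* Spor.Co1)
    (ψ : leechLattice → Q ⧸ Subgroup.center Q) (hψ : Cfsg.IsLeechModTwoIso Q e ψ)
    (g : G) (r : Q) (hr : ((r : Subgroup.centralizer ({z} : Set G)) : G) = g * z * g⁻¹)
    (hne : g * z * g⁻¹ ≠ z) :
    ∃ v : leechLattice, ψ v = QuotientGroup.mk r ∧ sqNorm (v : GolayPt → ℤ) = 64 := by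
  have hzC : z ∈ Subgroup.centralizer ({z} : Set G) := mem_cent_sing.2 rfl
  have D := leechQuadData_of_monster z Q hz hF hES (by omega) e ψ hψ ⟨z, hzC⟩ rfl
  have hzz : z * z = 1 := by
    have h := pow_orderOf_eq_one z
    rw [hz, pow_two] at h
    exact h
  have hz1 : z ≠ 1 := by
    intro h
    rw [h, orderOf_one] at hz
    norm_num at hz
  have h1 : (r : Subgroup.centralizer ({z} : Set G)) ≠ 1 := by
    intro h
    apply hz1
    have h2 : g * z * g⁻¹ = 1 := by rw [← hr, h]; rfl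
    calc z = g⁻¹ * (g * z * g⁻¹) * g := by group
      _ = 1 := by rw [h2]; group
  have h2 : (r : Subgroup.centralizer ({z} : Set G)) ≠ ⟨z, hzC⟩ := by
    intro h
    apply hne
    rw [← hr, h]
  have h3 : (r : Subgroup.centralizer ({z} : Set G)) * (r : Subgroup.centralizer ({z} : Set G)) =
      1 := by
    apply Subtype.ext
    show ((r : Subgroup.centralizer ({z} : Set G)) : G) *
      ((r : Subgroup.centralizer ({z} : Set G)) : G) = 1
    rw [hr]
    calc g * z * g⁻¹ * (g * z * g⁻¹) = g * (z * z) * g⁻¹ := by group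
      _ = 1 := by rw [hzz]; group
  obtain ⟨v, hv, hn⟩ := D.exists_short_lift r h1 h2 h3
  refine ⟨v, hv, ?_⟩
  have := monster_conj_not_short z Q hz hF hES hcard e ψ hψ g r hr hne v hv
  rcases hn with hn | hn
  · exact absurd hn this
  · exact hn

end

end Cfsg.Agent.Lib.Helper30
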