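import Cfsg.Prelude.Def_MonsterType
import Cfsg.Agent.Lib.Helper92.LeechQuad
import Cfsg.Agent.Lib.Helper92.LeechMod2
import Cfsg.Agent.Lib.Helper30.LargeExtra12

/-!
The squaring map of an extraspecial 2-group `Q` whose central quotient is identified with the
Leech lattice modulo 2 compatibly with the lattice automorphism group: an element of `Q` lying
over the class of the lattice vector `v` squares to `1` exactly when `32` divides the sum of
squares of `v`.  (Uses the uniqueness of the invariant quadratic form, `Helper92.quad_unique`.)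
-/

set_option autoImplicit false

namespace Cfsg.Agent.Lib.Helper30

open Cfsg Cfsg.Spor Cfsg.Agent.Lib.Helper92 Cfsg.Agent.Lib.Helper7

section Sign

variable {G : Type*} [Group G]

/-- The sign of the square of an element. -/
noncomputable def sqSign (x : G) : ℤ := by
  classical exact if x * x = 1 then 1 else -1

theorem sqSign_of_sq {x : G} (h : x * x = 1) : sqSign x = 1 := by
  unfold sqSign; simp [h]

theorem sqSign_of_not_sq {x : G} (h : x * x ≠ 1) : sqSign x = -1 := by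
  unfold sqSign; simp [h]

theorem sqSign_eq_or (x : G) : sqSign x = 1 ∨ sqSign x = -1 := by
  by_cases h : x * x = 1
  · exact Or.inl (sqSign_of_sq h)
  · exact Or.inr (sqSign_of_not_sq h)

theorem sqSign_eq_one_iff {x : G} : sqSign x = 1 ↔ x * x = 1 := by
  constructor
  · intro h
    by_contra hne
    rw [sqSign_of_not_sq hne] at h
    norm_num at h
  · exact sqSign_of_sq

theorem ClassTwoData.sqSign_mul {Q : Subgroup G} {z : G} (d : ClassTwoData Q z) {x y : G}
    (hx : x ∈ Q) (hy : y ∈ Q) : sqSign (x * y) = sqSign x * sqSign y * commSign x y := by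
  have hzx : z * x = x * z := d.hzc x hx
  have hsx : ∀ {a : G}, a ∈ Q → (a * a = 1 ∧ sqSign a = 1) ∨ (a * a = z ∧ sqSign a = -1) := by
    intro a ha
    rcases d.sq_mem ha with h | h
    · exact Or.inl ⟨h, sqSign_of_sq h⟩
    · exact Or.inr ⟨h, sqSign_of_not_sq (by rw [h]; exact d.hz1)⟩
  rcases d.comm_iff hx hy with h | h
  · have e : x * y * (x * y) = (x * x) * (y * y) := by
      calc x * y * (x * y) = x * (y * x) * y := by group
        _ = x * (x * y) * y := by rw [h]
        _ = (x * x) * (y * y) := by group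
    rw [commSign_of_comm h]
    rcases hsx hx with ⟨h1, s1⟩ | ⟨h1, s1⟩ <;> rcases hsx hy with ⟨h2, s2⟩ | ⟨h2, s2⟩
    · rw [s1, s2, sqSign_of_sq (by rw [e, h1, h2, one_mul])]; norm_num
    · rw [s1, s2, sqSign_of_not_sq (by rw [e, h1, h2, one_mul]; exact d.hz1)]; norm_num
    · rw [s1, s2, sqSign_of_not_sq (by rw [e, h1, h2, mul_one]; exact d.hz1)]; norm_num
    · rw [s1, s2, sqSign_of_sq (by rw [e, h1, h2]; exact d.hzz)]; norm_num
  · have hne : x * y ≠ y * x := by
      rw [h]; exact d.z_mul_ne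
    have hyx : y * x = z * (x * y) := by
      rw [h, ← mul_assoc, d.hzz, one_mul]
    have e : x * y * (x * y) = z * ((x * x) * (y * y)) := by
      calc x * y * (x * y) = x * (y * x) * y := by group
        _ = x * (z * (x * y)) * y := by rw [hyx]
        _ = (x * z) * (x * y * y) := by group
        _ = (z * x) * (x * y * y) := by rw [hzx]
        _ = z * ((x * x) * (y * y)) := by group
    rw [commSign_of_not_comm hne]
    rcases hsx hx with ⟨h1, s1⟩ | ⟨h1, s1⟩ <;> rcases hsx hy with ⟨h2, s2⟩ | ⟨h2, s2⟩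
    · rw [s1, s2, sqSign_of_not_sq (by rw [e, h1, h2, one_mul, mul_one]; exact d.hz1)]; norm_num
    · rw [s1, s2, sqSign_of_sq (by rw [e, h1, h2, one_mul]; exact d.hzz)]; norm_num
    · rw [s1, s2, sqSign_of_sq (by rw [e, h1, h2, mul_one]; exact d.hzz)]; norm_num
    · rw [s1, s2, sqSign_of_not_sq (by rw [e, h1, h2, d.hzz, mul_one]; exact d.hz1)]; norm_num

/-- The map `{1, -1} → ZMod 2`. -/
def sgnBit (e : ℤ) : ZMod 2 := if e = 1 then 0 else 1

end Sign

/-- An identification of the central quotient of the class-two group `Q` with the Leech lattice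
modulo 2, compatible with the lattice automorphisms. -/
structure LeechQuadData {H : Type*} [Group H] (Q : Subgroup H) (ζ : H)
    (ψ : leechLattice → ↥Q ⧸ Subgroup.center ↥Q) : Prop where
  d : ClassTwoData Q ζ
  hadd : ∀ v w : leechLattice, ψ (v + w) = ψ v * ψ w
  hsurj : Function.Surjective ψ
  hker : ∀ v : leechLattice, ψ v = 1 ↔ ∃ w : leechLattice, v = w + w
  hinv : ∀ g : Co0, ∃ h : H, ∀ (v : leechLattice) (q : ↥Q), ψ v = QuotientGroup.mk q →
      ∃ hq : h * (q : H) * h⁻¹ ∈ Q, ψ (g • v) = QuotientGroup.mk ⟨h * (q : H) * h⁻¹, hq⟩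
  hnon : ∃ x ∈ Q, x * x ≠ 1

namespace LeechQuadData

variable {H : Type*} [Group H] {Q : Subgroup H} {ζ : H}
  {ψ : leechLattice → ↥Q ⧸ Subgroup.center ↥Q} (D : LeechQuadData Q ζ ψ)

include D

/-- Two lifts of the same class differ by `1` or `ζ`. -/
theorem lift_eq {q q' : ↥Q}
    (h : (QuotientGroup.mk q : ↥Q ⧸ Subgroup.center ↥Q) = QuotientGroup.mk q') :
    (q' : H) = q ∨ (q' : H) = q * ζ := by
  have hc : q⁻¹ * q' ∈ Subgroup.center ↥Q := QuotientGroup.eq.1 h
  have h1 := D.d.hcen ((q⁻¹ * q' : ↥Q) : H) (q⁻¹ * q' : ↥Q).2 (by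
    intro y hy
    have := Subgroup.mem_center_iff.1 hc ⟨y, hy⟩
    have h2 := congrArg Subtype.val this
    exact h2.symm)
  rcases h1 with h1 | h1
  · left
    have : ((q : H))⁻¹ * (q' : H) = 1 := h1
    calc (q' : H) = (q : H) * ((q : H)⁻¹ * (q' : H)) := by group
      _ = q := by rw [this, mul_one]
  · right
    have : ((q : H))⁻¹ * (q' : H) = ζ := h1
    calc (q' : H) = (q : H) * ((q : H)⁻¹ * (q' : H)) := by group
      _ = q * ζ := by rw [this]

theorem sq_congr {q q' : ↥Q}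
    (h : (QuotientGroup.mk q : ↥Q ⧸ Subgroup.center ↥Q) = QuotientGroup.mk q') :
    (q' : H) * (q' : H) = (q : H) * (q : H) := by
  rcases D.lift_eq h with h1 | h1
  · rw [h1]
  · rw [h1]
    have hz := D.d.hzc (q : H) q.2
    calc (q : H) * ζ * ((q : H) * ζ) = (q : H) * (ζ * (q : H)) * ζ := by group
      _ = (q : H) * ((q : H) * ζ) * ζ := by rw [hz]
      _ = (q : H) * (q : H) * (ζ * ζ) := by group
      _ = (q : H) * (q : H) := by rw [D.d.hzz, mul_one]

/-- The quadratic function on the lattice: `0` when the lifts of `ψ v` square to `1`. -/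
noncomputable def qf (_D : LeechQuadData Q ζ ψ) (v : leechLattice) : ZMod 2 :=
  sgnBit (sqSign ((Classical.choose (QuotientGroup.mk_surjective (s := Subgroup.center ↥Q) (ψ v)) : ↥Q) : H))

theorem qf_eq (v : leechLattice) (q : ↥Q) (hq : ψ v = QuotientGroup.mk q) :
    D.qf v = sgnBit (sqSign (q : H)) := by
  unfold qf
  have hc := Classical.choose_spec (QuotientGroup.mk_surjective (s := Subgroup.center ↥Q) (ψ v))
  have h1 : (QuotientGroup.mk q : ↥Q ⧸ Subgroup.center ↥Q) =
      QuotientGroup.mk (Classical.choose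
        (QuotientGroup.mk_surjective (s := Subgroup.center ↥Q) (ψ v))) := by
    rw [hc, hq]
  have h2 := D.sq_congr h1
  have h3 : sqSign ((Classical.choose
      (QuotientGroup.mk_surjective (s := Subgroup.center ↥Q) (ψ v)) : ↥Q) : H) = sqSign (q : H) := by
    by_cases hs : (q : H) * (q : H) = 1
    · rw [sqSign_of_sq hs, sqSign_of_sq (by rw [h2]; exact hs)]
    · rw [sqSign_of_not_sq hs, sqSign_of_not_sq (by rw [h2]; exact hs)]
  rw [h3]

theorem psi_zero : ψ 0 = 1 := (D.hker 0).2 ⟨0, (add_zero 0).symm⟩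

theorem psi_double (w : leechLattice) : ψ (w + w) = 1 := (D.hker (w + w)).2 ⟨w, rfl⟩

theorem qf_formula (v : leechLattice) :
    D.qf v = ((sqNorm (v : GolayPt → ℤ) / 16 : ℤ) : ZMod 2) := by
  apply quad_unique D.qf
  · intro v w
    obtain ⟨q, hq⟩ := QuotientGroup.mk_surjective (s := Subgroup.center ↥Q) (ψ v)
    have h1 : ψ (v + (w + w)) = QuotientGroup.mk q := by
      rw [D.hadd, D.psi_double, mul_one, hq]
    rw [D.qf_eq _ q h1, D.qf_eq _ q hq.symm]
  · intro u v w
    obtain ⟨a, ha⟩ := QuotientGroup.mk_surjective (s := Subgroup.center ↥Q) (ψ u)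
    obtain ⟨b, hb⟩ := QuotientGroup.mk_surjective (s := Subgroup.center ↥Q) (ψ v)
    obtain ⟨c, hc⟩ := QuotientGroup.mk_surjective (s := Subgroup.center ↥Q) (ψ w)
    have e1 : ψ (u + v) = QuotientGroup.mk (a * b) := by
      rw [D.hadd, ← ha, ← hb]; rfl
    have e2 : ψ (u + w) = QuotientGroup.mk (a * c) := by
      rw [D.hadd, ← ha, ← hc]; rfl
    have e3 : ψ (v + w) = QuotientGroup.mk (b * c) := by
      rw [D.hadd, ← hb, ← hc]; rfl
    have e4 : ψ (u + v + w) = QuotientGroup.mk (a * b * c) := by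
      rw [D.hadd, e1, ← hc]; rfl
    rw [D.qf_eq _ _ e4, D.qf_eq _ _ e1, D.qf_eq _ _ e2, D.qf_eq _ _ e3, D.qf_eq _ _ ha.symm,
      D.qf_eq _ _ hb.symm, D.qf_eq _ _ hc.symm]
    have s1 : sqSign (((a * b : ↥Q) : H)) = sqSign (a : H) * sqSign (b : H) * commSign (a : H) (b : H) :=
      D.d.sqSign_mul a.2 b.2
    have s2 : sqSign (((a * c : ↥Q) : H)) = sqSign (a : H) * sqSign (c : H) * commSign (a : H) (c : H) :=
      D.d.sqSign_mul a.2 c.2
    have s3 : sqSign (((b * c : ↥Q) : H)) = sqSign (b : H) * sqSign (c : H) * commSign (b : H) (c : H) :=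
      D.d.sqSign_mul b.2 c.2
    have s4 : sqSign (((a * b * c : ↥Q) : H)) =
        sqSign (a : H) * sqSign (b : H) * commSign (a : H) (b : H) * sqSign (c : H) *
          (commSign (a : H) (c : H) * commSign (b : H) (c : H)) := by
      have h1 : sqSign (((a * b * c : ↥Q) : H)) =
          sqSign ((a : H) * (b : H)) * sqSign (c : H) * commSign ((a : H) * (b : H)) (c : H) :=
        D.d.sqSign_mul (Q.mul_mem a.2 b.2) c.2
      rw [h1, D.d.commSign_mul_left a.2 b.2 c.2]
      have : sqSign ((a : H) * (b : H)) = sqSign (a : H) * sqSign (b : H) * commSign (a : H) (b : H) := s1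
      rw [this]
    rw [s1, s2, s3, s4]
    rcases sqSign_eq_or (a : H) with h1 | h1 <;> rcases sqSign_eq_or (b : H) with h2 | h2 <;>
      rcases sqSign_eq_or (c : H) with h3 | h3 <;>
      rcases commSign_eq_or (a : H) (b : H) with h4 | h4 <;>
      rcases commSign_eq_or (a : H) (c : H) with h5 | h5 <;>
      rcases commSign_eq_or (b : H) (c : H) with h6 | h6 <;>
      rw [h1, h2, h3, h4, h5, h6] <;> decide
  · intro g v
    obtain ⟨h, hh⟩ := D.hinv g
    obtain ⟨q, hq⟩ := QuotientGroup.mk_surjective (s := Subgroup.center ↥Q) (ψ v)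
    obtain ⟨hq', hq''⟩ := hh v q hq.symm
    rw [D.qf_eq _ _ hq'', D.qf_eq _ _ hq.symm]
    have : (h * (q : H) * h⁻¹) * (h * (q : H) * h⁻¹) = 1 ↔ (q : H) * (q : H) = 1 := by
      constructor
      · intro h1
        calc (q : H) * (q : H) = h⁻¹ * ((h * (q : H) * h⁻¹) * (h * (q : H) * h⁻¹)) * h := by group
          _ = 1 := by rw [h1]; group
      · intro h1
        calc (h * (q : H) * h⁻¹) * (h * (q : H) * h⁻¹) = h * ((q : H) * (q : H)) * h⁻¹ := by group
          _ = 1 := by rw [h1]; group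
    by_cases hs : (q : H) * (q : H) = 1
    · rw [sqSign_of_sq hs, sqSign_of_sq (this.2 hs)]
    · rw [sqSign_of_not_sq hs, sqSign_of_not_sq (fun h1 => hs (this.1 h1))]
  · obtain ⟨x, hx, hxx⟩ := D.hnon
    obtain ⟨v, hv⟩ := D.hsurj (QuotientGroup.mk ⟨x, hx⟩)
    refine ⟨v, ?_⟩
    rw [D.qf_eq v ⟨x, hx⟩ hv, sqSign_of_not_sq hxx]
    decide

/-- The main consequence: a lift of the class of `v` squares to `1` iff `32 ∣ sqNorm v`. -/
theorem sq_eq_one_iff (v : leechLattice) (q : ↥Q) (hq : ψ v = QuotientGroup.mk q) :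
    (q : H) * (q : H) = 1 ↔ (32 : ℤ) ∣ sqNorm (v : GolayPt → ℤ) := by
  have h1 := D.qf_formula v
  rw [D.qf_eq v q hq] at h1
  obtain ⟨k, hk⟩ := sqNorm_dvd v.2
  have h2 : sqNorm (v : GolayPt → ℤ) / 16 = k := by
    rw [hk]; exact Int.mul_ediv_cancel_left k (by norm_num)
  rw [h2] at h1
  constructor
  · intro hs
    rw [sqSign_of_sq hs] at h1
    have h3 : ((k : ℤ) : ZMod 2) = 0 := by rw [← h1]; rfl
    have h4 : (2 : ℤ) ∣ k := (ZMod.intCast_zmod_eq_zero_iff_dvd k 2).1 h3
    obtain ⟨m, hm⟩ := h4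
    exact ⟨m, by rw [hk, hm]; ring⟩
  · intro hdiv
    by_contra hs
    rw [sqSign_of_not_sq hs] at h1
    obtain ⟨m, hm⟩ := hdiv
    have h4 : (2 : ℤ) ∣ k := ⟨m, by omega⟩
    have h3 : ((k : ℤ) : ZMod 2) = 0 := (ZMod.intCast_zmod_eq_zero_iff_dvd k 2).2 h4
    rw [h3] at h1
    revert h1
    decide

end LeechQuadData

end Cfsg.Agent.Lib.Helper30

namespace Cfsg.Agent.Lib.Helper30

open Cfsg Cfsg.Spor Cfsg.Agent.Lib.Helper92 Cfsg.Agent.Lib.Helper7

/-- The Monster-type hypotheses give `LeechQuadData` inside the centralizer. -/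
theorem leechQuadData_of_monster {G : Type*} [Group G] [Finite G] (z : G)
    (Q : Subgroup (Subgroup.centralizer ({z} : Set G))) [Q.Normal]
    (hz : orderOf z = 2)
    (hF : Cfsg.generalizedFittingSubgroup (Subgroup.centralizer ({z} : Set G)) = Q)
    (hES : Cfsg.IsExtraspecial 2 Q) (hcard : 2 < Nat.card Q)
    (e : (Subgroup.centralizer ({z} : Set G)) ⧸ Q ≃* Spor.Co1)
    (ψ : leechLattice → Q ⧸ Subgroup.center Q) (hψ : Cfsg.IsLeechModTwoIso Q e ψ)
    (ζ : Subgroup.centralizer ({z} : Set G)) (hζ : (ζ : G) = z) :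
    LeechQuadData Q ζ ψ := by
  obtain ⟨hadd, hsurj, hker, hint⟩ := hψ
  have hzz : z * z = 1 := by
    have h := pow_orderOf_eq_one z
    rw [hz, pow_two] at h
    exact h
  have hz1 : z ≠ 1 := by
    intro h
    rw [h, orderOf_one] at hz
    norm_num at hz
  have hζζ : ζ * ζ = 1 := by
    apply Subtype.ext
    show (ζ : G) * (ζ : G) = 1
    rw [hζ, hzz]
  have hζ1 : ζ ≠ 1 := by
    intro h
    apply hz1
    rw [← hζ, h]
    rfl
  have hζc : ∀ c : Subgroup.centralizer ({z} : Set G), ζ * c = c * ζ := by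
    intro c
    apply Subtype.ext
    show (ζ : G) * (c : G) = (c : G) * (ζ : G)
    rw [hζ]
    exact (mem_cent_sing.1 c.2).symm
  have hB : Subgroup.centralizer (Q : Set (Subgroup.centralizer ({z} : Set G))) ≤ Q := by
    have := centralizer_generalizedFittingSubgroup_le (Subgroup.centralizer ({z} : Set G))
    rwa [hF] at this
  have hζQ : ζ ∈ Q := hB (Subgroup.mem_centralizer_iff.2 (fun f _ => (hζc f).symm))
  have d := classTwoData_of_extraspecial' Q hES ζ hζQ (fun q _ => hζc q) hζ1 hζζ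
  refine ⟨d, hadd, hsurj, hker, ?_, ?_⟩
  · intro g
    obtain ⟨h, hh⟩ := QuotientGroup.mk_surjective (e.symm (QuotientGroup.mk g))
    refine ⟨h, fun v q hq => ⟨(inferInstance : Q.Normal).conj_mem
      (q : Subgroup.centralizer ({z} : Set G)) q.2 h, hint h g (by rw [hh]; simp) v q hq⟩⟩
  · by_contra hcon
    push Not at hcon
    have hab : ∀ x ∈ Q, ∀ y ∈ Q, x * y = y * x := by
      intro x hx y hy
      have h1 := hcon (x * y) (Q.mul_mem hx hy)
      have hxi : x⁻¹ = x := inv_eq_of_mul_eq_one_left (hcon x hx)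
      have hyi : y⁻¹ = y := inv_eq_of_mul_eq_one_left (hcon y hy)
      have h2 : (x * y)⁻¹ = x * y := inv_eq_of_mul_eq_one_left h1
      calc x * y = (x * y)⁻¹ := h2.symm
        _ = y⁻¹ * x⁻¹ := mul_inv_rev x y
        _ = y * x := by rw [hxi, hyi]
    have hle : Q ≤ Subgroup.zpowers ζ := by
      intro x hx
      rcases d.hcen x hx (hab x hx) with h | h
      · rw [h]; exact Subgroup.one_mem _
      · rw [h]; exact Subgroup.mem_zpowers ζ
    have h1 : Nat.card Q ≤ Nat.card (Subgroup.zpowers ζ) := Subgroup.card_le_of_le hle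
    rw [Nat.card_zpowers] at h1
    have h2 : orderOf ζ ∣ 2 := orderOf_dvd_of_pow_eq_one (by rw [pow_two]; exact hζζ)
    have h3 : orderOf ζ ≤ 2 := Nat.le_of_dvd (by norm_num) h2
    omega

namespace LeechQuadData

variable {H : Type*} [Group H] {Q : Subgroup H} {ζ : H}
  {ψ : leechLattice → ↥Q ⧸ Subgroup.center ↥Q} (D : LeechQuadData Q ζ ψ)

/-- `ψ` as a homomorphism from the multiplicative copy of the lattice. -/
noncomputable def psiHom (D : LeechQuadData Q ζ ψ) :
    Multiplicative leechLattice →* ↥Q ⧸ Subgroup.center ↥Q where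
  toFun v := ψ (Multiplicative.toAdd v)
  map_one' := D.psi_zero
  map_mul' _ _ := D.hadd _ _

theorem psiHom_apply (v : Multiplicative leechLattice) : D.psiHom v = ψ (Multiplicative.toAdd v) := rfl

theorem psiHom_surjective : Function.Surjective D.psiHom := by
  intro y
  obtain ⟨v, hv⟩ := D.hsurj y
  exact ⟨Multiplicative.ofAdd v, hv⟩

/-- The type homomorphism on the multiplicative copy of the lattice. -/
noncomputable def typeMul : Multiplicative leechLattice →* Multiplicative (GolayPt → ZMod 2) :=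
  AddMonoidHom.toMultiplicative typeHom

theorem typeMul_apply (v : Multiplicative leechLattice) :
    typeMul v = Multiplicative.ofAdd (typeHom (Multiplicative.toAdd v)) := rfl

theorem ker_le : D.psiHom.ker ≤ typeMul.ker := by
  intro v hv
  rw [MonoidHom.mem_ker] at hv ⊢
  obtain ⟨w, hw⟩ := (D.hker _).1 hv
  rw [typeMul_apply, hw, map_add]
  have : typeHom w + typeHom w = 0 := CharTwo.add_self_eq_zero _
  rw [this]
  rfl

/-- The homomorphism from `Q` to the Golay code words recording the type of a class. -/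
noncomputable def typeQ (D : LeechQuadData Q ζ ψ) : ↥Q →* Multiplicative (GolayPt → ZMod 2) :=
  (D.psiHom.liftOfSurjective D.psiHom_surjective ⟨typeMul, D.ker_le⟩).comp
    (QuotientGroup.mk' (Subgroup.center ↥Q))

theorem typeQ_apply (v : leechLattice) (q : ↥Q) (hq : ψ v = QuotientGroup.mk q) :
    D.typeQ q = Multiplicative.ofAdd (typeHom v) := by
  have h1 : (QuotientGroup.mk' (Subgroup.center ↥Q)) q = D.psiHom (Multiplicative.ofAdd v) := by
    rw [psiHom_apply]; exact hq.symm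
  show (D.psiHom.liftOfSurjective D.psiHom_surjective ⟨typeMul, D.ker_le⟩)
    ((QuotientGroup.mk' (Subgroup.center ↥Q)) q) = _
  rw [h1]
  exact MonoidHom.liftOfRightInverse_comp_apply D.psiHom _
    (Function.rightInverse_surjInv D.psiHom_surjective) ⟨typeMul, D.ker_le⟩ (Multiplicative.ofAdd v)

theorem card_typeQ_range : Nat.card D.typeQ.range = 2 ^ 12 := by
  have h1 : Nat.card D.typeQ.range = Nat.card typeHom.range := by
    apply Nat.card_congr
    refine Equiv.subtypeEquiv Multiplicative.toAdd ?_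
    intro y
    constructor
    · rintro ⟨q, rfl⟩
      obtain ⟨v, hv⟩ := D.hsurj (QuotientGroup.mk q)
      rw [D.typeQ_apply v q hv]
      exact ⟨v, rfl⟩
    · rintro ⟨v, hv⟩
      obtain ⟨q, hq⟩ := QuotientGroup.mk_surjective (s := Subgroup.center ↥Q) (ψ v)
      refine ⟨q, ?_⟩
      rw [D.typeQ_apply v q hq.symm, hv]
      rfl
  rw [h1, ← AddSubgroup.index_ker, typeHom_ker_index]

include D

/-- An elementary abelian subgroup of index `2 ^ 12`. -/
theorem exists_elementaryAbelian [Finite H] (hcard : Nat.card Q = 2 ^ 25) :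
    ∃ E : Subgroup ↥Q, Cfsg.IsElementaryAbelian 2 E ∧ Nat.card E = 2 ^ 13 := by
  have hsq : ∀ a ∈ D.typeQ.ker, (a : H) * (a : H) = 1 := by
    intro a ha
    obtain ⟨v, hv⟩ := D.hsurj (QuotientGroup.mk a)
    rw [MonoidHom.mem_ker, D.typeQ_apply v a hv] at ha
    have h0 : typeHom v = 0 := ha
    have h32 := sqNorm_dvd_of_typeWord v.2 h0
    exact (D.sq_eq_one_iff v a hv).2 h32
  have hsq' : ∀ a ∈ D.typeQ.ker, a * a = 1 := fun a ha => Subtype.ext (hsq a ha)
  refine ⟨D.typeQ.ker, ⟨⟨⟨fun a b => ?_⟩⟩, fun a ha => ?_⟩, ?_⟩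
  · apply Subtype.ext
    have h1 := hsq' (a * b : D.typeQ.ker) (a * b : D.typeQ.ker).2
    have hxi : (a : ↥Q)⁻¹ = a := inv_eq_of_mul_eq_one_left (hsq' a a.2)
    have hyi : (b : ↥Q)⁻¹ = b := inv_eq_of_mul_eq_one_left (hsq' b b.2)
    have h2 : ((a : ↥Q) * (b : ↥Q))⁻¹ = (a : ↥Q) * (b : ↥Q) := inv_eq_of_mul_eq_one_left h1
    calc (a : ↥Q) * (b : ↥Q) = ((a : ↥Q) * (b : ↥Q))⁻¹ := h2.symm
      _ = (b : ↥Q)⁻¹ * (a : ↥Q)⁻¹ := mul_inv_rev _ _
      _ = (b : ↥Q) * (a : ↥Q) := by rw [hxi, hyi]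
  · rw [pow_two]; exact hsq' a ha
  · have h1 := Subgroup.card_mul_index D.typeQ.ker
    rw [Subgroup.index_ker, D.card_typeQ_range, hcard] at h1
    have : Nat.card D.typeQ.ker * 2 ^ 12 = 2 ^ 13 * 2 ^ 12 := by rw [h1]; norm_num
    exact Nat.eq_of_mul_eq_mul_right (by norm_num) this

/-- A noncentral involution of `Q` lies over a class with a representative of sum of squares
`32` or `64`. -/
theorem exists_short_lift (x : ↥Q) (hx1 : (x : H) ≠ 1) (hxz : (x : H) ≠ ζ)
    (hxx : (x : H) * (x : H) = 1) :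
    ∃ v : leechLattice, ψ v = QuotientGroup.mk x ∧
      (sqNorm (v : GolayPt → ℤ) = 32 ∨ sqNorm (v : GolayPt → ℤ) = 64) := by
  obtain ⟨v₀, hv₀⟩ := D.hsurj (QuotientGroup.mk x)
  obtain ⟨y, hyL, hyn, w, hwL, hw⟩ := exists_short v₀.1 v₀.2
  have e1 : v₀ = (⟨y, hyL⟩ : leechLattice) + ((⟨w, hwL⟩ : leechLattice) + ⟨w, hwL⟩) := by
    apply Subtype.ext
    show (v₀ : GolayPt → ℤ) = y + (w + w)
    have : (v₀ : GolayPt → ℤ) = y + 2 • w := by rw [← hw]; abel
    rw [this, two_nsmul]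
  have e2 : ψ ⟨y, hyL⟩ = QuotientGroup.mk x := by
    rw [← hv₀, e1, D.hadd, D.psi_double, mul_one]
  refine ⟨⟨y, hyL⟩, e2, ?_⟩
  have hy0 : y ≠ 0 := by
    intro h0
    have e3 : (⟨y, hyL⟩ : leechLattice) = 0 := Subtype.ext h0
    rw [e3, D.psi_zero] at e2
    have e4 : (QuotientGroup.mk (1 : ↥Q) : ↥Q ⧸ Subgroup.center ↥Q) = QuotientGroup.mk x := by
      rw [← e2]; rfl
    rcases D.lift_eq e4 with h | h
    · exact hx1 h
    · apply hxz
      rw [h]
      show (1 : H) * ζ = ζ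
      rw [one_mul]
  have h32 := sqNorm_ge hyL hy0
  obtain ⟨k, hk⟩ := sqNorm_dvd hyL
  have h3 := (D.sq_eq_one_iff ⟨y, hyL⟩ x e2).1 hxx
  obtain ⟨m, hm⟩ := h3
  have hm' : sqNorm y = 32 * m := hm
  show sqNorm y = 32 ∨ sqNorm y = 64
  omega

/-- Elements lying over classes in the same orbit of the lattice automorphism group are
conjugate. -/
theorem conj_of_orbit (x x' : ↥Q) (v v' : leechLattice) (hv : ψ v = QuotientGroup.mk x)
    (hv' : ψ v' = QuotientGroup.mk x') (hx'1 : (x' : H) ≠ 1) (hx'z : (x' : H) ≠ ζ)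
    (hg : ∃ g : Co0, g • v = v') : ∃ h : H, h * (x : H) * h⁻¹ = x' := by
  obtain ⟨g, hg⟩ := hg
  obtain ⟨h, hh⟩ := D.hinv g
  obtain ⟨hq, hq'⟩ := hh v x hv
  rw [hg, hv'] at hq'
  rcases D.lift_eq hq' with h1 | h1
  · exact ⟨h, h1⟩
  · have h1' : h * (x : H) * h⁻¹ = (x' : H) * ζ := h1
    obtain ⟨y, hy, hyx⟩ := D.d.exists_conj_eq x'.2 hx'1 hx'z
    have hzy : ζ * y = y * ζ := D.d.hzc y hy
    have hzx : ζ * (x' : H) = (x' : H) * ζ := D.d.hzc _ x'.2
    refine ⟨y * h, ?_⟩
    calc y * h * (x : H) * (y * h)⁻¹ = y * (h * (x : H) * h⁻¹) * y⁻¹ := by group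
      _ = y * ((x' : H) * ζ) * y⁻¹ := by rw [h1']
      _ = (y * (x' : H) * y⁻¹) * (y * ζ) * y⁻¹ := by group
      _ = (ζ * (x' : H)) * (ζ * y) * y⁻¹ := by rw [hyx, hzy]
      _ = ζ * ((x' : H) * ζ) := by group
      _ = ζ * (ζ * (x' : H)) := by rw [hzx]
      _ = (ζ * ζ) * (x' : H) := by group
      _ = x' := by rw [D.d.hzz, one_mul]

/-- Two noncentral involutions of `Q` whose classes have representatives of the same sum of
squares (`32` or `64`) are conjugate. -/
theorem conj_of_norm (x x' : ↥Q) (v v' : leechLattice) (hv : ψ v = QuotientGroup.mk x)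
    (hv' : ψ v' = QuotientGroup.mk x') (hx'1 : (x' : H) ≠ 1) (hx'z : (x' : H) ≠ ζ)
    (hn : sqNorm (v : GolayPt → ℤ) = 32 ∨ sqNorm (v : GolayPt → ℤ) = 64)
    (hnn : sqNorm (v' : GolayPt → ℤ) = sqNorm (v : GolayPt → ℤ)) :
    ∃ h : H, h * (x : H) * h⁻¹ = x' := by
  apply D.conj_of_orbit x x' v v' hv hv' hx'1 hx'z
  rcases hn with hn | hn
  · exact co0_trans_min v v' hn (hnn.trans hn)
  · exact co0_trans_64 v v' hn (hnn.trans hn)

end LeechQuadData

end Cfsg.Agent.Lib.Helper30
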