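import Mathlib
import Cfsg.Prelude.Def_MonsterType
import Cfsg.Agent.Lib.Helper30.LargeExtra12
import Cfsg.Agent.Lib.Helper30.CyclicSylow2
import Cfsg.Agent.Lib.Helper91.Coprime

/-!
Odd-order subgroups of an involution centralizer acting on a class-two 2-subgroup: the fixed
points carry the same class-two data; groups of order `2m` (`m` odd) with a central involution;
elements of `C(A) ⊔ A`.
-/

set_option autoImplicit false

namespace Cfsg.Agent.Lib.Helper30

variable {G : Type*} [Group G]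

/-- An element of an odd-order subgroup whose fourth power is trivial is trivial. -/
theorem eq_one_of_odd_of_pow_four [Finite G] {A : Subgroup G} (hA : Odd (Nat.card ↥A)) {a : G}
    (ha : a ∈ A) (h4 : a ^ 4 = 1) : a = 1 := by
  have h1 : orderOf a ∣ 4 := orderOf_dvd_of_pow_eq_one h4
  have h2 : orderOf a ∣ Nat.card ↥A := by
    have := orderOf_dvd_natCard (⟨a, ha⟩ : ↥A)
    rwa [Subgroup.orderOf_mk] at this
  have h3 : Nat.Coprime (Nat.card ↥A) 4 := by
    have : Nat.Coprime (Nat.card ↥A) (2 ^ 2) :=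
      Nat.Coprime.pow_right 2 (Nat.coprime_two_right.mpr hA)
    simpa using this
  have h5 : orderOf a ∣ Nat.gcd (Nat.card ↥A) 4 := Nat.dvd_gcd h2 h1
  rw [h3.gcd_eq_one] at h5
  exact orderOf_eq_one_iff.mp (Nat.dvd_one.mp h5)

/-- If `c r c⁻¹ r⁻¹` lies in the odd-order subgroup `A`, `r` centralizes `A` and `r⁴ = 1`,
then `c` and `r` commute. -/
theorem comm_of_comm_mem_odd [Finite G] {A : Subgroup G} (hA : Odd (Nat.card ↥A)) {c r : G}
    (hr : ∀ a ∈ A, a * r = r * a) (hr4 : r ^ 4 = 1) (h : c * r * c⁻¹ * r⁻¹ ∈ A) :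
    c * r = r * c := by
  obtain ⟨a, ha⟩ : ∃ a, a = c * r * c⁻¹ * r⁻¹ := ⟨_, rfl⟩
  rw [← ha] at h
  have har : Commute a r := hr a h
  have h1 : c * r * c⁻¹ = a * r := by rw [ha]; group
  have h2 : (a * r) ^ 4 = a ^ 4 * r ^ 4 := har.mul_pow 4
  have h3 : (c * r * c⁻¹) ^ 4 = 1 := by
    rw [conj_pow, hr4, mul_one, mul_inv_cancel]
  rw [h1, h2, hr4, mul_one] at h3
  have h4 : a = 1 := eq_one_of_odd_of_pow_four hA h h3
  calc c * r = (c * r * c⁻¹ * r⁻¹) * r * c := by group
    _ = r * c := by rw [← ha, h4, one_mul]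

/-- Coprime action: the fixed points of an odd-order group `A ≤ C(z)` on a class-two
2-group `Q` with centre `{1, z}` again have centre `{1, z}`. -/
theorem ClassTwoData.fixed [Finite G] {Q : Subgroup G} {z : G} (d : ClassTwoData Q z)
    (hQ2 : IsPGroup 2 ↥Q) (A : Subgroup G) (hAodd : Odd (Nat.card ↥A))
    (hAz : ∀ a ∈ A, a * z = z * a) (hAQ : ∀ a ∈ A, ∀ q ∈ Q, a * q * a⁻¹ ∈ Q) :
    ClassTwoData (Q ⊓ Subgroup.centralizer (A : Set G)) z := by
  have : Fact (Nat.Prime 2) := ⟨Nat.prime_two⟩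
  have hAK : A ≤ Subgroup.normalizer (Q : Set G) := by
    intro a ha
    apply mem_normalizer_of_conj_mem
    · intro n hn; exact hAQ a ha n hn
    · intro n hn
      have := hAQ a⁻¹ (A.inv_mem ha) n hn
      rwa [inv_inv] at this
  have hcop : (Nat.card ↥A).Coprime (Nat.card ↥Q) := by
    obtain ⟨n, hn⟩ := hQ2.exists_card_eq
    rw [hn]
    exact Nat.Coprime.pow_right n (Nat.coprime_two_right.mpr hAodd)
  have hsolv : Group.IsSolvable ↥A ∨ Group.IsSolvable ↥Q := by
    right
    have := hQ2.isNilpotent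
    infer_instance
  refine ⟨Subgroup.mem_inf.mpr ⟨d.hzQ, ?_⟩, d.hz1, d.hzz, fun q hq => d.hzc q hq.1,
    fun x hx y hy => d.hk x hx.1 y hy.1, ?_⟩
  · rw [Subgroup.mem_centralizer_iff]
    intro a ha
    exact hAz a ha
  · intro x hx hxR
    apply d.hcen x hx.1
    intro q hq
    have hxA : ∀ a ∈ A, a * x = x * a := fun a ha => Subgroup.mem_centralizer_iff.mp hx.2 a ha
    have key : ∀ a ∈ A, ∀ n ∈ Q ⊓ Subgroup.centralizer ({x} : Set G),
        a * n * a⁻¹ ∈ Q ⊓ Subgroup.centralizer ({x} : Set G) := by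
      intro a ha n hn
      refine Subgroup.mem_inf.mpr ⟨hAQ a ha n hn.1, ?_⟩
      rw [mem_cent_sing]
      have h1 : n * x = x * n := mem_cent_sing.mp hn.2
      have h2 := hxA a ha
      calc a * n * a⁻¹ * x = a * n * (a⁻¹ * (x * a)) * a⁻¹ := by group
        _ = a * n * (a⁻¹ * (a * x)) * a⁻¹ := by rw [h2]
        _ = a * (n * x) * a⁻¹ := by group
        _ = a * (x * n) * a⁻¹ := by rw [h1]
        _ = (a * x) * n * a⁻¹ := by group
        _ = (x * a) * n * a⁻¹ := by rw [h2]
        _ = x * (a * n * a⁻¹) := by group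
    have hAD : A ≤ Subgroup.normalizer
        ((Q ⊓ Subgroup.centralizer ({x} : Set G) : Subgroup G) : Set G) := by
      intro a ha
      apply mem_normalizer_of_conj_mem
      · intro n hn; exact key a ha n hn
      · intro n hn
        have := key a⁻¹ (A.inv_mem ha) n hn
        rwa [inv_inv] at this
    have hinv : ∀ a ∈ A, a⁻¹ * q⁻¹ * a * q ∈ Q ⊓ Subgroup.centralizer ({x} : Set G) := by
      intro a ha
      have hq' : a⁻¹ * q⁻¹ * a ∈ Q := by
        have := hAQ a⁻¹ (A.inv_mem ha) q⁻¹ (Q.inv_mem hq)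
        rwa [inv_inv] at this
      refine Subgroup.mem_inf.mpr ⟨Q.mul_mem hq' hq, ?_⟩
      rw [mem_cent_sing]
      have hca : (x * q * x⁻¹ * q⁻¹) * a = a * (x * q * x⁻¹ * q⁻¹) := by
        rcases d.hk x hx.1 q hq with h | h
        · rw [h, one_mul, mul_one]
        · rw [h]; exact (hAz a ha).symm
      have h2 : x * a * x⁻¹ = a := by
        rw [← hxA a ha]; group
      have h3 : x * (a⁻¹ * q⁻¹ * a * q) * x⁻¹ = a⁻¹ * q⁻¹ * a * q := by
        calc x * (a⁻¹ * q⁻¹ * a * q) * x⁻¹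
            = (x * a * x⁻¹)⁻¹ * q⁻¹ * (x * q * x⁻¹ * q⁻¹)⁻¹ * (x * a * x⁻¹) *
                (x * q * x⁻¹ * q⁻¹) * q := by group
          _ = a⁻¹ * q⁻¹ * ((x * q * x⁻¹ * q⁻¹)⁻¹ * (a * (x * q * x⁻¹ * q⁻¹))) * q := by
              rw [h2]; group
          _ = a⁻¹ * q⁻¹ * ((x * q * x⁻¹ * q⁻¹)⁻¹ * ((x * q * x⁻¹ * q⁻¹) * a)) * q := by
              rw [hca]
          _ = a⁻¹ * q⁻¹ * a * q := by group
      calc a⁻¹ * q⁻¹ * a * q * x = (x * (a⁻¹ * q⁻¹ * a * q) * x⁻¹) * x := by rw [h3]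
        _ = x * (a⁻¹ * q⁻¹ * a * q) := by group
    obtain ⟨d', hd', hc⟩ := Cfsg.Agent.Lib.Helper91.exists_mem_centralizer_coset A Q hAK hcop
      hsolv (Q ⊓ Subgroup.centralizer ({x} : Set G)) inf_le_left hAD q hq hinv
    have h1 : x * (q * d') = (q * d') * x := hxR (q * d') ⟨Q.mul_mem hq hd'.1, hc⟩
    have h2 : d' * x = x * d' := mem_cent_sing.mp hd'.2
    calc x * q = x * (q * d') * d'⁻¹ := by group
      _ = (q * d') * x * d'⁻¹ := by rw [h1]
      _ = q * (d' * x) * d'⁻¹ := by group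
      _ = q * (x * d') * d'⁻¹ := by rw [h2]
      _ = q * x := by group

/-- A finite group with a central involution and order not divisible by 4 has a normal
subgroup of odd order and index 2. -/
theorem exists_odd_normal_of_central_involution {Y : Type*} [Group Y] [Finite Y] (z : Y)
    (hz1 : z ≠ 1) (hzz : z * z = 1) (hzc : ∀ y : Y, z * y = y * z) (h4 : ¬ 4 ∣ Nat.card Y) :
    ∃ K : Subgroup Y, K.Normal ∧ Odd (Nat.card ↥K) ∧ ∀ y : Y, y ∈ K ∨ z * y ∈ K := by
  have : Fact (Nat.Prime 2) := ⟨Nat.prime_two⟩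
  have hzp : IsPGroup 2 ↥(Subgroup.zpowers z) :=
    isPGroup_zpowers' (p := 2) (j := 1) (by rw [pow_one, pow_two]; exact hzz)
  obtain ⟨P, hP⟩ := hzp.exists_le_sylow
  have hord : orderOf z = 2 := orderOf_eq_prime (by rw [pow_two]; exact hzz) hz1
  have h2 : 2 ∣ Nat.card Y := by rw [← hord]; exact orderOf_dvd_natCard z
  have hcardP : Nat.card ↥(P : Subgroup Y) = 2 := by
    rw [Sylow.card_eq_multiplicity]
    have hpos : Nat.card Y ≠ 0 := Nat.card_pos.ne'
    have h1 : 1 ≤ (Nat.card Y).factorization 2 :=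
      (Nat.Prime.dvd_iff_one_le_factorization Nat.prime_two hpos).mp h2
    have h3 : ¬ 2 ≤ (Nat.card Y).factorization 2 := by
      intro h
      apply h4
      have : 2 ^ 2 ∣ Nat.card Y :=
        (Nat.Prime.pow_dvd_iff_le_factorization Nat.prime_two hpos).mpr h
      simpa using this
    have : (Nat.card Y).factorization 2 = 1 := by omega
    rw [this, pow_one]
  have hPmem : ∀ p ∈ (P : Subgroup Y), p = 1 ∨ p = z := by
    have hzp2 : Nat.card ↥(Subgroup.zpowers z) = 2 := by rw [Nat.card_zpowers, hord]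
    have heq : Subgroup.zpowers z = (P : Subgroup Y) :=
      Subgroup.eq_of_le_of_card_ge hP (by rw [hcardP, hzp2])
    intro p hp
    rw [← heq] at hp
    exact (mem_zpowers_of_sq hzz).mp hp
  have hcent : Subgroup.normalizer ((P : Subgroup Y) : Set Y) ≤
      Subgroup.centralizer ((P : Subgroup Y) : Set Y) := by
    intro y _
    rw [Subgroup.mem_centralizer_iff]
    intro p hp
    rcases hPmem p hp with rfl | rfl
    · rw [one_mul, mul_one]
    · exact hzc y
  have hcomp := MonoidHom.ker_transferSylow_isComplement' P hcent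
  refine ⟨(MonoidHom.transferSylow P hcent).ker, MonoidHom.normal_ker _, ?_, ?_⟩
  · have h5 := hcomp.card_mul_card
    rw [hcardP] at h5
    rw [Nat.odd_iff]
    by_contra hodd
    apply h4
    have h6 : 2 ∣ Nat.card ↥(MonoidHom.transferSylow P hcent).ker := by omega
    obtain ⟨k, hk⟩ := h6
    rw [hk] at h5
    exact ⟨k, by omega⟩
  · intro y
    obtain ⟨⟨k, p⟩, hkp, -⟩ := (Subgroup.isComplement'_def.mp hcomp).existsUnique y
    have hkp' : (k : Y) * (p : Y) = y := hkp
    rcases hPmem (p : Y) p.2 with h | h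
    · left
      have : (k : Y) = y := by rw [← hkp', h, mul_one]
      rw [← this]; exact k.2
    · right
      have : z * y = (k : Y) := by
        rw [← hkp', h, ← mul_assoc, hzc, mul_assoc, hzz, mul_one]
      rw [this]; exact k.2

/-- Elements of `C(A) ⊔ A` are products `c * a`. -/
theorem exists_mul_of_mem_centralizer_sup {A : Subgroup G} {m : G}
    (hm : m ∈ Subgroup.centralizer (A : Set G) ⊔ A) :
    ∃ c ∈ Subgroup.centralizer (A : Set G), ∃ a ∈ A, m = c * a := by
  let S : Subgroup G :=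
    { carrier := {m | ∃ c ∈ Subgroup.centralizer (A : Set G), ∃ a ∈ A, m = c * a}
      mul_mem' := by
        rintro _ _ ⟨c, hc, a, ha, rfl⟩ ⟨c', hc', a', ha', rfl⟩
        refine ⟨c * c', Subgroup.mul_mem _ hc hc', a * a', A.mul_mem ha ha', ?_⟩
        have h : a * c' = c' * a := Subgroup.mem_centralizer_iff.mp hc' a ha
        calc c * a * (c' * a') = c * (a * c') * a' := by group
          _ = c * (c' * a) * a' := by rw [h]
          _ = c * c' * (a * a') := by group
      one_mem' := ⟨1, Subgroup.one_mem _, 1, A.one_mem, by rw [one_mul]⟩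
      inv_mem' := by
        rintro _ ⟨c, hc, a, ha, rfl⟩
        refine ⟨c⁻¹, Subgroup.inv_mem _ hc, a⁻¹, A.inv_mem ha, ?_⟩
        have h : a * c = c * a := Subgroup.mem_centralizer_iff.mp hc a ha
        rw [← h]; group }
  have h1 : Subgroup.centralizer (A : Set G) ⊔ A ≤ S := by
    apply sup_le
    · intro c hc; exact ⟨c, hc, 1, A.one_mem, by rw [mul_one]⟩
    · intro a ha; exact ⟨1, Subgroup.one_mem _, a, ha, by rw [one_mul]⟩
  exact h1 hm

/-- Membership in the centralizer of a join of two subgroups. -/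
theorem mem_centralizer_sup {A B : Subgroup G} {w : G} :
    w ∈ Subgroup.centralizer ((A ⊔ B : Subgroup G) : Set G) ↔
      (∀ a ∈ A, a * w = w * a) ∧ (∀ b ∈ B, b * w = w * b) := by
  constructor
  · intro h
    exact ⟨fun a ha => Subgroup.mem_centralizer_iff.mp h a (Subgroup.mem_sup_left ha),
      fun b hb => Subgroup.mem_centralizer_iff.mp h b (Subgroup.mem_sup_right hb)⟩
  · rintro ⟨h1, h2⟩
    rw [Subgroup.mem_centralizer_iff]
    intro h hh
    have h3 : A ⊔ B ≤ Subgroup.centralizer ({w} : Set G) := by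
      apply sup_le
      · intro a ha; rw [mem_cent_sing]; exact h1 a ha
      · intro b hb; rw [mem_cent_sing]; exact h2 b hb
    exact mem_cent_sing.mp (h3 hh)

end Cfsg.Agent.Lib.Helper30
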