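import Mathlib
import Cfsg.Prelude.Def_MonsterType
import Cfsg.Agent.Lib.Helper30.OddCent
import Cfsg.Agent.S5422
import Cfsg.Agent.S0095

/-!
The image of `R = C_Q(A)` in a quotient of `C(A)` by `A ∩ C(A)` is large extraspecial
(`A` of odd order in the centralizer of the involution `z`, `Q` large extraspecial data).
-/

set_option autoImplicit false

namespace Cfsg.Agent.Lib.Helper30

variable {G : Type*} [Group G]

theorem isLargeExtraspecial_image [Finite G] {Q : Subgroup G} {z : G} (L : LargeData Q z)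
    (A : Subgroup G) (hAodd : Odd (Nat.card ↥A))
    (dR : ClassTwoData (Q ⊓ Subgroup.centralizer (A : Set G)) z)
    (hR32 : 32 ≤ Nat.card ↥(Q ⊓ Subgroup.centralizer (A : Set G) : Subgroup G))
    (hY : ∀ y ∈ Subgroup.centralizer (A : Set G),
      (∀ r ∈ Q ⊓ Subgroup.centralizer (A : Set G), y * r = r * y) → y ∈ A ∨ z * y ∈ A)
    (x u : G) (hxA : x ∈ Subgroup.centralizer (A : Set G))
    (hu : u ∈ Q ⊓ Subgroup.centralizer (A : Set G)) (hu1 : u ≠ 1) (huz : u ≠ z)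
    (hxu : x * u * x⁻¹ = z)
    {H : Type*} [Group H] [Finite H] (θ : ↥(Subgroup.centralizer (A : Set G)) →* H)
    (hsurj : Function.Surjective θ)
    (hker : ∀ c : ↥(Subgroup.centralizer (A : Set G)), θ c = 1 ↔ (c : G) ∈ A) :
    Cfsg.IsLargeExtraspecial
      (((Q ⊓ Subgroup.centralizer (A : Set G)).subgroupOf
        (Subgroup.centralizer (A : Set G))).map θ) := by
  classical
  have hp2 : Fact (Nat.Prime 2) := ⟨Nat.prime_two⟩
  obtain ⟨R, hRdef⟩ : ∃ R : Subgroup G, R = Q ⊓ Subgroup.centralizer (A : Set G) := ⟨_, rfl⟩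
  rw [← hRdef] at dR hR32 hY hu ⊢
  have hRQ : ∀ r ∈ R, r ∈ Q := fun r hr => by rw [hRdef] at hr; exact hr.1
  have hRC : ∀ r ∈ R, r ∈ Subgroup.centralizer (A : Set G) := fun r hr => by
    rw [hRdef] at hr; exact hr.2
  have hRA : ∀ r ∈ R, ∀ a ∈ A, a * r = r * a := fun r hr a ha =>
    Subgroup.mem_centralizer_iff.mp (hRC r hr) a ha
  have hzR : z ∈ R := dR.hzQ
  have hzz : z * z = 1 := dR.hzz
  have hodd : ∀ a ∈ A, a ^ 4 = 1 → a = 1 := fun a ha h => eq_one_of_odd_of_pow_four hAodd ha h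
  have hQ4 : ∀ q ∈ Q, q ^ 4 = 1 := fun q hq => by
    have := L.d.pow_four' hq
    norm_num at this
    exact this
  have hzA : z ∉ A := fun h => dR.hz1 (hodd z h (hQ4 z L.d.hzQ))
  obtain ⟨Rb, hRb⟩ : ∃ Rb : Subgroup H,
      Rb = (R.subgroupOf (Subgroup.centralizer (A : Set G))).map θ := ⟨_, rfl⟩
  rw [← hRb]
  have hmemRb : ∀ h : H, h ∈ Rb ↔ ∃ r, ∃ hr : r ∈ R, θ ⟨r, hRC r hr⟩ = h := by
    intro h
    rw [hRb]
    constructor
    · rintro ⟨c, hc, rfl⟩
      exact ⟨(c : G), Subgroup.mem_subgroupOf.mp hc, rfl⟩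
    · rintro ⟨r, hr, rfl⟩
      exact ⟨⟨r, hRC r hr⟩, Subgroup.mem_subgroupOf.mpr hr, rfl⟩
  have hθR : ∀ r (hr : r ∈ R), θ ⟨r, hRC r hr⟩ ∈ Rb := fun r hr => (hmemRb _).mpr ⟨r, hr, rfl⟩
  obtain ⟨zb, hzb⟩ : ∃ zb : H, zb = θ ⟨z, hRC z hzR⟩ := ⟨_, rfl⟩
  have hθeq : ∀ c c' : ↥(Subgroup.centralizer (A : Set G)), θ c = θ c' →
      (c : G) * (c' : G)⁻¹ ∈ A := by
    intro c c' h
    have : θ (c * c'⁻¹) = 1 := by rw [map_mul, map_inv, h, mul_inv_cancel]
    exact (hker _).mp this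
  have hinj : ∀ c c' : ↥(Subgroup.centralizer (A : Set G)), (c : G) ∈ Q → (c' : G) ∈ Q →
      θ c = θ c' → c = c' := by
    intro c c' hc hc' h
    have h1 := hθeq c c' h
    have h2 := hodd _ h1 (hQ4 _ (Q.mul_mem hc (Q.inv_mem hc')))
    exact Subtype.ext (mul_inv_eq_one.mp h2)
  have hcomm : ∀ c : ↥(Subgroup.centralizer (A : Set G)), ∀ r (hr : r ∈ R),
      θ c * θ ⟨r, hRC r hr⟩ = θ ⟨r, hRC r hr⟩ * θ c → (c : G) * r = r * (c : G) := by
    intro c r hr h
    apply comm_of_comm_mem_odd hAodd (hRA r hr) (hQ4 r (hRQ r hr))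
    have h1 : θ (c * ⟨r, hRC r hr⟩ * c⁻¹ * (⟨r, hRC r hr⟩ : ↥(Subgroup.centralizer (A : Set G)))⁻¹)
        = 1 := by
      rw [map_mul, map_mul, map_mul, map_inv, map_inv, h]
      group
    exact (hker _).mp h1
  -- class two data for the image
  have dRb : ClassTwoData Rb zb := by
    refine ⟨?_, ?_, ?_, ?_, ?_, ?_⟩
    · rw [hzb]; exact hθR z hzR
    · intro h
      rw [hzb] at h
      exact hzA ((hker _).mp h)
    · rw [hzb, ← map_mul]
      have : (⟨z, hRC z hzR⟩ : ↥(Subgroup.centralizer (A : Set G))) * ⟨z, hRC z hzR⟩ = 1 :=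
        Subtype.ext hzz
      rw [this, map_one]
    · intro q hq
      obtain ⟨r, hr, rfl⟩ := (hmemRb q).mp hq
      rw [hzb, ← map_mul, ← map_mul]
      congr 1
      exact Subtype.ext (dR.hzc r hr)
    · intro x' hx' y hy
      obtain ⟨r, hr, rfl⟩ := (hmemRb x').mp hx'
      obtain ⟨s, hs, rfl⟩ := (hmemRb y).mp hy
      have e : θ ⟨r, hRC r hr⟩ * θ ⟨s, hRC s hs⟩ * (θ ⟨r, hRC r hr⟩)⁻¹ * (θ ⟨s, hRC s hs⟩)⁻¹ =
          θ (⟨r, hRC r hr⟩ * ⟨s, hRC s hs⟩ * ⟨r, hRC r hr⟩⁻¹ * ⟨s, hRC s hs⟩⁻¹) := by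
        simp only [map_mul, map_inv]
      rw [e]
      rcases dR.hk r hr s hs with h | h
      · left
        have : (⟨r, hRC r hr⟩ * ⟨s, hRC s hs⟩ * ⟨r, hRC r hr⟩⁻¹ * ⟨s, hRC s hs⟩⁻¹ :
            ↥(Subgroup.centralizer (A : Set G))) = 1 := Subtype.ext h
        rw [this, map_one]
      · right
        have : (⟨r, hRC r hr⟩ * ⟨s, hRC s hs⟩ * ⟨r, hRC r hr⟩⁻¹ * ⟨s, hRC s hs⟩⁻¹ :
            ↥(Subgroup.centralizer (A : Set G))) = ⟨z, hRC z hzR⟩ := Subtype.ext h
        rw [this, hzb]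
    · intro x' hx' hxc
      obtain ⟨r, hr, rfl⟩ := (hmemRb x').mp hx'
      have h1 : ∀ s ∈ R, r * s = s * r := by
        intro s hs
        have h2 := hxc _ (hθR s hs)
        have h3 : (⟨r, hRC r hr⟩ * ⟨s, hRC s hs⟩ : ↥(Subgroup.centralizer (A : Set G))) =
            ⟨s, hRC s hs⟩ * ⟨r, hRC r hr⟩ := by
          apply hinj
          · exact Q.mul_mem (hRQ r hr) (hRQ s hs)
          · exact Q.mul_mem (hRQ s hs) (hRQ r hr)
          · rw [map_mul, map_mul]; exact h2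
        exact congrArg Subtype.val h3
      rcases dR.hcen r hr h1 with h | h
      · left
        have : (⟨r, hRC r hr⟩ : ↥(Subgroup.centralizer (A : Set G))) = 1 := Subtype.ext h
        rw [this, map_one]
      · right
        have : (⟨r, hRC r hr⟩ : ↥(Subgroup.centralizer (A : Set G))) = ⟨z, hRC z hzR⟩ :=
          Subtype.ext h
        rw [this, hzb]
  -- extraspecial
  obtain ⟨a, ha, hab⟩ := dR.exists_conj_eq hu hu1 huz
  have hL1 : Cfsg.IsExtraspecial 2 ↥Rb := by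
    apply isExtraspecial_of_classTwoData dRb
    refine ⟨θ ⟨a, hRC a ha⟩, hθR a ha, θ ⟨u, hRC u hu⟩, hθR u hu, ?_⟩
    rw [hzb, ← map_inv, ← map_inv, ← map_mul, ← map_mul, ← map_mul]
    congr 1
    apply Subtype.ext
    show a * u * a⁻¹ * u⁻¹ = z
    rw [hab]; group
  have hZ : ∀ h : H, h ∈ (Subgroup.center ↥Rb).map Rb.subtype ↔ h = 1 ∨ h = zb := by
    intro h
    constructor
    · rintro ⟨w, hw, rfl⟩
      apply dRb.hcen (w : H) w.2
      intro y hy
      have := Subgroup.mem_center_iff.mp hw ⟨y, hy⟩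
      exact (congrArg Subtype.val this).symm
    · rintro (h1 | h1)
      · rw [h1]; exact Subgroup.one_mem _
      · rw [h1]
        have hc : (⟨zb, dRb.hzQ⟩ : ↥Rb) ∈ Subgroup.center ↥Rb := by
          rw [Subgroup.mem_center_iff]
          intro y
          exact Subtype.ext (dRb.hzc (y : H) y.2).symm
        exact ⟨⟨zb, dRb.hzQ⟩, hc, rfl⟩
  have hL2 : Subgroup.centralizer (Rb : Set H) = (Subgroup.center ↥Rb).map Rb.subtype := by
    ext h
    rw [hZ]
    constructor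
    · intro hh
      obtain ⟨c, rfl⟩ := hsurj h
      have h1 : ∀ r ∈ R, (c : G) * r = r * (c : G) := by
        intro r hr
        apply hcomm c r hr
        exact (Subgroup.mem_centralizer_iff.mp hh _ (hθR r hr)).symm
      rcases hY (c : G) c.2 h1 with h2 | h2
      · left; exact (hker c).mpr h2
      · right
        have h3 : θ (⟨z, hRC z hzR⟩ * c) = 1 := (hker _).mpr h2
        rw [map_mul, ← hzb] at h3
        have h4 : zb * zb = 1 := dRb.hzz
        calc θ c = (zb * zb) * θ c := by rw [h4, one_mul]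
          _ = zb * (zb * θ c) := by rw [mul_assoc]
          _ = zb := by rw [h3, mul_one]
    · rintro (h1 | h1)
      · rw [h1]; exact Subgroup.one_mem _
      · rw [h1, Subgroup.mem_centralizer_iff]
        intro y hy
        exact (dRb.hzc y hy).symm
  have hL3 : Subgroup.centralizer (((Subgroup.center ↥Rb).map Rb.subtype : Subgroup H) : Set H) ≤
      Subgroup.normalizer (Rb : Set H) := by
    intro h hh
    obtain ⟨c, rfl⟩ := hsurj h
    have h0 : zb * θ c = θ c * zb :=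
      Subgroup.mem_centralizer_iff.mp hh zb ((hZ zb).mpr (Or.inr rfl))
    have hcz : (c : G) * z = z * (c : G) := hcomm c z hzR (by rw [← hzb]; exact h0.symm)
    have hconj : ∀ c' : ↥(Subgroup.centralizer (A : Set G)), (c' : G) * z = z * (c' : G) →
        ∀ n ∈ Rb, θ c' * n * (θ c')⁻¹ ∈ Rb := by
      intro c' hc' n hn
      obtain ⟨r, hr, rfl⟩ := (hmemRb n).mp hn
      have hr' : (c' : G) * r * (c' : G)⁻¹ ∈ R := by
        rw [hRdef]
        exact Subgroup.mem_inf.mpr ⟨L.hN c' hc' r (hRQ r hr),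
          Subgroup.mul_mem _ (Subgroup.mul_mem _ c'.2 (hRC r hr)) (Subgroup.inv_mem _ c'.2)⟩
      have e : θ c' * θ ⟨r, hRC r hr⟩ * (θ c')⁻¹ =
          θ ⟨(c' : G) * r * (c' : G)⁻¹, hRC _ hr'⟩ := by
        rw [← map_inv, ← map_mul, ← map_mul]; rfl
      rw [e]; exact hθR _ hr'
    apply mem_normalizer_of_conj_mem
    · exact hconj c hcz
    · intro n hn
      have hcz' : ((c⁻¹ : ↥(Subgroup.centralizer (A : Set G))) : G) * z =
          z * ((c⁻¹ : ↥(Subgroup.centralizer (A : Set G))) : G) := by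
        rw [Subgroup.coe_inv]
        calc (c : G)⁻¹ * z = (c : G)⁻¹ * (z * (c : G)) * (c : G)⁻¹ := by group
          _ = (c : G)⁻¹ * ((c : G) * z) * (c : G)⁻¹ := by rw [hcz]
          _ = z * (c : G)⁻¹ := by group
      have := hconj c⁻¹ hcz' n hn
      rw [map_inv, inv_inv] at this
      exact this
  -- the order
  obtain ⟨w, hw1, hcard⟩ := Cfsg.Agent.S0095.result (p := 2) hL1
  have hw : 2 ≤ w := by
    have h1 : Nat.card ↥R ≤ Nat.card ↥Rb := by
      apply Nat.card_le_card_of_injective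
        (fun r : ↥R => (⟨θ ⟨r, hRC r r.2⟩, hθR r r.2⟩ : ↥Rb))
      intro r s h
      have h2 : θ ⟨r, hRC r r.2⟩ = θ ⟨s, hRC s s.2⟩ := congrArg Subtype.val h
      have h3 := hinj _ _ (hRQ r r.2) (hRQ s s.2) h2
      have h4 : (r : G) = (s : G) := congrArg (fun c : ↥(Subgroup.centralizer (A : Set G)) => (c : G)) h3
      exact Subtype.ext h4
    by_contra hlt
    have hw' : w = 1 := by omega
    rw [hw'] at hcard
    norm_num at hcard
    omega
  -- the fusing element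
  obtain ⟨gb, hgb⟩ : ∃ gb : H, gb = θ ⟨x⁻¹, Subgroup.inv_mem _ hxA⟩ := ⟨_, rfl⟩
  have hub : gb * zb * gb⁻¹ = θ ⟨u, hRC u hu⟩ := by
    rw [hgb, hzb, ← map_inv, ← map_mul, ← map_mul]
    congr 1
    apply Subtype.ext
    show x⁻¹ * z * (x⁻¹)⁻¹ = u
    rw [← hxu]; group
  have hub1 : θ ⟨u, hRC u hu⟩ ≠ 1 := by
    intro h
    exact hu1 (hodd u ((hker _).mp h) (hQ4 u (hRQ u hu)))
  have hubz : θ ⟨u, hRC u hu⟩ ≠ zb := by
    intro h
    rw [hzb] at h
    exact huz (congrArg Subtype.val (hinj _ _ (hRQ u hu) (hRQ z hzR) h))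
  have hg : gb ∉ Subgroup.normalizer
      (((Subgroup.center ↥Rb).map Rb.subtype : Subgroup H) : Set H) := by
    intro h
    have h1 := (Subgroup.mem_normalizer_iff.mp h zb).mp ((hZ zb).mpr (Or.inr rfl))
    rw [hub, hZ] at h1
    rcases h1 with h1 | h1
    · exact hub1 h1
    · exact hubz h1
  have hZg : ((Subgroup.center ↥Rb).map Rb.subtype).map (MulAut.conj gb).toMonoidHom ≤ Rb := by
    rintro _ ⟨y, hy, rfl⟩
    rcases (hZ y).mp hy with h1 | h1
    · rw [h1, map_one]; exact Rb.one_mem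
    · have e : (MulAut.conj gb).toMonoidHom zb = gb * zb * gb⁻¹ := by simp
      rw [h1, e, hub]; exact hθR u hu
  exact (Cfsg.Agent.S5422.result Rb hL1 hL2 hL3 w hw hcard gb hg hZg).2.2

end Cfsg.Agent.Lib.Helper30
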