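import Mathlib
import Cfsg.Agent.Lib.Helper53.Basic

/-!
Odd-order action on a `2`-subgroup: the predicate `OddAct H y` (`y` normalizes `H` and no
`2`-power of `y` centralizes `H`), its invariance under conjugation, a Frattini-argument step
enlarging `H` to a Sylow `2`-subgroup of `C(H)`, and a maximal choice inside a Sylow `2`-subgroup.
-/

set_option autoImplicit false

namespace Cfsg.Agent.Lib.Helper30

variable {G : Type*} [Group G]

/-- `y` normalizes `H` and no `2`-power of `y` centralizes `H`. -/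
def OddAct (H : Subgroup G) (y : G) : Prop :=
  y ∈ Subgroup.normalizer (H : Set G) ∧ ∀ k : ℕ, ∃ h ∈ H, y ^ (2 ^ k) * h ≠ h * y ^ (2 ^ k)

theorem OddAct.conj {H : Subgroup G} {y : G} (hy : OddAct H y) (x : G) (H' : Subgroup G)
    (hH' : ∀ a, a ∈ H' ↔ x⁻¹ * a * x ∈ H) : OddAct H' (x * y * x⁻¹) := by
  have hyN := Subgroup.mem_normalizer_iff.1 hy.1
  refine ⟨?_, ?_⟩
  · rw [Subgroup.mem_normalizer_iff]
    intro a
    rw [hH', hH', hyN]
    have e : x⁻¹ * (x * y * x⁻¹ * a * (x * y * x⁻¹)⁻¹) * x = y * (x⁻¹ * a * x) * y⁻¹ := by group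
    rw [e]
  · intro k
    obtain ⟨h, hh, hne⟩ := hy.2 k
    refine ⟨x * h * x⁻¹, ?_, ?_⟩
    · rw [hH']
      have e : x⁻¹ * (x * h * x⁻¹) * x = h := by group
      rw [e]; exact hh
    · intro e
      apply hne
      rw [conj_pow] at e
      calc y ^ (2 ^ k) * h = x⁻¹ * ((x * y ^ (2 ^ k) * x⁻¹) * (x * h * x⁻¹)) * x := by group
        _ = x⁻¹ * ((x * h * x⁻¹) * (x * y ^ (2 ^ k) * x⁻¹)) * x := by rw [e]
        _ = h * y ^ (2 ^ k) := by group

/-- If `y'` and `y` induce the same conjugation on `H`, so do their powers. -/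
theorem conj_pow_eq_of_agree {H : Subgroup G} {y y' : G} (hy : ∀ h ∈ H, y * h * y⁻¹ ∈ H)
    (hag : ∀ h ∈ H, y' * h * y'⁻¹ = y * h * y⁻¹) (j : ℕ) :
    ∀ h ∈ H, y' ^ j * h * (y' ^ j)⁻¹ = y ^ j * h * (y ^ j)⁻¹ := by
  induction j with
  | zero => intro h _; simp
  | succ j ih =>
    intro h hh
    have e1 : y' ^ (j + 1) * h * (y' ^ (j + 1))⁻¹ = y' ^ j * (y' * h * y'⁻¹) * (y' ^ j)⁻¹ := by
      rw [pow_succ]; group
    have e2 : y ^ (j + 1) * h * (y ^ (j + 1))⁻¹ = y ^ j * (y * h * y⁻¹) * (y ^ j)⁻¹ := by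
      rw [pow_succ]; group
    rw [e1, e2, hag h hh]
    exact ih _ (hy h hh)

/-- The centralizer of `H` is normalized by the normalizer of `H` (one direction). -/
theorem conj_mem_centralizer_of_normalizer {H : Subgroup G} {y : G}
    (hy : y ∈ Subgroup.normalizer (H : Set G)) {c : G} (hc : ∀ h ∈ H, h * c = c * h) :
    ∀ h ∈ H, h * (y * c * y⁻¹) = (y * c * y⁻¹) * h := by
  have hyN := Subgroup.mem_normalizer_iff.1 hy
  intro h hh
  have h' : y⁻¹ * h * y ∈ H := by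
    rw [hyN]
    have e : y * (y⁻¹ * h * y) * y⁻¹ = h := by group
    rw [e]; exact hh
  have e := hc _ h'
  calc h * (y * c * y⁻¹) = y * ((y⁻¹ * h * y) * c) * y⁻¹ := by group
    _ = y * (c * (y⁻¹ * h * y)) * y⁻¹ := by rw [e]
    _ = (y * c * y⁻¹) * h := by group

/-- Frattini-argument step: an abelian `2`-subgroup `H` with `OddAct H y`, centralized by the
involution `z`, is contained in a `2`-subgroup `S ∋ z` with `OddAct S y'` for some `y'`. -/
theorem OddAct.frattini [Finite G] {H : Subgroup G} {y : G} (hy : OddAct H y)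
    (hab : ∀ a ∈ H, ∀ b ∈ H, a * b = b * a) (hH2 : IsPGroup 2 H)
    (z : G) (hzz : z * z = 1) (hzH : ∀ h ∈ H, z * h = h * z) :
    ∃ (S : Subgroup G) (y' : G), OddAct S y' ∧ IsPGroup 2 S ∧ H ≤ S ∧ z ∈ S := by
  classical
  haveI : Fact (Nat.Prime 2) := ⟨Nat.prime_two⟩
  have hyN := Subgroup.mem_normalizer_iff.1 hy.1
  obtain ⟨M, hM⟩ : ∃ M : Subgroup G, M = Subgroup.normalizer (H : Set G) := ⟨_, rfl⟩
  obtain ⟨F, hF⟩ : ∃ F : Subgroup G, F = Subgroup.centralizer (H : Set G) := ⟨_, rfl⟩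
  have hFM : F ≤ M := by rw [hF, hM]; exact Subgroup.centralizer_le_normalizer _
  have hFmem : ∀ c, c ∈ F ↔ ∀ h ∈ H, h * c = c * h := by
    intro c; rw [hF]; exact Subgroup.mem_centralizer_iff
  have hyM : y ∈ M := by rw [hM]; exact hy.1
  haveI hFn : (F.subgroupOf M).Normal := by
    constructor
    intro c hc n
    rw [Subgroup.mem_subgroupOf] at hc ⊢
    rw [hFmem] at hc ⊢
    have hn : (n : G) ∈ Subgroup.normalizer (H : Set G) := by rw [← hM]; exact n.2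
    have := conj_mem_centralizer_of_normalizer hn hc
    simpa using this
  have hz2 : IsPGroup 2 (Subgroup.zpowers z) := by
    intro g
    refine ⟨1, ?_⟩
    obtain ⟨i, hi⟩ := Subgroup.mem_zpowers_iff.1 g.2
    apply Subtype.ext
    have e : (z ^ i) ^ 2 = (z ^ 2) ^ i := by
      rw [← zpow_natCast, ← zpow_mul, mul_comm, zpow_mul, zpow_natCast]
    rw [Subgroup.coe_pow, ← hi, pow_one, e, pow_two, hzz, one_zpow]
    rfl
  have hzF : z ∈ F := by
    rw [hFmem]; intro h hh; exact (hzH h hh).symm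
  obtain ⟨H₁, hH₁⟩ : ∃ H₁ : Subgroup G, H₁ = Subgroup.zpowers z ⊔ H := ⟨_, rfl⟩
  have hH₁2 : IsPGroup 2 H₁ := by
    rw [hH₁]
    refine IsPGroup.to_sup_of_normal_right' hz2 hH2 ?_
    rw [Subgroup.zpowers_le, ← hM]
    exact hFM hzF
  have hH₁F : H₁ ≤ F := by
    rw [hH₁, sup_le_iff]
    refine ⟨?_, ?_⟩
    · rw [Subgroup.zpowers_le]; exact hzF
    · intro a ha; rw [hFmem]; intro h hh; exact hab h hh a ha
  have hQ2 : IsPGroup 2 ((H₁.subgroupOf M).subgroupOf (F.subgroupOf M)) :=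
    (hH₁2.comap_subtype).comap_subtype
  obtain ⟨P, hP⟩ := hQ2.exists_le_sylow
  have hfr := Sylow.normalizer_sup_eq_top P
  obtain ⟨S', hS'⟩ : ∃ S' : Subgroup ↥M,
      S' = (P : Subgroup ↥(F.subgroupOf M)).map (F.subgroupOf M).subtype := ⟨_, rfl⟩
  rw [← hS'] at hfr
  have hyM' : (⟨y, hyM⟩ : ↥M) ∈
      ((Subgroup.normalizer (S' : Set ↥M) ⊔ F.subgroupOf M : Subgroup ↥M) : Set ↥M) := by
    rw [hfr]; trivial
  rw [Subgroup.mul_normal] at hyM'
  obtain ⟨a, ha, b, hb, hab'⟩ := hyM'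
  have haN := Subgroup.mem_normalizer_iff.1 ha
  have hbF : (b : G) ∈ F := Subgroup.mem_subgroupOf.1 hb
  have hyab : (a : G) * (b : G) = y := by
    have := congrArg Subtype.val hab'
    simpa using this
  have hH₁S : ∀ x ∈ H₁, ∃ hx : x ∈ M, (⟨x, hx⟩ : ↥M) ∈ S' := by
    intro x hx
    have hxF : x ∈ F := hH₁F hx
    have hxM : x ∈ M := hFM hxF
    refine ⟨hxM, ?_⟩
    rw [hS']
    have hx2 : (⟨x, hxM⟩ : ↥M) ∈ F.subgroupOf M := Subgroup.mem_subgroupOf.2 hxF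
    refine ⟨⟨⟨x, hxM⟩, hx2⟩, hP ?_, rfl⟩
    rw [Subgroup.mem_subgroupOf, Subgroup.mem_subgroupOf]
    exact hx
  have hSmem : ∀ x : G, x ∈ S'.map M.subtype ↔ ∃ hx : x ∈ M, (⟨x, hx⟩ : ↥M) ∈ S' := by
    intro x
    constructor
    · rintro ⟨m, hm, rfl⟩
      exact ⟨m.2, hm⟩
    · rintro ⟨hx, hm⟩
      exact ⟨⟨x, hx⟩, hm, rfl⟩
  have hHS : H ≤ S'.map M.subtype := by
    intro x hx
    rw [hSmem]
    exact hH₁S x (by rw [hH₁]; exact Subgroup.mem_sup_right hx)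
  have hzS : z ∈ S'.map M.subtype := by
    rw [hSmem]
    exact hH₁S z (by rw [hH₁]; exact Subgroup.mem_sup_left (Subgroup.mem_zpowers z))
  have hS2 : IsPGroup 2 (S'.map M.subtype) := by
    rw [hS']
    exact (P.isPGroup'.map _).map _
  -- `a` acts on `H` as `y` does
  have hag : ∀ h ∈ H, (a : G) * h * (a : G)⁻¹ = y * h * y⁻¹ := by
    intro h hh
    have e := (hFmem _).1 hbF h hh
    rw [← hyab]
    calc (a : G) * h * (a : G)⁻¹ = (a : G) * (h * (b : G)) * (b : G)⁻¹ * (a : G)⁻¹ := by group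
      _ = (a : G) * ((b : G) * h) * (b : G)⁻¹ * (a : G)⁻¹ := by rw [e]
      _ = (a : G) * (b : G) * h * ((a : G) * (b : G))⁻¹ := by group
  refine ⟨S'.map M.subtype, (a : G), ⟨?_, ?_⟩, hS2, hHS, hzS⟩
  · rw [Subgroup.mem_normalizer_iff]
    intro x
    rw [hSmem, hSmem]
    constructor
    · rintro ⟨hx, hm⟩
      refine ⟨M.mul_mem (M.mul_mem a.2 hx) (M.inv_mem a.2), ?_⟩
      have := (haN ⟨x, hx⟩).1 hm
      exact this
    · rintro ⟨hx, hm⟩
      have hxM : x ∈ M := by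
        have e : x = (a : G)⁻¹ * ((a : G) * x * (a : G)⁻¹) * (a : G) := by group
        rw [e]
        exact M.mul_mem (M.mul_mem (M.inv_mem a.2) hx) a.2
      refine ⟨hxM, ?_⟩
      rw [haN ⟨x, hxM⟩]
      exact hm
  · intro k
    obtain ⟨h, hh, hne⟩ := hy.2 k
    refine ⟨h, hHS hh, ?_⟩
    intro e
    apply hne
    have e1 := conj_pow_eq_of_agree (fun h hh => (hyN h).1 hh) hag (2 ^ k) h hh
    have e2 : (a : G) ^ (2 ^ k) * h * ((a : G) ^ (2 ^ k))⁻¹ = h := by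
      rw [e]; group
    rw [e2] at e1
    calc y ^ (2 ^ k) * h = (y ^ (2 ^ k) * h * (y ^ (2 ^ k))⁻¹) * y ^ (2 ^ k) := by group
      _ = h * y ^ (2 ^ k) := by rw [← e1]

/-- A maximal choice of a pair `(H, y)` with `OddAct H y` inside a given Sylow `2`-subgroup. -/
theorem exists_max_oddAct [Finite G] (P : Sylow 2 G)
    (h : ∃ (S : Subgroup G) (y : G), IsPGroup 2 S ∧ OddAct S y) :
    ∃ (H : Subgroup G) (y : G), H ≤ (P : Subgroup G) ∧ OddAct H y ∧
      ∀ (S : Subgroup G) (y' : G), IsPGroup 2 S → OddAct S y' → Nat.card S ≤ Nat.card H := by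
  classical
  haveI : Fact (Nat.Prime 2) := ⟨Nat.prime_two⟩
  obtain ⟨S₀, hS₀, hmax⟩ := Set.exists_max_image
    {S : Subgroup G | IsPGroup 2 S ∧ ∃ y, OddAct S y}
    (fun S => Nat.card S) (Set.toFinite _)
    (by obtain ⟨S, y, h1, h2⟩ := h; exact ⟨S, h1, y, h2⟩)
  obtain ⟨hS₀2, y₀, hy₀⟩ := hS₀
  obtain ⟨n, hn⟩ := Cfsg.Agent.Lib.Helper53.exists_conj_le_sylow P hS₀2
  refine ⟨S₀.map (MulAut.conj n).toMonoidHom, n * y₀ * n⁻¹, ?_, ?_, ?_⟩
  · rintro _ ⟨q, hq, rfl⟩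
    exact hn q hq
  · exact hy₀.conj n _ (fun a => by rw [Subgroup.mem_map_equiv, MulAut.conj_symm_apply])
  · intro S y' hS hy'
    rw [Subgroup.card_map_of_injective (MulAut.conj n).injective]
    exact hmax S ⟨hS, y', hy'⟩

end Cfsg.Agent.Lib.Helper30
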