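import Mathlib
import Cfsg.Agent.Lib.Helper30.SmallSylow1

/-!
A Sylow `2`-subgroup `R = C(z)` all of whose squares and commutators lie in `{1, z}`:
if some `2`-subgroup admits a nontrivial odd action and `Z(R)` has no involution besides `z`,
then `R` is dihedral of order `8` (generators `a`, `b` produced explicitly).
-/

set_option autoImplicit false

namespace Cfsg.Agent.Lib.Helper30

variable {G : Type*} [Group G]

/-- Data of a `2`-subgroup `R = C(z)` with squares and commutators in `{1, z}`,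
self-normalizing. -/
structure SmallData (R : Subgroup G) (z : G) : Prop where
  hz1 : z ≠ 1
  hzz : z * z = 1
  hC : ∀ x : G, x ∈ R ↔ x * z = z * x
  hsq : ∀ x ∈ R, x * x = 1 ∨ x * x = z
  hk : ∀ x ∈ R, ∀ y ∈ R, x * y * x⁻¹ * y⁻¹ = 1 ∨ x * y * x⁻¹ * y⁻¹ = z
  h2 : IsPGroup 2 R
  hN : ∀ n : G, (∀ x ∈ R, n * x * n⁻¹ ∈ R) → n ∈ R

theorem SmallData.main [Finite G] {R : Subgroup G} {z : G} (d : SmallData R z)
    (P : Sylow 2 G) (hP : (P : Subgroup G) = R)
    (hex : ∃ (S : Subgroup G) (y : G), IsPGroup 2 S ∧ OddAct S y)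
    (hT : ∀ e ∈ R, e * e = 1 → (∀ x ∈ R, x * e = e * x) → e = 1 ∨ e = z) :
    ∃ a b : G, a ∈ R ∧ b ∈ R ∧ a * a = z ∧ b * b = 1 ∧ b * a * b⁻¹ = a⁻¹ ∧
      b ∉ Subgroup.zpowers a ∧ Nat.card R ≤ 8 := by
  classical
  obtain ⟨H, y, hHR, hy, hmax⟩ := exists_max_oddAct P hex
  rw [hP] at hHR
  have hyN := Subgroup.mem_normalizer_iff.1 hy.1
  have hzR : z ∈ R := (d.hC z).2 rfl
  -- `y ∉ R`
  have hyR : y ∉ R := by
    intro h
    obtain ⟨k, hk⟩ := d.h2 ⟨y, h⟩
    have hk' : y ^ (2 ^ k) = 1 := by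
      have := congrArg Subtype.val hk
      simpa using this
    obtain ⟨h0, _, hne⟩ := hy.2 k
    apply hne
    rw [hk', one_mul, mul_one]
  -- the conjugate of `z` by `y` is neither `1` nor `z`
  have hnotz : ∀ t : G, y * z * y⁻¹ = t → ¬ (t = 1 ∨ t = z) := by
    intro t ht h
    rcases h with h | h
    · apply d.hz1
      rw [h] at ht
      calc z = y⁻¹ * (y * z * y⁻¹) * y := by group
        _ = 1 := by rw [ht]; group
    · apply hyR
      rw [d.hC]
      rw [h] at ht
      calc y * z = (y * z * y⁻¹) * y := by group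
        _ = z * y := by rw [ht]
  -- `H` is elementary abelian
  have hsqH : ∀ h ∈ H, h * h = 1 := by
    intro h hh
    rcases d.hsq h (hHR hh) with e | e
    · exact e
    · exfalso
      refine hnotz ((y * h * y⁻¹) * (y * h * y⁻¹)) ?_ (d.hsq _ (hHR ((hyN h).1 hh)))
      rw [← e]; group
  have hab : ∀ a ∈ H, ∀ b ∈ H, a * b = b * a := by
    intro a ha b hb
    rcases d.hk a (hHR ha) b (hHR hb) with e | e
    · calc a * b = (a * b * a⁻¹ * b⁻¹) * (b * a) := by group
        _ = b * a := by rw [e, one_mul]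
    · exfalso
      refine hnotz ((y * a * y⁻¹) * (y * b * y⁻¹) * (y * a * y⁻¹)⁻¹ * (y * b * y⁻¹)⁻¹) ?_
        (d.hk _ (hHR ((hyN a).1 ha)) _ (hHR ((hyN b).1 hb)))
      rw [← e]; group
  have hH2 : IsPGroup 2 H := d.h2.to_le hHR
  -- `z ∈ H`
  have hzH : z ∈ H := by
    obtain ⟨S, y', hS, hS2, hHS, hzS⟩ := hy.frattini hab hH2 z d.hzz
      (fun h hh => ((d.hC h).1 (hHR hh)).symm)
    have hle := hmax S y' hS2 hS
    have : H = S := Subgroup.eq_of_le_of_card_ge hHS hle
    rw [this]; exact hzS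
  -- `C(H) ≤ H`
  have hCH : ∀ c : G, (∀ h ∈ H, h * c = c * h) → c ∈ H := by
    intro c hc
    obtain ⟨F, hF⟩ : ∃ F : Subgroup G, F = Subgroup.centralizer (H : Set G) := ⟨_, rfl⟩
    have hFmem : ∀ c, c ∈ F ↔ ∀ h ∈ H, h * c = c * h := by
      intro c; rw [hF]; exact Subgroup.mem_centralizer_iff
    have hFR : F ≤ R := by
      intro c hc
      rw [d.hC]
      exact ((hFmem c).1 hc z hzH).symm
    have hHF : H ≤ F := by
      intro a ha; rw [hFmem]; intro h hh; exact hab h hh a ha
    have hFy : OddAct F y := by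
      refine ⟨?_, ?_⟩
      · rw [Subgroup.mem_normalizer_iff]
        intro c
        rw [hFmem, hFmem]
        constructor
        · intro hc
          exact conj_mem_centralizer_of_normalizer hy.1 hc
        · intro hc
          have h1 := conj_mem_centralizer_of_normalizer
            ((Subgroup.normalizer (H : Set G)).inv_mem hy.1) hc
          intro h hh
          have e : y⁻¹ * (y * c * y⁻¹) * y⁻¹⁻¹ = c := by group
          rw [e] at h1
          exact h1 h hh
      · intro k
        obtain ⟨h, hh, hne⟩ := hy.2 k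
        exact ⟨h, hHF hh, hne⟩
    have hle := hmax F y (d.h2.to_le hFR) hFy
    have : H = F := Subgroup.eq_of_le_of_card_ge hHF hle
    rw [this, hFmem]; exact hc
  obtain ⟨w, hw⟩ : ∃ w, w = y * z * y⁻¹ := ⟨_, rfl⟩
  have hwH : w ∈ H := by rw [hw]; exact (hyN z).1 hzH
  have hwz : w ≠ z := fun h => hnotz w hw.symm (Or.inr h)
  have hw1 : w ≠ 1 := fun h => hnotz w hw.symm (Or.inl h)
  have hww : w * w = 1 := hsqH w hwH
  have hwi : w⁻¹ = w := inv_eq_of_mul_eq_one_left hww
  have hwR : w ∈ R := hHR hwH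
  have hzw : z * w = w * z := ((d.hC w).1 hwR).symm
  have hzy : z = y⁻¹ * w * y := by rw [hw]; group
  -- elements commuting with `w`
  have hwC : ∀ x : G, x * w = w * x → y⁻¹ * x * y ∈ R := by
    intro x hx
    rw [d.hC]
    calc y⁻¹ * x * y * z = y⁻¹ * x * y * (y⁻¹ * w * y) := by rw [← hzy]
      _ = y⁻¹ * (x * w) * y := by group
      _ = y⁻¹ * (w * x) * y := by rw [hx]
      _ = (y⁻¹ * w * y) * (y⁻¹ * x * y) := by group
      _ = z * (y⁻¹ * x * y) := by rw [← hzy]
  have hwk : ∀ x : G, x * w = w * x → ∀ h : G, h * w = w * h →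
      x * h * x⁻¹ * h⁻¹ = 1 ∨ x * h * x⁻¹ * h⁻¹ = w := by
    intro x hx h hh
    have e0 : x * h * x⁻¹ * h⁻¹ =
        y * ((y⁻¹ * x * y) * (y⁻¹ * h * y) * (y⁻¹ * x * y)⁻¹ * (y⁻¹ * h * y)⁻¹) * y⁻¹ := by
      group
    rcases d.hk _ (hwC x hx) _ (hwC h hh) with e | e
    · left
      rw [e0, e]; group
    · right
      rw [e0, e, hw]
  -- key: elements of `R` commuting with `w` lie in `H`
  have hkey : ∀ r ∈ R, r * w = w * r → r ∈ H := by
    intro r hr hrw
    apply hCH
    intro h hh
    have hhw : h * w = w * h := hab h hh w hwH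
    have e1 := d.hk r hr h (hHR hh)
    have e2 := hwk r hrw h hhw
    have e : r * h * r⁻¹ * h⁻¹ = 1 := by
      rcases e1 with e1 | e1
      · exact e1
      · rcases e2 with e2 | e2
        · exact e2
        · exfalso; exact hwz (e2.symm.trans e1)
    calc h * r = (r * h * r⁻¹ * h⁻¹)⁻¹ * (r * h) := by group
      _ = r * h := by rw [e]; group
  have hmove : ∀ r ∈ R, r ∉ H → r * w * r⁻¹ = z * w := by
    intro r hr hrH
    rcases d.hk r hr w hwR with e | e
    · exfalso
      apply hrH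
      apply hkey r hr
      calc r * w = (r * w * r⁻¹ * w⁻¹) * (w * r) := by group
        _ = w * r := by rw [e, one_mul]
    · calc r * w * r⁻¹ = (r * w * r⁻¹ * w⁻¹) * w := by group
        _ = z * w := by rw [e]
  have hprod : ∀ r ∈ R, r ∉ H → ∀ s ∈ R, s ∉ H → r * s ∈ H := by
    intro r hr hrH s hs hsH
    apply hkey _ (R.mul_mem hr hs)
    have e1 := hmove r hr hrH
    have e2 := hmove s hs hsH
    have e3 : r * z * r⁻¹ = z := by
      have := (d.hC r).1 hr
      calc r * z * r⁻¹ = (r * z) * r⁻¹ := by group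
        _ = (z * r) * r⁻¹ := by rw [this]
        _ = z := by group
    have e4 : (r * s) * w * (r * s)⁻¹ = w := by
      calc (r * s) * w * (r * s)⁻¹ = r * (s * w * s⁻¹) * r⁻¹ := by group
        _ = r * (z * w) * r⁻¹ := by rw [e2]
        _ = (r * z * r⁻¹) * (r * w * r⁻¹) := by group
        _ = z * (z * w) := by rw [e3, e1]
        _ = (z * z) * w := by group
        _ = w := by rw [d.hzz, one_mul]
    calc r * s * w = ((r * s) * w * (r * s)⁻¹) * (r * s) := by group
      _ = w * (r * s) := by rw [e4]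
  -- `H ≠ R`
  obtain ⟨r₀, hr₀, hr₀H⟩ : ∃ r₀ ∈ R, r₀ ∉ H := by
    by_contra hcon
    push Not at hcon
    apply hyR
    apply d.hN
    intro x hx
    exact hHR ((hyN x).1 (hcon x hx))
  have hcover : ∀ x ∈ R, x ∈ H ∨ x * r₀ ∈ H := by
    intro x hx
    by_cases hxH : x ∈ H
    · exact Or.inl hxH
    · exact Or.inr (hprod x hx hxH r₀ hr₀ hr₀H)
  -- elements of `H` commuting with `r₀` are central in `R`
  have hcent : ∀ h ∈ H, r₀ * h = h * r₀ → ∀ x ∈ R, x * h = h * x := by
    intro h hh hr x hx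
    rcases hcover x hx with hx' | hx'
    · exact hab x hx' h hh
    · have e := hab (x * r₀) hx' h hh
      have e' : r₀⁻¹ * h = h * r₀⁻¹ := by
        calc r₀⁻¹ * h = r₀⁻¹ * (h * r₀) * r₀⁻¹ := by group
          _ = r₀⁻¹ * (r₀ * h) * r₀⁻¹ := by rw [hr]
          _ = h * r₀⁻¹ := by group
      calc x * h = (x * r₀) * (r₀⁻¹ * h) := by group
        _ = (x * r₀) * (h * r₀⁻¹) := by rw [e']
        _ = ((x * r₀) * h) * r₀⁻¹ := by group
        _ = (h * (x * r₀)) * r₀⁻¹ := by rw [e]
        _ = h * x := by group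
  have hHlist : ∀ h ∈ H, h = 1 ∨ h = z ∨ h = w ∨ h = z * w := by
    intro h hh
    have hhR := hHR hh
    rcases d.hk r₀ hr₀ h hhR with e | e
    · have hr : r₀ * h = h * r₀ := by
        calc r₀ * h = (r₀ * h * r₀⁻¹ * h⁻¹) * (h * r₀) := by group
          _ = h * r₀ := by rw [e, one_mul]
      rcases hT h hhR (hsqH h hh) (hcent h hh hr) with e' | e'
      · exact Or.inl e'
      · exact Or.inr (Or.inl e')
    · have e1 : r₀ * h * r₀⁻¹ = z * h := by
        calc r₀ * h * r₀⁻¹ = (r₀ * h * r₀⁻¹ * h⁻¹) * h := by group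
          _ = z * h := by rw [e]
      have e2 := hmove r₀ hr₀ hr₀H
      have hzh : z * h = h * z := ((d.hC h).1 hhR).symm
      have hr : r₀ * (h * w) = (h * w) * r₀ := by
        have e3 : r₀ * (h * w) * r₀⁻¹ = h * w := by
          calc r₀ * (h * w) * r₀⁻¹ = (r₀ * h * r₀⁻¹) * (r₀ * w * r₀⁻¹) := by group
            _ = (z * h) * (z * w) := by rw [e1, e2]
            _ = (h * z) * (z * w) := by rw [hzh]
            _ = h * (z * z) * w := by group
            _ = h * w := by rw [d.hzz, mul_one]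
        calc r₀ * (h * w) = (r₀ * (h * w) * r₀⁻¹) * r₀ := by group
          _ = (h * w) * r₀ := by rw [e3]
      have hhw : h * w ∈ H := H.mul_mem hh hwH
      rcases hT (h * w) (hHR hhw) (hsqH _ hhw) (hcent _ hhw hr) with e' | e'
      · right; right; left
        calc h = (h * w) * w⁻¹ := by group
          _ = w := by rw [e', one_mul, hwi]
      · right; right; right
        calc h = (h * w) * w⁻¹ := by group
          _ = z * w := by rw [e', hwi]
  -- an element `a ∈ R ∖ H` of order four inverted by `w`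
  obtain ⟨a, haR, haH, haa, hwa⟩ : ∃ a ∈ R, a ∉ H ∧ a * a = z ∧ w * a * w⁻¹ = a⁻¹ := by
    have e2 := hmove r₀ hr₀ hr₀H
    rcases d.hsq r₀ hr₀ with e | e
    · have hri : r₀⁻¹ = r₀ := inv_eq_of_mul_eq_one_left e
      refine ⟨r₀ * w, R.mul_mem hr₀ hwR, ?_, ?_, ?_⟩
      · intro h
        apply hr₀H
        have : r₀ = (r₀ * w) * w⁻¹ := by group
        rw [this]
        exact H.mul_mem h (H.inv_mem hwH)
      · calc r₀ * w * (r₀ * w) = (r₀ * w * r₀⁻¹) * (r₀ * r₀) * w := by group
          _ = (z * w) * 1 * w := by rw [e2, e]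
          _ = z * (w * w) := by group
          _ = z := by rw [hww, mul_one]
      · calc w * (r₀ * w) * w⁻¹ = w * r₀ := by group
          _ = w⁻¹ * r₀⁻¹ := by rw [hwi, hri]
          _ = (r₀ * w)⁻¹ := by group
    · refine ⟨r₀, hr₀, hr₀H, e, ?_⟩
      have e3 : r₀ * w = z * w * r₀ := by
        calc r₀ * w = (r₀ * w * r₀⁻¹) * r₀ := by group
          _ = z * w * r₀ := by rw [e2]
      calc w * r₀ * w⁻¹ = w * r₀ * w := by rw [hwi]
        _ = w * (r₀ * w) := by group
        _ = w * (z * w * r₀) := by rw [e3]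
        _ = (w * z) * w * r₀ := by group
        _ = (z * w) * w * r₀ := by rw [hzw]
        _ = z * (w * w) * r₀ := by group
        _ = z * r₀ := by rw [hww, mul_one]
        _ = (r₀ * r₀) * r₀ := by rw [e]
        _ = r₀⁻¹ * ((r₀ * r₀) * (r₀ * r₀)) := by group
        _ = r₀⁻¹ := by rw [e, d.hzz, mul_one]
  refine ⟨a, w, haR, hwR, haa, hww, hwa, ?_, ?_⟩
  · intro hmem
    obtain ⟨i, hi⟩ := Subgroup.mem_zpowers_iff.1 hmem
    have ha2 : a ^ (2 : ℤ) = z := by rw [zpow_two, haa]
    have hz2 : z ^ 2 = 1 := by rw [pow_two, d.hzz]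
    rcases Int.even_or_odd' i with ⟨k, hk | hk⟩
    · rw [hk, zpow_mul, ha2] at hi
      rcases Cfsg.Agent.Lib.Helper53.zpow_eq_one_or_self_of_sq_eq_one hz2 k with h | h
      · exact hw1 (hi.symm.trans h)
      · exact hwz (hi.symm.trans h)
    · rw [hk, zpow_add, zpow_mul, ha2, zpow_one] at hi
      apply haH
      have hzk : z ^ k ∈ H := H.zpow_mem hzH k
      have : a = (z ^ k)⁻¹ * w := by rw [← hi]; group
      rw [this]
      exact H.mul_mem (H.inv_mem hzk) hwH
  · have hsub : (R : Set G) ⊆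
        (([1, z, w, z * w, r₀⁻¹, z * r₀⁻¹, w * r₀⁻¹, z * w * r₀⁻¹] : List G).toFinset : Set G) := by
      intro x hx
      have hx' : x ∈ R := hx
      rw [Finset.mem_coe, List.mem_toFinset]
      simp only [List.mem_cons, List.mem_nil_iff, or_false]
      rcases hcover x hx' with h | h
      · rcases hHlist x h with e | e | e | e
        · left; exact e
        · right; left; exact e
        · right; right; left; exact e
        · right; right; right; left; exact e
      · have ex : x = (x * r₀) * r₀⁻¹ := by group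
        rcases hHlist _ h with e | e | e | e
        · right; right; right; right; left
          rw [ex, e, one_mul]
        · right; right; right; right; right; left
          rw [ex, e]
        · right; right; right; right; right; right; left
          rw [ex, e]
        · right; right; right; right; right; right; right
          rw [ex, e]
    calc Nat.card R = (R : Set G).ncard := by rw [← Nat.card_coe_set_eq]; rfl
      _ ≤ ((([1, z, w, z * w, r₀⁻¹, z * r₀⁻¹, w * r₀⁻¹, z * w * r₀⁻¹] : List G).toFinset :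
            Finset G) : Set G).ncard := Set.ncard_le_ncard hsub (Finset.finite_toSet _)
      _ = ([1, z, w, z * w, r₀⁻¹, z * r₀⁻¹, w * r₀⁻¹, z * w * r₀⁻¹] : List G).toFinset.card :=
          Set.ncard_coe_finset _
      _ ≤ 8 := List.toFinset_card_le _

end Cfsg.Agent.Lib.Helper30
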