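import Mathlib
import Cfsg.Agent.Lib.Helper30.SmallSylow2
import Cfsg.Agent.Lib.Helper31.ThompsonTransfer
import Cfsg.Agent.Lib.Helper54.Frobenius
import Cfsg.Agent.Lib.Helper46.Dihedral
import Cfsg.Agent.Lib.Helper87.PGroupFrattini

/-!
A non-abelian finite simple group with an involution `z` whose centralizer is a Sylow
`2`-subgroup `R` with `Φ(R) = ⟨z⟩` has `R` dihedral of order `8`.
-/

set_option autoImplicit false

namespace Cfsg.Agent.Lib.Helper30

/-- The quotient of a group by a normal maximal subgroup is cyclic. -/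
theorem isCyclic_quot_coatom {P : Type*} [Group P] {M : Subgroup P} [M.Normal]
    (hM : IsCoatom M) : IsCyclic (P ⧸ M) := by
  have hne : ∃ x, x ∉ M := by
    by_contra hcon
    push Not at hcon
    exact hM.1 (eq_top_iff.2 fun x _ => hcon x)
  obtain ⟨x, hx⟩ := hne
  rw [isCyclic_iff_exists_zpowers_eq_top]
  refine ⟨(x : P ⧸ M), ?_⟩
  rw [eq_top_iff]
  intro q _
  induction q using QuotientGroup.induction_on with
  | H g =>
    obtain ⟨a, m, hm, rfl⟩ := Cfsg.Agent.Lib.Helper87.coatom_quot_zpow hM hx g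
    rw [Subgroup.mem_zpowers_iff]
    refine ⟨a, ?_⟩
    rw [QuotientGroup.mk_mul, (QuotientGroup.eq_one_iff m).2 hm, one_mul, QuotientGroup.mk_zpow]

theorem sylow_two_dihedral_of_frattini {L : Type*} [Group L] [Finite L] [IsSimpleGroup L]
    (hL : ¬ IsMulCommutative L) (z : L) (hz : orderOf z = 2) (R : Sylow 2 L)
    (hR : (R : Subgroup L) = Subgroup.centralizer ({z} : Set L))
    (hΦ : (frattini ↥(R : Subgroup L)).map (R : Subgroup L).subtype = Subgroup.zpowers z) :
    Nonempty (↥(R : Subgroup L) ≃* DihedralGroup 4) := by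
  classical
  haveI : Fact (Nat.Prime 2) := ⟨Nat.prime_two⟩
  have hzz : z * z = 1 := by
    have h := pow_orderOf_eq_one z
    rw [hz, pow_two] at h
    exact h
  have hz1 : z ≠ 1 := by
    intro h
    rw [h, orderOf_one] at hz
    norm_num at hz
  have hz2 : z ^ 2 = 1 := by rw [pow_two, hzz]
  have hRmem : ∀ x : L, x ∈ (R : Subgroup L) ↔ x * z = z * x := by
    intro x
    rw [hR, Subgroup.mem_centralizer_singleton_iff]
  have hzR : z ∈ (R : Subgroup L) := (hRmem z).2 rfl
  have h2R : IsPGroup 2 ↥(R : Subgroup L) := R.isPGroup'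
  have hzpow : ∀ t ∈ Subgroup.zpowers z, t = 1 ∨ t = z := by
    intro t ht
    obtain ⟨i, rfl⟩ := Subgroup.mem_zpowers_iff.1 ht
    exact Cfsg.Agent.Lib.Helper53.zpow_eq_one_or_self_of_sq_eq_one hz2 i
  have hfr : ∀ q : ↥(R : Subgroup L), q ∈ frattini ↥(R : Subgroup L) →
      (q : L) = 1 ∨ (q : L) = z := by
    intro q hq
    apply hzpow
    rw [← hΦ]
    exact ⟨q, hq, rfl⟩
  have hfr' : ∀ q : ↥(R : Subgroup L), (q : L) = z → q ∈ frattini ↥(R : Subgroup L) := by
    intro q hq
    have : (q : L) ∈ (frattini ↥(R : Subgroup L)).map (R : Subgroup L).subtype := by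
      rw [hΦ, hq]; exact Subgroup.mem_zpowers z
    obtain ⟨q', hq', e⟩ := this
    have : q' = q := Subtype.ext e
    rw [← this]; exact hq'
  -- the abstract data
  have d : SmallData (R : Subgroup L) z := by
    refine ⟨hz1, hzz, hRmem, ?_, ?_, h2R, ?_⟩
    · intro x hx
      have := hfr _ (Cfsg.Agent.Lib.Helper87.pow_p_mem_frattini h2R ⟨x, hx⟩)
      simpa [pow_two] using this
    · intro x hx y hy
      have := hfr _ (Cfsg.Agent.Lib.Helper87.comm_mem_frattini h2R ⟨x, hx⟩ ⟨y, hy⟩)
      simpa using this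
    · intro n hn
      have hle : (R : Subgroup L).map (MulAut.conj n).toMonoidHom ≤ (R : Subgroup L) := by
        rintro _ ⟨x, hx, rfl⟩
        exact hn x hx
      have hmap : (R : Subgroup L).map (MulAut.conj n).toMonoidHom = (R : Subgroup L) :=
        Subgroup.eq_of_le_of_card_ge hle
          (le_of_eq (Subgroup.card_map_of_injective (MulAut.conj n).injective).symm)
      let α : ↥(R : Subgroup L) ≃* ↥(R : Subgroup L) :=
        ((MulAut.conj n).subgroupMap (R : Subgroup L)).trans (MulEquiv.subgroupCongr hmap)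
      have hα : ∀ q : ↥(R : Subgroup L), ((α q : ↥(R : Subgroup L)) : L) = n * (q : L) * n⁻¹ := by
        intro q
        rfl
      have hfix := (frattini_characteristic (G := ↥(R : Subgroup L))).fixed α
      have hq : (⟨z, hzR⟩ : ↥(R : Subgroup L)) ∈ frattini ↥(R : Subgroup L) := hfr' _ rfl
      rw [← hfix] at hq
      have hq' : α ⟨z, hzR⟩ ∈ frattini ↥(R : Subgroup L) := hq
      have h3 := hfr _ hq'
      rw [hα] at h3
      rw [hRmem]
      rcases h3 with h3 | h3
      · exfalso
        apply hz1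
        calc z = n⁻¹ * (n * z * n⁻¹) * n := by group
          _ = 1 := by rw [h3]; group
      · calc n * z = (n * z * n⁻¹) * n := by group
          _ = z * n := by rw [h3]
  -- a nontrivial odd action exists, by Frobenius' criterion
  have hex : ∃ (S : Subgroup L) (y : L), IsPGroup 2 S ∧ OddAct S y := by
    have hfrob := Cfsg.Agent.Lib.Helper54.frobenius_sylow R
    have hno : ¬ ∃ N : Subgroup L, N.Normal ∧ N.IsComplement' (R : Subgroup L) := by
      rintro ⟨N, hN, hc⟩
      rcases hN.eq_bot_or_eq_top with h | h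
      · rw [h, Subgroup.isComplement'_bot_left] at hc
        have hLp : IsPGroup 2 L := by
          intro g
          obtain ⟨k, hk⟩ := h2R ⟨g, hc ▸ Subgroup.mem_top g⟩
          refine ⟨k, ?_⟩
          have := congrArg Subtype.val hk
          simpa using this
        haveI : Nontrivial L := IsSimpleGroup.toNontrivial
        have hcn := hLp.center_nontrivial
        have hcb : Subgroup.center L ≠ ⊥ := (Subgroup.nontrivial_iff_ne_bot _).1 hcn
        rcases (Subgroup.instNormalCenter (G := L)).eq_bot_or_eq_top with h' | h'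
        · exact hcb h'
        · apply hL
          refine ⟨⟨fun a b => ?_⟩⟩
          have ha : a ∈ Subgroup.center L := h' ▸ Subgroup.mem_top a
          exact (Subgroup.mem_center_iff.mp ha b).symm
      · rw [h, Subgroup.isComplement'_top_left] at hc
        apply hz1
        have : z ∈ (⊥ : Subgroup L) := hc ▸ hzR
        exact Subgroup.mem_bot.1 this
    rw [hfrob] at hno
    push Not at hno
    obtain ⟨Q, hQR, g, hgN, hgc, hgC⟩ := hno
    refine ⟨Q, g, h2R.to_le hQR, hgN, ?_⟩
    intro k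
    by_contra hcon
    push Not at hcon
    apply hgC
    obtain ⟨m, hm⟩ := exists_pow_eq_self_of_coprime (x := g) (n := 2 ^ k)
      (Nat.Coprime.pow_left k hgc.symm)
    rw [Subgroup.mem_centralizer_iff]
    intro h hh
    have e := hcon h hh
    have e' : ∀ j : ℕ, (g ^ (2 ^ k)) ^ j * h = h * (g ^ (2 ^ k)) ^ j := by
      intro j
      induction j with
      | zero => simp
      | succ j ih =>
        rw [pow_succ]
        calc (g ^ (2 ^ k)) ^ j * g ^ (2 ^ k) * h = (g ^ (2 ^ k)) ^ j * (g ^ (2 ^ k) * h) := by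
              group
          _ = (g ^ (2 ^ k)) ^ j * (h * g ^ (2 ^ k)) := by rw [e]
          _ = ((g ^ (2 ^ k)) ^ j * h) * g ^ (2 ^ k) := by group
          _ = h * ((g ^ (2 ^ k)) ^ j * g ^ (2 ^ k)) := by rw [ih, mul_assoc]
    have := e' m
    rw [hm] at this
    exact this.symm
  -- `Z(R)` has no involution besides `z`, by Thompson's transfer lemma
  have hperf := Cfsg.Agent.Lib.Helper31.commutator_eq_top_of_simple hL
  have hT : ∀ e ∈ (R : Subgroup L), e * e = 1 → (∀ x ∈ (R : Subgroup L), x * e = e * x) →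
      e = 1 ∨ e = z := by
    intro e he hee hec
    by_contra hcon
    push Not at hcon
    obtain ⟨he1, hez⟩ := hcon
    have hnf : (⟨e, he⟩ : ↥(R : Subgroup L)) ∉ frattini ↥(R : Subgroup L) := by
      intro h
      rcases hfr _ h with h' | h'
      · exact he1 h'
      · exact hez h'
    rw [Cfsg.Agent.Lib.Helper87.mem_frattini_iff87] at hnf
    push Not at hnf
    obtain ⟨M, hM, heM⟩ := hnf
    obtain ⟨T, hT⟩ : ∃ T : Subgroup L, T = M.map (R : Subgroup L).subtype := ⟨_, rfl⟩
    have hTM : T.subgroupOf (R : Subgroup L) = M := by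
      rw [hT]
      exact Subgroup.comap_map_eq_self_of_injective (R : Subgroup L).subtype_injective M
    have hco : IsCoatom (T.subgroupOf (R : Subgroup L)) := by rw [hTM]; exact hM
    haveI hTn : (T.subgroupOf (R : Subgroup L)).Normal :=
      Cfsg.Agent.Lib.Helper87.coatom_normal87 h2R hco
    have hcyc : IsCyclic (↥(R : Subgroup L) ⧸ T.subgroupOf (R : Subgroup L)) :=
      isCyclic_quot_coatom hco
    have heT : e ∉ T := by
      intro h
      rw [hT] at h
      obtain ⟨m, hm, e'⟩ := h
      apply heM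
      have : m = ⟨e, he⟩ := Subtype.ext e'
      rw [← this]; exact hm
    have hoe : orderOf e = 2 := orderOf_eq_prime (by rw [pow_two, hee]) he1
    obtain ⟨g, hgT, -, hmap⟩ :=
      Cfsg.Agent.Lib.Helper31.exists_extremal_conj hperf R T hcyc e hoe he heT
    have hgR : g ∈ (R : Subgroup L) := by
      apply d.hN
      intro x hx
      have hx' : x ∈ (R : Subgroup L) ⊓ Subgroup.centralizer ({e} : Set L) :=
        Subgroup.mem_inf.2 ⟨hx, Subgroup.mem_centralizer_singleton_iff.2 (hec x hx)⟩
      have := hmap ⟨x, hx', rfl⟩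
      exact this.1
    apply heT
    have e1 : g * e * g⁻¹ = e := by
      have := hec g hgR
      calc g * e * g⁻¹ = (g * e) * g⁻¹ := by group
        _ = (e * g) * g⁻¹ := by rw [this]
        _ = e := by group
    rw [e1] at hgT
    exact hgT
  obtain ⟨a, b, haR, hbR, haa, hbb, hba, hbz, hcard⟩ := d.main R rfl hex hT
  have ha4 : (⟨a, haR⟩ : ↥(R : Subgroup L)) ^ 4 = 1 := by
    apply Subtype.ext
    have e : a ^ 4 = (a * a) * (a * a) := by
      rw [show (4 : ℕ) = 2 + 2 from rfl, pow_add, pow_two]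
    rw [Subgroup.coe_pow, Subgroup.coe_mk, e, haa, hzz]
    rfl
  have hb' : (⟨b, hbR⟩ : ↥(R : Subgroup L)) * ⟨b, hbR⟩ = 1 := Subtype.ext hbb
  have hab' : (⟨b, hbR⟩ : ↥(R : Subgroup L)) * ⟨a, haR⟩ * (⟨b, hbR⟩ : ↥(R : Subgroup L))⁻¹ =
      (⟨a, haR⟩ : ↥(R : Subgroup L))⁻¹ := Subtype.ext hba
  have ho : orderOf (⟨a, haR⟩ : ↥(R : Subgroup L)) = 4 := by
    have h1 : ¬ (⟨a, haR⟩ : ↥(R : Subgroup L)) ^ 2 ^ 1 = 1 := by
      intro h
      have := congrArg Subtype.val h
      rw [Subgroup.coe_pow, Subgroup.coe_mk, pow_one, pow_two, haa] at this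
      exact hz1 this
    have h2 : (⟨a, haR⟩ : ↥(R : Subgroup L)) ^ 2 ^ (1 + 1) = 1 := ha4
    have := orderOf_eq_prime_pow h1 h2
    rw [this]
    norm_num
  have hbz' : (⟨b, hbR⟩ : ↥(R : Subgroup L)) ∉
      Subgroup.zpowers (⟨a, haR⟩ : ↥(R : Subgroup L)) := by
    intro h
    obtain ⟨i, hi⟩ := Subgroup.mem_zpowers_iff.1 h
    apply hbz
    rw [Subgroup.mem_zpowers_iff]
    refine ⟨i, ?_⟩
    have := congrArg Subtype.val hi
    simpa using this
  have hinj := Cfsg.Agent.Lib.Helper46.dihedralLift_injective (n := 4)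
    (⟨a, haR⟩ : ↥(R : Subgroup L)) ⟨b, hbR⟩ ha4 hb' hab' ho hbz'
  have hbij := hinj.bijective_of_nat_card_le (by rw [DihedralGroup.nat_card]; omega)
  exact ⟨(MulEquiv.ofBijective _ hbij).symm⟩

end Cfsg.Agent.Lib.Helper30
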