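import Mathlib
import Cfsg.Prelude.Def_MonsterType
import Cfsg.Agent.Lib.Helper30.LargeExtra5
import Cfsg.Agent.Lib.Helper30.CyclicSylow2

/-!
Structure of finite groups with a large extraspecial 2-subgroup, part 1: the basic data, the
fixed-point lemma for `Q`-invariant subgroups, and a transfer lemma on simple groups.
-/

set_option autoImplicit false

namespace Cfsg.Agent.Lib.Helper30

open scoped commutatorElement

variable {G : Type*} [Group G]

/-- The elementwise data of a large extraspecial 2-subgroup `Q` with centre `⟨z⟩`. -/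
structure LargeCore (Q : Subgroup G) (z : G) : Prop where
  d : ClassTwoData Q z
  hN : ∀ c : G, c * z = z * c → ∀ q ∈ Q, c * q * c⁻¹ ∈ Q
  hC : ∀ c : G, (∀ q ∈ Q, c * q = q * c) → c = 1 ∨ c = z
  hodd : ∀ K : Subgroup G, Odd (Nat.card K) → (∀ q ∈ Q, ∀ k ∈ K, q * k * q⁻¹ ∈ K) → K = ⊥
  hQ2 : IsPGroup 2 Q

theorem largeCore_of_isLargeExtraspecial [Finite G] (Q : Subgroup G)
    (hQ : Cfsg.IsLargeExtraspecial Q) (z : G)
    (hz : (Subgroup.center ↥Q).map Q.subtype = Subgroup.zpowers z) : LargeCore Q z := by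
  have hz2 : orderOf z = 2 := by
    rw [← Nat.card_zpowers, ← hz, Subgroup.card_map_of_injective Q.subtype_injective]
    exact hQ.1.2
  obtain ⟨hE, hcent, hnorm, hodd⟩ := hQ
  have hQ2 : IsPGroup 2 ↥Q := hE.1.1
  obtain ⟨⟨-, -, hcomm⟩, -⟩ := hE
  have hzz : z * z = 1 := by
    have h := pow_orderOf_eq_one z
    rw [hz2, pow_two] at h
    exact h
  have hz1 : z ≠ 1 := by
    intro h
    rw [h, orderOf_one] at hz2
    norm_num at hz2
  have hzmem : z ∈ (Subgroup.center ↥Q).map Q.subtype := by
    rw [hz]; exact Subgroup.mem_zpowers z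
  obtain ⟨ζ, hζ, hζz⟩ := hzmem
  have hζz' : (ζ : G) = z := hζz
  have hzQ : z ∈ Q := by rw [← hζz']; exact ζ.2
  have hcen : ∀ c : ↥Q, c ∈ Subgroup.center ↥Q → (c : G) = 1 ∨ (c : G) = z := by
    intro c hc
    have h1 : (c : G) ∈ (Subgroup.center ↥Q).map Q.subtype := ⟨c, hc, rfl⟩
    rw [hz] at h1
    exact (mem_zpowers_of_sq hzz).1 h1
  have hzc : ∀ q ∈ Q, z * q = q * z := by
    intro q hq
    have h1 := Subgroup.mem_center_iff.1 hζ ⟨q, hq⟩
    have h2 := congrArg Subtype.val h1
    rw [← hζz']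
    exact h2.symm
  refine ⟨⟨hzQ, hz1, hzz, hzc, ?_, ?_⟩, ?_, ?_, ?_, hQ2⟩
  · intro x hx y hy
    have h1 : ⁅(⟨x, hx⟩ : ↥Q), (⟨y, hy⟩ : ↥Q)⁆ ∈ commutator ↥Q := by
      rw [commutator_def]
      exact Subgroup.commutator_mem_commutator (Subgroup.mem_top _) (Subgroup.mem_top _)
    rw [hcomm] at h1
    have h2 := hcen _ h1
    rw [commutatorElement_def] at h2
    exact h2
  · intro x hx hxc
    have h1 : (⟨x, hx⟩ : ↥Q) ∈ Subgroup.center ↥Q := by
      rw [Subgroup.mem_center_iff]
      intro g
      apply Subtype.ext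
      exact (hxc (g : G) g.2).symm
    exact hcen _ h1
  · intro c hc q hq
    have h1 : c ∈ Subgroup.centralizer
        (((Subgroup.center ↥Q).map Q.subtype : Subgroup G) : Set G) := by
      rw [hz, Subgroup.mem_centralizer_iff]
      intro h hh
      rcases (mem_zpowers_of_sq hzz).1 hh with rfl | rfl
      · simp
      · exact hc.symm
    have h2 := hnorm h1
    exact (Subgroup.mem_normalizer_iff.1 h2 q).1 hq
  · intro c hc
    have h1 : c ∈ Subgroup.centralizer (Q : Set G) := by
      rw [Subgroup.mem_centralizer_iff]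
      intro q hq
      exact (hc q hq).symm
    rw [hcent, hz] at h1
    exact (mem_zpowers_of_sq hzz).1 h1
  · intro K hK hinv
    apply hodd K hK
    intro q hq
    refine mem_normalizer_of_conj_mem (fun k hk => hinv q hq k hk) (fun k hk => ?_)
    have h := hinv q⁻¹ (Q.inv_mem hq) k hk
    rwa [inv_inv] at h

/-- A nontrivial subgroup normalized by `Q` contains `z`. -/
theorem LargeCore.mem_of_invariant [Finite G] {Q : Subgroup G} {z : G} (L : LargeCore Q z)
    (X : Subgroup G) (hX : X ≠ ⊥) (hinv : ∀ q ∈ Q, ∀ x ∈ X, q * x * q⁻¹ ∈ X) : z ∈ X := by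
  classical
  by_contra hzX
  have hp2 : Fact (Nat.Prime 2) := ⟨Nat.prime_two⟩
  letI : MulAction ↥Q ↥X :=
    { smul := fun q x => ⟨(q : G) * x * (q : G)⁻¹, hinv q q.2 x x.2⟩
      one_smul := fun x => Subtype.ext (by
        show ((1 : ↥Q) : G) * (x : G) * ((1 : ↥Q) : G)⁻¹ = (x : G)
        simp)
      mul_smul := fun a b x => Subtype.ext (by
        show ((a * b : ↥Q) : G) * (x : G) * ((a * b : ↥Q) : G)⁻¹ =
          (a : G) * ((b : G) * (x : G) * (b : G)⁻¹) * (a : G)⁻¹
        rw [Subgroup.coe_mul]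
        group) }
  have h1 := L.hQ2.card_modEq_card_fixedPoints (↥X)
  have key : ∀ x : ↥X, x ∈ MulAction.fixedPoints ↥Q ↥X → x = 1 := by
    intro x hx
    rw [MulAction.mem_fixedPoints] at hx
    have h3 : ∀ q ∈ Q, (x : G) * q = q * (x : G) := by
      intro q hq
      have h4 := congrArg (fun c : ↥X => (c : G)) (hx ⟨q, hq⟩)
      have h5 : q * (x : G) * q⁻¹ = (x : G) := h4
      calc (x : G) * q = (q * (x : G) * q⁻¹) * q := by rw [h5]
        _ = q * (x : G) := by group
    rcases L.hC _ h3 with h6 | h6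
    · exact Subtype.ext h6
    · exfalso; apply hzX; rw [← h6]; exact x.2
  have h2 : Nat.card ↥(MulAction.fixedPoints ↥Q ↥X) = 1 := by
    rw [Nat.card_eq_one_iff_unique]
    constructor
    · constructor
      rintro ⟨a, ha⟩ ⟨b, hb⟩
      apply Subtype.ext
      show a = b
      rw [key a ha, key b hb]
    · refine ⟨⟨1, ?_⟩⟩
      rw [MulAction.mem_fixedPoints]
      intro q
      apply Subtype.ext
      show (q : G) * ((1 : ↥X) : G) * (q : G)⁻¹ = ((1 : ↥X) : G)
      simp
  rw [h2] at h1
  have hodd : Odd (Nat.card ↥X) := by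
    rw [Nat.odd_iff]; exact h1
  exact hX (L.hodd X hodd hinv)

/-- Every nontrivial normal subgroup contains the normal closure of `z`. -/
theorem LargeCore.normalClosure_le [Finite G] {Q : Subgroup G} {z : G} (L : LargeCore Q z)
    (N : Subgroup G) (hN : N.Normal) (hne : N ≠ ⊥) :
    Subgroup.normalClosure ({z} : Set G) ≤ N := by
  have hzN : z ∈ N := L.mem_of_invariant N hne (fun q _ x hx => hN.conj_mem x hx q)
  haveI := hN
  apply Subgroup.normalClosure_le_normal
  intro y hy
  rw [Set.mem_singleton_iff] at hy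
  rw [hy]; exact hzN

/-- Three involutory relations force commutation. -/
theorem comm_of_sq_eq_one {a b : G} (ha : a * a = 1) (hb : b * b = 1)
    (hab : (a * b) * (a * b) = 1) : a * b = b * a := by
  calc a * b = (a * b)⁻¹ := by
        rw [eq_inv_iff_mul_eq_one]; exact hab
    _ = b⁻¹ * a⁻¹ := by group
    _ = b * a := by
        have e1 : b⁻¹ = b := by rw [inv_eq_iff_mul_eq_one]; exact hb
        have e2 : a⁻¹ = a := by rw [inv_eq_iff_mul_eq_one]; exact ha
        rw [e1, e2]

/-- A finite simple group in which some nontrivial element `t` has centralizer `{1, t}` is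
commutative (Burnside transfer: a Sylow 2-subgroup has order 2). -/
theorem comm_of_simple_cent_two {T : Type*} [Group T] [Finite T] [IsSimpleGroup T] (t : T)
    (ht : t ≠ 1) (h : ∀ x : T, x * t = t * x → x = 1 ∨ x = t) : ∀ a b : T, a * b = b * a := by
  have hp2 : Fact (Nat.Prime 2) := ⟨Nat.prime_two⟩
  have htt : t * t = 1 := by
    rcases h (t * t) (by rw [mul_assoc]) with h1 | h1
    · exact h1
    · exfalso; apply ht
      have h2 : t = t⁻¹ * (t * t) := by group
      rw [h2, h1]; group
  have hP0 : IsPGroup 2 ↥(Subgroup.zpowers t) :=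
    isPGroup_zpowers' (p := 2) (j := 1) (by rw [pow_one, pow_two]; exact htt)
  obtain ⟨P, hP⟩ := hP0.exists_le_sylow
  have htP : t ∈ (P : Subgroup T) := hP (Subgroup.mem_zpowers t)
  have hPt : ∀ x ∈ (P : Subgroup T), x = 1 ∨ x = t := by
    haveI : Nontrivial ↥(P : Subgroup T) :=
      ⟨⟨⟨t, htP⟩, 1, fun hh => ht (congrArg Subtype.val hh)⟩⟩
    haveI := P.isPGroup'.center_nontrivial
    obtain ⟨c, hc1⟩ := exists_ne (1 : ↥(Subgroup.center ↥(P : Subgroup T)))
    have hcc := Subgroup.mem_center_iff.mp c.2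
    have h1 : ((c : ↥(P : Subgroup T)) : T) * t = t * ((c : ↥(P : Subgroup T)) : T) := by
      have h2 := congrArg (fun w : ↥(P : Subgroup T) => (w : T)) (hcc ⟨t, htP⟩)
      exact h2.symm
    have h3 : ((c : ↥(P : Subgroup T)) : T) = t := by
      rcases h _ h1 with h4 | h4
      · exfalso; apply hc1
        apply Subtype.ext; apply Subtype.ext; exact h4
      · exact h4
    intro x hx
    apply h
    have h2 := congrArg (fun w : ↥(P : Subgroup T) => (w : T)) (hcc ⟨x, hx⟩)
    have h5 : x * ((c : ↥(P : Subgroup T)) : T) = ((c : ↥(P : Subgroup T)) : T) * x := h2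
    rw [h3] at h5
    exact h5
  have hNC : Subgroup.normalizer ((P : Subgroup T) : Set T) ≤
      Subgroup.centralizer ((P : Subgroup T) : Set T) := by
    intro g hg
    rw [Subgroup.mem_centralizer_iff]
    intro x hx
    rcases hPt x hx with h1 | h1
    · rw [h1]; simp
    · rw [h1]
      have h2 : g * t * g⁻¹ ∈ (P : Subgroup T) := (Subgroup.mem_normalizer_iff.mp hg t).mp htP
      rcases hPt _ h2 with h3 | h3
      · exfalso; apply ht
        have h4 : t = g⁻¹ * (g * t * g⁻¹) * g := by group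
        rw [h4, h3]; group
      · calc t * g = (g * t * g⁻¹) * g := by rw [h3]
          _ = g * t := by group
  have hcompl := MonoidHom.ker_transferSylow_isComplement' P hNC
  rcases (MonoidHom.normal_ker (MonoidHom.transferSylow P hNC)).eq_bot_or_eq_top with h1 | h1
  · rw [h1, Subgroup.isComplement'_bot_left] at hcompl
    intro a b
    have ha := hPt a (by rw [hcompl]; exact Subgroup.mem_top a)
    have hb := hPt b (by rw [hcompl]; exact Subgroup.mem_top b)
    rcases ha with ha | ha <;> rcases hb with hb | hb <;> rw [ha, hb] <;> simp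
  · rw [h1, Subgroup.isComplement'_top_left] at hcompl
    exfalso; apply ht
    have h2 := htP
    rw [hcompl, Subgroup.mem_bot] at h2
    exact h2

end Cfsg.Agent.Lib.Helper30
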