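import Mathlib
import Cfsg.Prelude.Def_MonsterType
import Cfsg.Agent.Lib.Helper30.Struct1
import Cfsg.Agent.Lib.Helper30.Bender
import Cfsg.Agent.Lib.Helper22.PConstr
import Cfsg.Agent.Lib.Helper22.PComp
import Cfsg.Agent.Lib.Helper22.Comp
import Cfsg.Agent.Lib.Helper22.Layer
import Cfsg.Agent.Lib.Helper22.Fstar
import Cfsg.Agent.Lib.Helper22.CharP
import Cfsg.Agent.Lib.Helper55.Cores

/-!
Structure of finite groups with a large extraspecial 2-subgroup, part 2: the case division on
`O_2(G)`.
-/

set_option autoImplicit false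

namespace Cfsg.Agent.Lib.Helper30

open Cfsg.Agent.Lib.Helper22

universe u

variable {G : Type u} [Group G] [Finite G]

theorem LargeCore.pPrimeCore_eq_bot {Q : Subgroup G} {z : G} (L : LargeCore Q z) :
    Cfsg.pPrimeCore 2 G = ⊥ := by
  have hn := pPrimeCore_normal' 2 G
  apply L.hodd
  · exact Nat.Coprime.odd_of_right (card_pPrimeCore_coprime 2 G)
  · intro q _ k hk; exact hn.conj_mem k hk q

theorem LargeCore.fitting_eq {Q : Subgroup G} {z : G} (L : LargeCore Q z) :
    Cfsg.fittingSubgroup G = Cfsg.pCore 2 G := by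
  haveI : Fact (Nat.Prime 2) := ⟨Nat.prime_two⟩
  exact fittingSubgroup_eq_pCore_of_pPrimeCore_eq_bot L.pPrimeCore_eq_bot

/-- If `O_2(G) ≠ 1` then the normal closure of `z` is abelian and `F*(G) = O_2(G)`. -/
theorem LargeCore.caseA {Q : Subgroup G} {z : G} (L : LargeCore Q z)
    (hU : Cfsg.pCore 2 G ≠ ⊥) :
    (∀ a ∈ Subgroup.normalClosure ({z} : Set G), ∀ b ∈ Subgroup.normalClosure ({z} : Set G),
      a * b = b * a) ∧
    Cfsg.generalizedFittingSubgroup G = Cfsg.pCore 2 G := by
  haveI hp2 : Fact (Nat.Prime 2) := ⟨Nat.prime_two⟩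
  haveI hUn : (Cfsg.pCore 2 G).Normal := pCore_normal' 2 G
  have hU2 : IsPGroup 2 ↥(Cfsg.pCore 2 G) := Cfsg.Agent.Lib.Helper55.pCore_isPGroup 2 G
  obtain ⟨ZU, hZU⟩ : ∃ ZU : Subgroup G,
      ZU = Cfsg.pCore 2 G ⊓ Subgroup.centralizer (Cfsg.pCore 2 G : Set G) := ⟨_, rfl⟩
  have hZn : ZU.Normal := by
    rw [hZU]; infer_instance
  have hZne : ZU ≠ ⊥ := by
    haveI : Nontrivial ↥(Cfsg.pCore 2 G) := (Subgroup.nontrivial_iff_ne_bot _).mpr hU
    haveI := hU2.center_nontrivial
    obtain ⟨c, hc1⟩ := exists_ne (1 : ↥(Subgroup.center ↥(Cfsg.pCore 2 G)))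
    intro hbot
    apply hc1
    have hmem : ((c : ↥(Cfsg.pCore 2 G)) : G) ∈ ZU := by
      rw [hZU]
      refine Subgroup.mem_inf.mpr ⟨(c : ↥(Cfsg.pCore 2 G)).2, ?_⟩
      rw [Subgroup.mem_centralizer_iff]
      intro y hy
      have h2 := Subgroup.mem_center_iff.mp c.2 ⟨y, hy⟩
      exact congrArg (fun w : ↥(Cfsg.pCore 2 G) => (w : G)) h2
    rw [hbot, Subgroup.mem_bot] at hmem
    apply Subtype.ext; apply Subtype.ext; exact hmem
  have hMZ := L.normalClosure_le ZU hZn hZne
  have hzZ : z ∈ ZU := hMZ (Subgroup.subset_normalClosure (Set.mem_singleton z))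
  have hzU : z ∈ Cfsg.pCore 2 G := by
    rw [hZU] at hzZ; exact (Subgroup.mem_inf.mp hzZ).1
  have hlayer : Cfsg.layer G = ⊥ := by
    rw [eq_bot_iff, layer_le_iff]
    intro K hK
    exfalso
    have h1 : K ≤ Subgroup.centralizer (Cfsg.fittingSubgroup G : Set G) := by
      have h2 := commutator_layer_fittingSubgroup (G := G)
      rw [Subgroup.commutator_eq_bot_iff_le_centralizer] at h2
      exact (component_le_layer hK).trans h2
    have hzF : z ∈ Cfsg.fittingSubgroup G := by rw [L.fitting_eq]; exact hzU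
    have hKC : K ≤ Subgroup.centralizer ({z} : Set G) := by
      intro k hk
      rw [mem_cent_sing]
      exact (Subgroup.mem_centralizer_iff.mp (h1 hk) z hzF).symm
    have hKcomp : Cfsg.IsComponent (K.subgroupOf (Subgroup.centralizer ({z} : Set G))) :=
      isComponent_subgroupOf hK hKC
    have hQn : (Q.subgroupOf (Subgroup.centralizer ({z} : Set G))).Normal := by
      constructor
      intro n hn g
      rw [Subgroup.mem_subgroupOf] at hn ⊢
      exact L.hN g (mem_cent_sing.mp g.2) n hn
    have hQsol : Group.IsSolvable ↥(Q.subgroupOf (Subgroup.centralizer ({z} : Set G))) := by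
      have h2 : IsPGroup 2 ↥(Q.subgroupOf (Subgroup.centralizer ({z} : Set G))) :=
        L.hQ2.comap_of_injective _ (Subgroup.subtype_injective _)
      haveI := h2.isNilpotent
      exact IsNilpotent.to_isSolvable
    have h3 := component_commute_of_solvable hKcomp hQn.isSubnormal hQsol
    rw [Subgroup.commutator_eq_bot_iff_le_centralizer] at h3
    have hKQ : K ≤ Q := by
      intro k hk
      have hkc : ∀ q ∈ Q, k * q = q * k := by
        intro q hq
        have hqC : q ∈ Subgroup.centralizer ({z} : Set G) :=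
          mem_cent_sing.mpr (L.d.hzc q hq).symm
        have h4 := h3 (show (⟨k, hKC hk⟩ : ↥(Subgroup.centralizer ({z} : Set G))) ∈
          K.subgroupOf _ from hk)
        have h5 := Subgroup.mem_centralizer_iff.mp h4 ⟨q, hqC⟩
          (show (⟨q, hqC⟩ : ↥(Subgroup.centralizer ({z} : Set G))) ∈ Q.subgroupOf _ from hq)
        exact (congrArg (fun w : ↥(Subgroup.centralizer ({z} : Set G)) => (w : G)) h5).symm
      rcases L.hC k hkc with h6 | h6
      · rw [h6]; exact Q.one_mem
      · rw [h6]; exact L.d.hzQ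
    have hQsol' : Group.IsSolvable ↥Q := by
      haveI := L.hQ2.isNilpotent
      exact IsNilpotent.to_isSolvable
    exact IsComponent.not_le_solvable hK hQsol' hKQ
  constructor
  · intro a ha b hb
    have ha' := hMZ ha
    have hb' := hMZ hb
    rw [hZU] at ha' hb'
    exact Subgroup.mem_centralizer_iff.mp (Subgroup.mem_inf.mp hb').2 a (Subgroup.mem_inf.mp ha').1
  · unfold Cfsg.generalizedFittingSubgroup
    rw [hlayer, bot_sup_eq, L.fitting_eq]

/-- If `O_2(G) = 1` then the normal closure of `z` is the layer and the generalized Fitting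
subgroup, and the Fitting subgroup is trivial. -/
theorem LargeCore.caseB {Q : Subgroup G} {z : G} (L : LargeCore Q z)
    (hU : Cfsg.pCore 2 G = ⊥) :
    Subgroup.normalClosure ({z} : Set G) = Cfsg.generalizedFittingSubgroup G ∧
    Cfsg.layer G = Subgroup.normalClosure ({z} : Set G) ∧ Cfsg.fittingSubgroup G = ⊥ := by
  have hF : Cfsg.fittingSubgroup G = ⊥ := by rw [L.fitting_eq, hU]
  obtain ⟨M, hM⟩ : ∃ M : Subgroup G, M = Subgroup.normalClosure ({z} : Set G) := ⟨_, rfl⟩
  have hMn : M.Normal := by rw [hM]; exact Subgroup.normalClosure_normal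
  have hzM : z ∈ M := by rw [hM]; exact Subgroup.subset_normalClosure (Set.mem_singleton z)
  have hMne : M ≠ ⊥ := fun h => L.d.hz1 (by rw [h, Subgroup.mem_bot] at hzM; exact hzM)
  have hMnc : ¬ ∀ a ∈ M, ∀ b ∈ M, a * b = b * a := by
    intro hc
    have h1 := le_fittingSubgroup_of_comm hMn hc
    rw [hF] at h1
    exact hMne (le_bot_iff.mp h1)
  have hCM : Subgroup.centralizer (M : Set G) = ⊥ := by
    by_contra hne
    haveI := hMn
    have h1 := L.normalClosure_le _
      (inferInstance : (Subgroup.centralizer (M : Set G)).Normal) hne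
    rw [← hM] at h1
    apply hMnc
    intro a ha b hb
    exact Subgroup.mem_centralizer_iff.mp (h1 hb) a ha
  have hEF : Cfsg.generalizedFittingSubgroup G = Cfsg.layer G := by
    unfold Cfsg.generalizedFittingSubgroup; rw [hF, sup_bot_eq]
  have hEne : Cfsg.layer G ≠ ⊥ := by
    intro hE
    have h1 := centralizer_generalizedFittingSubgroup_le G
    rw [hEF, hE] at h1
    have h3 : z ∈ Subgroup.centralizer (((⊥ : Subgroup G) : Subgroup G) : Set G) := by
      rw [Subgroup.mem_centralizer_iff]
      intro y hy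
      rw [Subgroup.coe_bot, Set.mem_singleton_iff] at hy
      rw [hy]; simp
    have h2 := h1 h3
    rw [Subgroup.mem_bot] at h2
    exact L.d.hz1 h2
  have hME : M ≤ Cfsg.layer G := by
    rw [hM]; exact L.normalClosure_le _ (layer_normal' G) hEne
  have hEM : Cfsg.layer G ≤ M := by
    rw [layer_le_iff]
    intro K hK
    rcases component_le_or_commute_normal hK hMn with h | h
    · exact h
    · exfalso
      rw [Subgroup.commutator_eq_bot_iff_le_centralizer, hCM] at h
      exact IsComponent.ne_bot hK (le_bot_iff.mp h)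
  have hEq : Cfsg.layer G = M := le_antisymm hEM hME
  rw [← hM]
  exact ⟨by rw [hEF, hEq], hEq, hF⟩

end Cfsg.Agent.Lib.Helper30
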