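import Mathlib
import Cfsg.Prelude.Def_MonsterType
import Cfsg.Agent.Lib.Helper30.Struct2
import Cfsg.Agent.Lib.Helper30.OddCent
import Cfsg.Agent.Lib.Helper21.Quasi
import Cfsg.Agent.Lib.Helper49.SylSub
import Cfsg.Agent.Lib.Helper47.Frat

/-!
Structure of finite groups with a large extraspecial 2-subgroup, part 3: the components of `G`
when `O_2(G) = 1`.
-/

set_option autoImplicit false

namespace Cfsg.Agent.Lib.Helper30

open Cfsg.Agent.Lib.Helper22

universe u

variable {G : Type u} [Group G] [Finite G]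

/-- Distinct components commute elementwise. -/
theorem comp_comm {K L : Subgroup G} (hK : Cfsg.IsComponent K) (hL : Cfsg.IsComponent L)
    (hne : K ≠ L) : ∀ a ∈ K, ∀ b ∈ L, a * b = b * a := by
  have h := components_commute hK hL hne
  rw [Subgroup.commutator_eq_bot_iff_le_centralizer] at h
  intro a ha b hb
  exact (Subgroup.mem_centralizer_iff.mp (h ha) b hb).symm

/-- A component is not commutative. -/
theorem comp_not_comm {L : Subgroup G} (hL : Cfsg.IsComponent L) :
    ¬ ∀ a ∈ L, ∀ b ∈ L, a * b = b * a := by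
  intro h
  exact Cfsg.Agent.Lib.Helper21.quasisimple_not_isMulCommutative hL.2
    ⟨⟨fun a b => Subtype.ext (h a a.2 b b.2)⟩⟩

theorem inv_cases {x z₁ : G} (hz : z₁ * z₁ = 1) (h : x⁻¹ = 1 ∨ x⁻¹ = z₁) : x = 1 ∨ x = z₁ := by
  rcases h with h | h
  · left; exact inv_eq_one.mp h
  · right
    calc x = (x⁻¹)⁻¹ := by group
      _ = z₁⁻¹ := by rw [h]
      _ = z₁ := by rw [inv_eq_iff_mul_eq_one]; exact hz

/-- The situation `O_2(G) = 1`: the normal closure `M` of `z` is the layer, and `F(G) = 1`. -/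
structure CompCtx (Q : Subgroup G) (z : G) (M : Subgroup G) : Prop where
  core : LargeCore Q z
  hMn : M.Normal
  hzM : z ∈ M
  hlayer : Cfsg.layer G = M
  hF : Cfsg.fittingSubgroup G = ⊥

variable {Q : Subgroup G} {z : G} {M : Subgroup G}

theorem CompCtx.comp_le (X : CompCtx Q z M) {L : Subgroup G} (hL : Cfsg.IsComponent L) :
    L ≤ M := by
  rw [← X.hlayer]; exact component_le_layer hL

theorem CompCtx.comp_center (X : CompCtx Q z M) {L : Subgroup G} (hL : Cfsg.IsComponent L)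
    {w : G} (hw : w ∈ L) (hc : ∀ y ∈ L, w * y = y * w) : w = 1 := by
  have hsub : ((Subgroup.center ↥L).map L.subtype).IsSubnormal :=
    (Subgroup.Normal.isSubnormal (inferInstance : (Subgroup.center ↥L).Normal)).trans' hL.1
  have hnil : Group.IsNilpotent ↥((Subgroup.center ↥L).map L.subtype) := by
    apply isNilpotent_of_comm
    rintro ⟨a, ha⟩ ⟨b, hb⟩
    apply Subtype.ext
    show a * b = b * a
    rw [map_center_subtype] at ha hb
    exact Subgroup.mem_centralizer_iff.mp (Subgroup.mem_inf.mp hb).2 a (Subgroup.mem_inf.mp ha).1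
  have h1 := le_fittingSubgroup_of_subnormal_nilpotent hsub hnil
  rw [X.hF, map_center_subtype] at h1
  have h2 : w ∈ L ⊓ Subgroup.centralizer (L : Set G) := by
    refine Subgroup.mem_inf.mpr ⟨hw, ?_⟩
    rw [Subgroup.mem_centralizer_iff]
    intro y hy
    exact (hc y hy).symm
  have h3 := h1 h2
  rwa [Subgroup.mem_bot] at h3

theorem CompCtx.comp_norm (X : CompCtx Q z M) {L : Subgroup G} (hL : Cfsg.IsComponent L)
    {m : G} (hm : m ∈ M) {l : G} : l ∈ L ↔ m * l * m⁻¹ ∈ L := by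
  have h := layer_le_normalizer_component hL
  rw [X.hlayer] at h
  exact Subgroup.mem_normalizer_iff.mp (h hm) l

theorem CompCtx.comp_dec (X : CompCtx Q z M) {L : Subgroup G} (hL : Cfsg.IsComponent L)
    {x : G} (hx : x ∈ M) :
    ∃ l ∈ L, ∃ c ∈ M, (∀ y ∈ L, c * y = y * c) ∧ x = l * c := by
  have h1 : Cfsg.layer G ≤ L ⊔ (M ⊓ Subgroup.centralizer (L : Set G)) := by
    rw [layer_le_iff]
    intro K hK
    by_cases hKL : K = L
    · rw [hKL]; exact le_sup_left
    · refine le_trans (le_inf (X.comp_le hK) ?_) le_sup_right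
      have h := components_commute hK hL hKL
      rwa [Subgroup.commutator_eq_bot_iff_le_centralizer] at h
  rw [X.hlayer] at h1
  have hcomm : ∀ a ∈ L, ∀ b ∈ M ⊓ Subgroup.centralizer (L : Set G), a * b = b * a := by
    intro a ha b hb
    exact Subgroup.mem_centralizer_iff.mp (Subgroup.mem_inf.mp hb).2 a ha
  obtain ⟨l, hl, c, hc, hxe⟩ := mem_sup_of_comm hcomm (h1 hx)
  refine ⟨l, hl, c, (Subgroup.mem_inf.mp hc).1, ?_, hxe⟩
  intro y hy
  exact (Subgroup.mem_centralizer_iff.mp (Subgroup.mem_inf.mp hc).2 y hy).symm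

theorem CompCtx.comp_unique (X : CompCtx Q z M) {L : Subgroup G} (hL : Cfsg.IsComponent L)
    {l l' c c' : G} (hl : l ∈ L) (hl' : l' ∈ L) (hc : ∀ y ∈ L, c * y = y * c)
    (hc' : ∀ y ∈ L, c' * y = y * c') (h : l * c = l' * c') : l = l' := by
  have hw : l'⁻¹ * l ∈ L := L.mul_mem (L.inv_mem hl') hl
  have e : l'⁻¹ * l = c' * c⁻¹ := by
    calc l'⁻¹ * l = l'⁻¹ * (l * c) * c⁻¹ := by group
      _ = l'⁻¹ * (l' * c') * c⁻¹ := by rw [h]
      _ = c' * c⁻¹ := by group
  have h1 : l'⁻¹ * l = 1 := by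
    apply X.comp_center hL hw
    intro y hy
    rw [e]
    have hci : c⁻¹ * y = y * c⁻¹ := by
      have h2 := hc y hy
      calc c⁻¹ * y = c⁻¹ * (y * c) * c⁻¹ := by group
        _ = c⁻¹ * (c * y) * c⁻¹ := by rw [h2]
        _ = y * c⁻¹ := by group
    calc c' * c⁻¹ * y = c' * (c⁻¹ * y) := by group
      _ = c' * (y * c⁻¹) := by rw [hci]
      _ = (c' * y) * c⁻¹ := by group
      _ = (y * c') * c⁻¹ := by rw [hc' y hy]
      _ = y * (c' * c⁻¹) := by group
  calc l = l' * (l'⁻¹ * l) := by group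
    _ = l' := by rw [h1, mul_one]

theorem CompCtx.comp_simple (X : CompCtx Q z M) {L : Subgroup G} (hL : Cfsg.IsComponent L) :
    IsSimpleGroup ↥L := by
  exact
    { toNontrivial := Cfsg.Agent.Lib.Helper21.quasisimple_nontrivial hL.2
      eq_bot_or_eq_top_of_normal := fun N hN => by
        haveI := hN
        rcases Cfsg.Agent.Lib.Helper21.quasisimple_normal_eq_top_or_le_center hL.2 N with h | h
        · right; exact h
        · left
          rw [eq_bot_iff]
          intro n hn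
          rw [Subgroup.mem_bot]
          have h1 := Subgroup.mem_center_iff.mp (h hn)
          apply Subtype.ext
          apply X.comp_center hL n.2
          intro y hy
          exact (congrArg (fun w : ↥L => (w : G)) (h1 ⟨y, hy⟩)).symm }

/-- A component in which the centralizer of `z₁` is `{1, z₁}` cannot exist. -/
theorem CompCtx.cent_small_false (X : CompCtx Q z M) {L : Subgroup G}
    (hL : Cfsg.IsComponent L) {z₁ : G} (hz₁ : z₁ ∈ L)
    (h : ∀ x ∈ L, x * z₁ = z₁ * x → x = 1 ∨ x = z₁) : False := by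
  apply comp_not_comm hL
  by_cases h1 : z₁ = 1
  · intro a ha b hb
    have ha' : a = 1 := by
      rcases h a ha (by rw [h1]; simp) with h2 | h2
      · exact h2
      · rw [h2, h1]
    rw [ha']; simp
  · haveI := X.comp_simple hL
    have key := comm_of_simple_cent_two (T := ↥L) ⟨z₁, hz₁⟩
      (fun hh => h1 (congrArg Subtype.val hh)) (by
        intro x hx
        have hx' : (x : G) * z₁ = z₁ * (x : G) := congrArg (fun w : ↥L => (w : G)) hx
        rcases h x x.2 hx' with h2 | h2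
        · left; exact Subtype.ext h2
        · right; exact Subtype.ext h2)
    intro a ha b hb
    exact congrArg (fun w : ↥L => (w : G)) (key ⟨a, ha⟩ ⟨b, hb⟩)

/-- If the component `L` is not all of `M`, some element of `Q` moves it. -/
theorem CompCtx.exists_conj_ne (X : CompCtx Q z M) {L : Subgroup G} (hL : Cfsg.IsComponent L)
    (hLM : L ≠ M) : ∃ u ∈ Q, L.map (MulAut.conj u).toMonoidHom ≠ L := by
  by_contra hcon
  push Not at hcon
  have hinv : ∀ q ∈ Q, ∀ l ∈ L, q * l * q⁻¹ ∈ L := by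
    intro q hq l hl
    have h := conj_mem_map_conj (s := q) hl
    rwa [hcon q hq] at h
  have hzL : z ∈ L := X.core.mem_of_invariant L (IsComponent.ne_bot hL) hinv
  have hXbot : M ⊓ Subgroup.centralizer (L : Set G) = ⊥ := by
    by_contra hne
    have hz2 : z ∈ M ⊓ Subgroup.centralizer (L : Set G) := by
      apply X.core.mem_of_invariant _ hne
      intro q hq x hx
      refine Subgroup.mem_inf.mpr ⟨X.hMn.conj_mem x (Subgroup.mem_inf.mp hx).1 q, ?_⟩
      rw [Subgroup.mem_centralizer_iff]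
      intro l hl
      have h1 : q⁻¹ * l * q ∈ L := by
        have h := hinv q⁻¹ (Q.inv_mem hq) l hl
        rwa [inv_inv] at h
      have h2 := Subgroup.mem_centralizer_iff.mp (Subgroup.mem_inf.mp hx).2 _ h1
      calc l * (q * x * q⁻¹) = q * ((q⁻¹ * l * q) * x) * q⁻¹ := by group
        _ = q * (x * (q⁻¹ * l * q)) * q⁻¹ := by rw [h2]
        _ = q * x * q⁻¹ * l := by group
    have h3 : z = 1 := X.comp_center hL hzL (fun y hy =>
      (Subgroup.mem_centralizer_iff.mp (Subgroup.mem_inf.mp hz2).2 y hy).symm)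
    exact X.core.d.hz1 h3
  apply hLM
  apply le_antisymm (X.comp_le hL)
  intro x hx
  obtain ⟨l, hl, c, hc, hcc, hxe⟩ := X.comp_dec hL hx
  have hc1 : c ∈ M ⊓ Subgroup.centralizer (L : Set G) := by
    refine Subgroup.mem_inf.mpr ⟨hc, ?_⟩
    rw [Subgroup.mem_centralizer_iff]
    intro y hy; exact (hcc y hy).symm
  rw [hXbot, Subgroup.mem_bot] at hc1
  rw [hxe, hc1, mul_one]; exact hl

/-- A component `L` moved by an element `u` of `Q`. -/
structure PairCtx (Q : Subgroup G) (z : G) (M L : Subgroup G) (u : G) : Prop where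
  X : CompCtx Q z M
  hL : Cfsg.IsComponent L
  hu : u ∈ Q
  hne : L.map (MulAut.conj u).toMonoidHom ≠ L

variable {L : Subgroup G} {u : G}

theorem PairCtx.conj_comm (P : PairCtx Q z M L u) :
    ∀ a ∈ L, ∀ b ∈ L.map (MulAut.conj u).toMonoidHom, a * b = b * a :=
  fun a ha b hb =>
    (comp_comm (isComponent_map_equiv (MulAut.conj u) P.hL) P.hL P.hne b hb a ha).symm

theorem PairCtx.cent_z (P : PairCtx Q z M L u) {z₁ c₁ : G}
    (hc₁ : ∀ y ∈ L, c₁ * y = y * c₁) (hzd : z = z₁ * c₁) {x : G} (hx : x ∈ L)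
    (hxz : x * z₁ = z₁ * x) : x * z = z * x := by
  rw [hzd]
  calc x * (z₁ * c₁) = (x * z₁) * c₁ := by group
    _ = (z₁ * x) * c₁ := by rw [hxz]
    _ = z₁ * (x * c₁) := by group
    _ = z₁ * (c₁ * x) := by rw [hc₁ x hx]
    _ = z₁ * c₁ * x := by group

theorem PairCtx.elt_mem (P : PairCtx Q z M L u) {z₁ c₁ : G}
    (hc₁ : ∀ y ∈ L, c₁ * y = y * c₁) (hzd : z = z₁ * c₁) {x : G} (hx : x ∈ L)
    (hxz : x * z₁ = z₁ * x) : x * (u * x⁻¹ * u⁻¹) ∈ Q := by
  have h1 : x * u * x⁻¹ ∈ Q := P.X.core.hN x (P.cent_z hc₁ hzd hx hxz) u P.hu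
  have e : x * (u * x⁻¹ * u⁻¹) = (x * u * x⁻¹) * u⁻¹ := by group
  rw [e]; exact Q.mul_mem h1 (Q.inv_mem P.hu)

theorem PairCtx.sq_mem (P : PairCtx Q z M L u) {z₁ c₁ : G} (hz₁ : z₁ ∈ L)
    (hc₁ : ∀ y ∈ L, c₁ * y = y * c₁) (hzd : z = z₁ * c₁) {x : G} (hx : x ∈ L)
    (hxz : x * z₁ = z₁ * x) : x * x = 1 ∨ x * x = z₁ := by
  obtain ⟨y, hy⟩ : ∃ y, y = u * x⁻¹ * u⁻¹ := ⟨_, rfl⟩
  have hyL : y ∈ L.map (MulAut.conj u).toMonoidHom := by
    rw [hy]; exact conj_mem_map_conj (L.inv_mem hx)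
  have haQ : x * y ∈ Q := by rw [hy]; exact P.elt_mem hc₁ hzd hx hxz
  have hxy : x * y = y * x := P.conj_comm x hx y hyL
  have hsq : (x * y) * (x * y) = (x * x) * (y * y) := by
    calc (x * y) * (x * y) = x * (y * x) * y := by group
      _ = x * (x * y) * y := by rw [hxy]
      _ = (x * x) * (y * y) := by group
  have hyy : ∀ w ∈ L, (y * y) * w = w * (y * y) := by
    intro w hw
    exact (P.conj_comm w hw (y * y) (Subgroup.mul_mem _ hyL hyL)).symm
  rcases P.X.core.d.sq_mem haQ with h | h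
  · left
    apply P.X.comp_unique (c := y * y) (c' := 1) P.hL (L.mul_mem hx hx) L.one_mem hyy
      (fun w _ => by simp)
    rw [← hsq, h]; simp
  · right
    apply P.X.comp_unique (c := y * y) (c' := c₁) P.hL (L.mul_mem hx hx) hz₁ hyy hc₁
    rw [← hsq, h, hzd]

theorem PairCtx.z₁_sq (P : PairCtx Q z M L u) {z₁ c₁ : G} (hz₁ : z₁ ∈ L)
    (hc₁ : ∀ y ∈ L, c₁ * y = y * c₁) (hzd : z = z₁ * c₁) : z₁ * z₁ = 1 := by
  rcases P.sq_mem hz₁ hc₁ hzd hz₁ rfl with h | h
  · exact h
  · have h1 : z₁ = 1 := by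
      calc z₁ = z₁⁻¹ * (z₁ * z₁) := by group
        _ = z₁⁻¹ * z₁ := by rw [h]
        _ = 1 := by group
    rw [h1]; simp

theorem PairCtx.pow_four (P : PairCtx Q z M L u) {z₁ c₁ : G} (hz₁ : z₁ ∈ L)
    (hc₁ : ∀ y ∈ L, c₁ * y = y * c₁) (hzd : z = z₁ * c₁) {x : G} (hx : x ∈ L)
    (hxz : x * z₁ = z₁ * x) : x ^ 4 = 1 := by
  have e : x ^ 4 = (x * x) * (x * x) := by
    rw [show (4 : ℕ) = 2 + 2 from rfl, pow_add, pow_two]
  rw [e]
  rcases P.sq_mem hz₁ hc₁ hzd hx hxz with h | h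
  · rw [h]; simp
  · rw [h]; exact P.z₁_sq hz₁ hc₁ hzd

/-- No element of `Q` moves `L` to a third component. -/
theorem PairCtx.no_third (P : PairCtx Q z M L u) {z₁ c₁ : G} (hz₁ : z₁ ∈ L)
    (hc₁ : ∀ y ∈ L, c₁ * y = y * c₁) (hzd : z = z₁ * c₁) {q : G} (hq : q ∈ Q)
    (hq1 : L.map (MulAut.conj q).toMonoidHom ≠ L)
    (hq2 : L.map (MulAut.conj q).toMonoidHom ≠ L.map (MulAut.conj u).toMonoidHom) : False := by
  have hL := P.hL
  have hcq := isComponent_map_equiv (MulAut.conj q) hL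
  have hcu := isComponent_map_equiv (MulAut.conj u) hL
  have hcqu := isComponent_map_equiv (MulAut.conj (q * u)) hL
  have hq3 : L.map (MulAut.conj (q * u)).toMonoidHom ≠ L := by
    intro heq
    apply hq2
    have hqq : q * q ∈ M := by
      rcases P.X.core.d.sq_mem hq with h | h
      · rw [h]; exact M.one_mem
      · rw [h]; exact P.X.hzM
    ext x
    rw [mem_map_conj, mem_map_conj]
    have h1 : q * x * q⁻¹ ∈ L ↔ u⁻¹ * x * u ∈ L := by
      have h2 : q * x * q⁻¹ ∈ L.map (MulAut.conj (q * u)).toMonoidHom ↔ u⁻¹ * x * u ∈ L := by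
        rw [mem_map_conj]
        have e : (q * u)⁻¹ * (q * x * q⁻¹) * (q * u) = u⁻¹ * x * u := by group
        rw [e]
      rw [heq] at h2; exact h2
    have h3 : q⁻¹ * x * q ∈ L ↔ q * x * q⁻¹ ∈ L := by
      have h4 := P.X.comp_norm hL hqq (l := q⁻¹ * x * q)
      have e : (q * q) * (q⁻¹ * x * q) * (q * q)⁻¹ = q * x * q⁻¹ := by group
      rw [e] at h4; exact h4
    rw [h3, h1]
  apply P.X.cent_small_false hL hz₁
  intro x hx hxz
  obtain ⟨y, hy⟩ : ∃ y, y = u * x⁻¹ * u⁻¹ := ⟨_, rfl⟩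
  have hyL : y ∈ L.map (MulAut.conj u).toMonoidHom := by
    rw [hy]; exact conj_mem_map_conj (L.inv_mem hx)
  have haQ : x * y ∈ Q := by rw [hy]; exact P.elt_mem hc₁ hzd hx hxz
  obtain ⟨c, hc⟩ : ∃ c, c = (q * x * q⁻¹) * (q * y * q⁻¹) * y⁻¹ := ⟨_, rfl⟩
  have hcL : ∀ w ∈ L, c * w = w * c := by
    intro w hw
    have e1 : Commute (q * x * q⁻¹) w := comp_comm hcq hL hq1 _ (conj_mem_map_conj hx) w hw
    have e2 : Commute (q * y * q⁻¹) w := by
      have hmem : q * y * q⁻¹ ∈ L.map (MulAut.conj (q * u)).toMonoidHom := by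
        rw [mem_map_conj, hy]
        have e : (q * u)⁻¹ * (q * (u * x⁻¹ * u⁻¹) * q⁻¹) * (q * u) = x⁻¹ := by group
        rw [e]; exact L.inv_mem hx
      exact comp_comm hcqu hL hq3 _ hmem w hw
    have e3 : Commute y⁻¹ w := comp_comm hcu hL P.hne _ (Subgroup.inv_mem _ hyL) w hw
    rw [hc]; exact ((e1.mul_left e2).mul_left e3).eq
  have hb : q * (x * y) * q⁻¹ * (x * y)⁻¹ = x⁻¹ * c := by
    have h1 := hcL x⁻¹ (L.inv_mem hx)
    rw [← h1, hc]; group
  have hxinv : x⁻¹ = 1 ∨ x⁻¹ = z₁ := by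
    rcases P.X.core.d.hk q hq (x * y) haQ with h | h
    · left
      apply P.X.comp_unique (c := c) (c' := 1) hL (L.inv_mem hx) L.one_mem hcL
        (fun w _ => by simp)
      rw [← hb, h]; simp
    · right
      apply P.X.comp_unique (c := c) (c' := c₁) hL (L.inv_mem hx) hz₁ hcL hc₁
      rw [← hb, h, hzd]
  exact inv_cases (P.z₁_sq hz₁ hc₁ hzd) hxinv

/-- `M` is the product of `L` and its conjugate under `u`. -/
theorem PairCtx.sup_eq (P : PairCtx Q z M L u) :
    L ⊔ L.map (MulAut.conj u).toMonoidHom = M := by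
  have hL := P.hL
  have hcu := isComponent_map_equiv (MulAut.conj u) hL
  obtain ⟨D, hD⟩ : ∃ D, D = L ⊔ L.map (MulAut.conj u).toMonoidHom := ⟨_, rfl⟩
  rw [← hD]
  have hDM : D ≤ M := by rw [hD]; exact sup_le (P.X.comp_le hL) (P.X.comp_le hcu)
  by_contra hne
  obtain ⟨z₁, hz₁, c₁, hc₁M, hc₁, hzd⟩ := P.X.comp_dec hL P.X.hzM
  by_cases hinv : ∀ q ∈ Q, ∀ d ∈ D, q * d * q⁻¹ ∈ D
  · have hex : ∃ K : Subgroup G, Cfsg.IsComponent K ∧ ¬ K ≤ D := by
      by_contra hall
      push Not at hall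
      apply hne
      apply le_antisymm hDM
      rw [← P.X.hlayer, layer_le_iff]
      exact hall
    obtain ⟨K, hK, hKD⟩ := hex
    have hKL : K ≠ L := by
      intro h; apply hKD; rw [hD, h]; exact le_sup_left
    have hKu : K ≠ L.map (MulAut.conj u).toMonoidHom := by
      intro h; apply hKD; rw [hD, h]; exact le_sup_right
    have hKX : K ≤ M ⊓ Subgroup.centralizer (D : Set G) := by
      refine le_inf (P.X.comp_le hK) ?_
      intro k hk
      rw [hD, mem_centralizer_sup]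
      exact ⟨fun a ha => (comp_comm hK hL hKL k hk a ha).symm,
        fun b hb => (comp_comm hK hcu hKu k hk b hb).symm⟩
    have hXne : M ⊓ Subgroup.centralizer (D : Set G) ≠ ⊥ := by
      intro hbot
      rw [hbot] at hKX
      exact IsComponent.ne_bot hK (le_bot_iff.mp hKX)
    have hzX : z ∈ M ⊓ Subgroup.centralizer (D : Set G) := by
      apply P.X.core.mem_of_invariant _ hXne
      intro q hq x hx
      refine Subgroup.mem_inf.mpr ⟨P.X.hMn.conj_mem x (Subgroup.mem_inf.mp hx).1 q, ?_⟩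
      rw [Subgroup.mem_centralizer_iff]
      intro d hd
      have h1 : q⁻¹ * d * q ∈ D := by
        have h := hinv q⁻¹ (Q.inv_mem hq) d hd
        rwa [inv_inv] at h
      have h2 := Subgroup.mem_centralizer_iff.mp (Subgroup.mem_inf.mp hx).2 _ h1
      calc d * (q * x * q⁻¹) = q * ((q⁻¹ * d * q) * x) * q⁻¹ := by group
        _ = q * (x * (q⁻¹ * d * q)) * q⁻¹ := by rw [h2]
        _ = q * x * q⁻¹ * d := by group
    have hzc : ∀ y ∈ L, z * y = y * z := by
      intro y hy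
      have hyD : y ∈ D := by rw [hD]; exact Subgroup.mem_sup_left hy
      exact (Subgroup.mem_centralizer_iff.mp (Subgroup.mem_inf.mp hzX).2 y hyD).symm
    apply comp_not_comm hL
    have hsq : ∀ x ∈ L, x * x = 1 := by
      intro x hx
      rcases P.sq_mem (z₁ := 1) (c₁ := z) L.one_mem hzc (by simp) hx (by simp) with h | h <;>
        exact h
    intro a ha b hb
    exact comm_of_sq_eq_one (hsq a ha) (hsq b hb) (hsq _ (L.mul_mem ha hb))
  · push Not at hinv
    obtain ⟨q, hq, d, hd, hqd⟩ := hinv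
    rw [hD] at hd
    obtain ⟨l, hl, l', hl', hde⟩ := mem_sup_of_comm P.conj_comm hd
    have hsplit : q * l * q⁻¹ ∉ D ∨ q * l' * q⁻¹ ∉ D := by
      by_contra hboth
      push Not at hboth
      apply hqd
      have e : q * d * q⁻¹ = (q * l * q⁻¹) * (q * l' * q⁻¹) := by rw [hde]; group
      rw [e]; exact D.mul_mem hboth.1 hboth.2
    rcases hsplit with h | h
    · apply P.no_third hz₁ hc₁ hzd hq
      · intro heq
        apply h
        have h5 := conj_mem_map_conj (s := q) hl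
        rw [heq] at h5
        rw [hD]; exact Subgroup.mem_sup_left h5
      · intro heq
        apply h
        have h5 := conj_mem_map_conj (s := q) hl
        rw [heq] at h5
        rw [hD]; exact Subgroup.mem_sup_right h5
    · have hmem : q * l' * q⁻¹ ∈ L.map (MulAut.conj (q * u)).toMonoidHom := by
        rw [mem_map_conj]
        have e : (q * u)⁻¹ * (q * l' * q⁻¹) * (q * u) = u⁻¹ * l' * u := by group
        rw [e]; exact mem_map_conj.mp hl'
      apply P.no_third hz₁ hc₁ hzd (Q.mul_mem hq P.hu)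
      · intro heq
        apply h
        rw [heq] at hmem
        rw [hD]; exact Subgroup.mem_sup_left hmem
      · intro heq
        apply h
        rw [heq] at hmem
        rw [hD]; exact Subgroup.mem_sup_right hmem

/-- `z` is the product of its `L`-part and the `u`-conjugate of that. -/
theorem PairCtx.z_eq (P : PairCtx Q z M L u) : ∃ z₁ ∈ L, z = z₁ * (u * z₁ * u⁻¹) := by
  have hL := P.hL
  have hzD : z ∈ L ⊔ L.map (MulAut.conj u).toMonoidHom := by rw [P.sup_eq]; exact P.X.hzM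
  obtain ⟨l, hl, l', hl', hze⟩ := mem_sup_of_comm P.conj_comm hzD
  refine ⟨l, hl, ?_⟩
  have huu : u * u ∈ M := by
    rcases P.X.core.d.sq_mem P.hu with h | h
    · rw [h]; exact M.one_mem
    · rw [h]; exact P.X.hzM
  have h1 : u * l' * u⁻¹ ∈ L := by
    have h2 := (P.X.comp_norm hL huu (l := u⁻¹ * l' * u)).mp (mem_map_conj.mp hl')
    have e : (u * u) * (u⁻¹ * l' * u) * (u * u)⁻¹ = u * l' * u⁻¹ := by group
    rwa [e] at h2
  have h3 : u * l * u⁻¹ ∈ L.map (MulAut.conj u).toMonoidHom := conj_mem_map_conj hl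
  have hzu : u * z * u⁻¹ = z := by
    have h := P.X.core.d.hzc u P.hu
    calc u * z * u⁻¹ = (z * u) * u⁻¹ := by rw [h]
      _ = z := by group
  have h4 : l * l' = (u * l' * u⁻¹) * (u * l * u⁻¹) := by
    calc l * l' = z := hze.symm
      _ = u * z * u⁻¹ := hzu.symm
      _ = u * (l * l') * u⁻¹ := by rw [← hze]
      _ = (u * l * u⁻¹) * (u * l' * u⁻¹) := by group
      _ = (u * l' * u⁻¹) * (u * l * u⁻¹) := (P.conj_comm _ h1 _ h3).symm
  have hcl' : ∀ y ∈ L, l' * y = y * l' := fun y hy => (P.conj_comm y hy l' hl').symm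
  have hc3 : ∀ y ∈ L, (u * l * u⁻¹) * y = y * (u * l * u⁻¹) :=
    fun y hy => (P.conj_comm y hy _ h3).symm
  have h5 : l = u * l' * u⁻¹ := P.X.comp_unique hL hl h1 hcl' hc3 h4
  have h6 : l' = u * l * u⁻¹ := by
    have h7 : l * l' = l * (u * l * u⁻¹) := by rw [h4, ← h5]
    exact mul_left_cancel h7
  rw [hze, ← h6]

end Cfsg.Agent.Lib.Helper30
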