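import Mathlib
import Cfsg.Prelude.Def_MonsterType
import Cfsg.Agent.Lib.Helper30.Struct3

/-!
Structure of finite groups with a large extraspecial 2-subgroup, part 4: the Sylow 2-subgroup
of a component and the comparison of `Q` with `O_2(C(z))`.
-/

set_option autoImplicit false

namespace Cfsg.Agent.Lib.Helper30

open Cfsg.Agent.Lib.Helper22

universe u

variable {G : Type u} [Group G] [Finite G]

variable {Q : Subgroup G} {z : G} {M L : Subgroup G} {u : G}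

/-- The centralizer of `z₁` in `L` is a Sylow 2-subgroup of `L` whose Frattini subgroup lies
in `⟨z₁⟩`. -/
theorem PairCtx.sylow (P : PairCtx Q z M L u) {z₁ c₁ : G} (hz₁ : z₁ ∈ L)
    (hc₁ : ∀ y ∈ L, c₁ * y = y * c₁) (hzd : z = z₁ * c₁) :
    ∃ R : Sylow 2 ↥L, (R : Subgroup ↥L) = (Subgroup.centralizer ({z₁} : Set G)).subgroupOf L ∧
      (frattini ↥(R : Subgroup ↥L)).map ((L.subtype).comp (R : Subgroup ↥L).subtype) ≤
        Subgroup.zpowers z₁ := by
  haveI hp2 : Fact (Nat.Prime 2) := ⟨Nat.prime_two⟩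
  have hL := P.hL
  obtain ⟨S, hQS⟩ := P.X.core.hQ2.exists_le_sylow
  have hzS : ∀ s ∈ (S : Subgroup G), s * z = z * s := by
    have hzSm : z ∈ (S : Subgroup G) := hQS P.X.core.d.hzQ
    haveI : Nontrivial ↥(S : Subgroup G) :=
      ⟨⟨⟨z, hzSm⟩, 1, fun hh => P.X.core.d.hz1 (congrArg Subtype.val hh)⟩⟩
    haveI := S.isPGroup'.center_nontrivial
    obtain ⟨c, hc1⟩ := exists_ne (1 : ↥(Subgroup.center ↥(S : Subgroup G)))
    have hcc := Subgroup.mem_center_iff.mp c.2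
    have h1 : ∀ q ∈ Q, ((c : ↥(S : Subgroup G)) : G) * q = q * ((c : ↥(S : Subgroup G)) : G) := by
      intro q hq
      have h2 := congrArg (fun w : ↥(S : Subgroup G) => (w : G)) (hcc ⟨q, hQS hq⟩)
      exact h2.symm
    have h3 : ((c : ↥(S : Subgroup G)) : G) = z := by
      rcases P.X.core.hC _ h1 with h4 | h4
      · exfalso; apply hc1; apply Subtype.ext; apply Subtype.ext; exact h4
      · exact h4
    intro s hs
    have h2 := congrArg (fun w : ↥(S : Subgroup G) => (w : G)) (hcc ⟨s, hs⟩)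
    have h5 : s * ((c : ↥(S : Subgroup G)) : G) = ((c : ↥(S : Subgroup G)) : G) * s := h2
    rw [h3] at h5; exact h5
  obtain ⟨R, hR⟩ := Cfsg.Agent.Lib.Helper49.exists_sylow_inf_subnormal S L hL.1
  have hpg : IsPGroup 2 ↥((Subgroup.centralizer ({z₁} : Set G)).subgroupOf L) := by
    rintro ⟨x, hx⟩
    have h4 : (x : G) ^ 4 = 1 :=
      P.pow_four hz₁ hc₁ hzd x.2 (mem_cent_sing.mp (Subgroup.mem_subgroupOf.mp hx))
    have h5 : x ^ 4 = 1 := Subtype.ext (by rw [Subgroup.coe_pow]; exact h4)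
    refine ⟨2, Subtype.ext ?_⟩
    rw [Subgroup.coe_pow]
    exact h5
  have hle : (R : Subgroup ↥L) ≤ (Subgroup.centralizer ({z₁} : Set G)).subgroupOf L := by
    rw [hR]
    intro x hx
    rw [Subgroup.mem_subgroupOf] at hx ⊢
    rw [mem_cent_sing]
    have h1 := hzS _ hx
    rw [hzd] at h1
    have h2 := hc₁ x x.2
    apply mul_right_cancel (b := c₁)
    calc (x : G) * z₁ * c₁ = (x : G) * (z₁ * c₁) := by group
      _ = z₁ * c₁ * (x : G) := h1
      _ = z₁ * (c₁ * (x : G)) := by group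
      _ = z₁ * ((x : G) * c₁) := by rw [h2]
      _ = z₁ * (x : G) * c₁ := by group
  have hReq : (R : Subgroup ↥L) = (Subgroup.centralizer ({z₁} : Set G)).subgroupOf L :=
    (R.is_maximal' hpg hle).symm
  refine ⟨R, hReq, ?_⟩
  obtain ⟨ψ, hψ⟩ : ∃ ψ : ↥(R : Subgroup ↥L) →* G,
      ψ = (L.subtype).comp (R : Subgroup ↥L).subtype := ⟨_, rfl⟩
  rw [← hψ]
  have hψL : ∀ r, ψ r ∈ L := fun r => by rw [hψ]; exact (r : ↥L).2
  have hψz : ∀ r, ψ r * z₁ = z₁ * ψ r := by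
    intro r
    have h1 : (r : ↥L) ∈ (Subgroup.centralizer ({z₁} : Set G)).subgroupOf L := by
      rw [← hReq]; exact r.2
    rw [hψ]
    exact mem_cent_sing.mp (Subgroup.mem_subgroupOf.mp h1)
  have hz1sq := P.z₁_sq hz₁ hc₁ hzd
  obtain ⟨N₁, hN₁⟩ : ∃ N₁ : Subgroup ↥(R : Subgroup ↥L),
      N₁ = (Subgroup.zpowers z₁).comap ψ := ⟨_, rfl⟩
  have hN₁mem : ∀ r, r ∈ N₁ ↔ ψ r = 1 ∨ ψ r = z₁ := by
    intro r; rw [hN₁, Subgroup.mem_comap, mem_zpowers_of_sq hz1sq]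
  haveI hN₁n : N₁.Normal := by
    constructor
    intro n hn g
    rw [hN₁mem] at hn ⊢
    rw [map_mul, map_mul, map_inv]
    rcases hn with h | h
    · left; rw [h]; group
    · right; rw [h, hψz g]; group
  have hsq : ∀ r : ↥(R : Subgroup ↥L),
      QuotientGroup.mk' N₁ r * QuotientGroup.mk' N₁ r = 1 := by
    intro r
    rw [← map_mul]
    show ((r * r : ↥(R : Subgroup ↥L)) : ↥(R : Subgroup ↥L) ⧸ N₁) = 1
    rw [QuotientGroup.eq_one_iff, hN₁mem, map_mul]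
    exact P.sq_mem hz₁ hc₁ hzd (hψL r) (hψz r)
  have hker := Cfsg.Agent.Lib.Helper47.frattini_le_ker_of_elementary (p := 2)
    (QuotientGroup.mk' N₁)
    (fun a b => comm_of_sq_eq_one (hsq a) (hsq b) (by rw [← map_mul]; exact hsq (a * b)))
    (fun a => by rw [pow_two]; exact hsq a)
  rw [QuotientGroup.ker_mk'] at hker
  rw [Subgroup.map_le_iff_le_comap, ← hN₁]
  exact hker

/-- `Q` is not the largest normal 2-subgroup of the centralizer of `z`. -/
theorem PairCtx.ne_pCore (P : PairCtx Q z M L u) {z₁ : G} (hz₁ : z₁ ∈ L)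
    (hzd : z = z₁ * (u * z₁ * u⁻¹)) :
    Q ≠ (Cfsg.pCore 2 ↥(Subgroup.centralizer ({z} : Set G))).map
      (Subgroup.centralizer ({z} : Set G)).subtype := by
  intro hQeq
  haveI hp2 : Fact (Nat.Prime 2) := ⟨Nat.prime_two⟩
  have hL := P.hL
  have hc₁ : ∀ y ∈ L, (u * z₁ * u⁻¹) * y = y * (u * z₁ * u⁻¹) :=
    fun y hy => (P.conj_comm y hy _ (conj_mem_map_conj hz₁)).symm
  have hn : (M.subgroupOf (Subgroup.centralizer ({z} : Set G))).Normal :=
    P.X.hMn.subgroupOf _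
  have hpg : IsPGroup 2 ↥(M.subgroupOf (Subgroup.centralizer ({z} : Set G))) := by
    rintro ⟨y, hy⟩
    rw [Subgroup.mem_subgroupOf] at hy
    have hyz : (y : G) * z = z * (y : G) := mem_cent_sing.mp y.2
    have hyD : (y : G) ∈ L ⊔ L.map (MulAut.conj u).toMonoidHom := by rw [P.sup_eq]; exact hy
    obtain ⟨l, hl, l', hl', hye⟩ := mem_sup_of_comm P.conj_comm hyD
    have hll' : l * l' = l' * l := P.conj_comm l hl l' hl'
    have hl'z₁ : l' * z₁ = z₁ * l' := (P.conj_comm z₁ hz₁ l' hl').symm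
    have hlc : l * (u * z₁ * u⁻¹) = (u * z₁ * u⁻¹) * l := (hc₁ l hl).symm
    have h1 : (l * z₁) * (l' * (u * z₁ * u⁻¹)) = (z₁ * l) * ((u * z₁ * u⁻¹) * l') := by
      calc (l * z₁) * (l' * (u * z₁ * u⁻¹)) = l * (z₁ * l') * (u * z₁ * u⁻¹) := by group
        _ = l * (l' * z₁) * (u * z₁ * u⁻¹) := by rw [hl'z₁]
        _ = (l * l') * (z₁ * (u * z₁ * u⁻¹)) := by group
        _ = (z₁ * (u * z₁ * u⁻¹)) * (l * l') := by rw [← hzd, ← hye]; exact hyz
        _ = z₁ * ((u * z₁ * u⁻¹) * l) * l' := by group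
        _ = z₁ * (l * (u * z₁ * u⁻¹)) * l' := by rw [hlc]
        _ = (z₁ * l) * ((u * z₁ * u⁻¹) * l') := by group
    have hcA : ∀ w ∈ L, (l' * (u * z₁ * u⁻¹)) * w = w * (l' * (u * z₁ * u⁻¹)) :=
      fun w hw => (P.conj_comm w hw _
        (Subgroup.mul_mem _ hl' (conj_mem_map_conj hz₁))).symm
    have hcB : ∀ w ∈ L, ((u * z₁ * u⁻¹) * l') * w = w * ((u * z₁ * u⁻¹) * l') :=
      fun w hw => (P.conj_comm w hw _
        (Subgroup.mul_mem _ (conj_mem_map_conj hz₁) hl')).symm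
    have h2 : l * z₁ = z₁ * l :=
      P.X.comp_unique hL (L.mul_mem hl hz₁) (L.mul_mem hz₁ hl) hcA hcB h1
    have h3 : l' * (u * z₁ * u⁻¹) = (u * z₁ * u⁻¹) * l' := by
      rw [h2] at h1; exact mul_left_cancel h1
    have h4 : l ^ 4 = 1 := P.pow_four hz₁ hc₁ hzd hl h2
    have h5 : l' ^ 4 = 1 := by
      have hm : u⁻¹ * l' * u ∈ L := mem_map_conj.mp hl'
      have hmz : (u⁻¹ * l' * u) * z₁ = z₁ * (u⁻¹ * l' * u) := by
        calc (u⁻¹ * l' * u) * z₁ = u⁻¹ * (l' * (u * z₁ * u⁻¹)) * u := by group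
          _ = u⁻¹ * ((u * z₁ * u⁻¹) * l') * u := by rw [h3]
          _ = z₁ * (u⁻¹ * l' * u) := by group
      have h6 := P.pow_four hz₁ hc₁ hzd hm hmz
      have e : u⁻¹ * l' * u = (MulAut.conj u⁻¹) l' := by simp [MulAut.conj_apply]
      rw [e, ← map_pow] at h6
      exact (MulEquiv.map_eq_one_iff _).mp h6
    have h7 : (y : G) ^ 4 = 1 := by
      rw [hye, (show Commute l l' from hll').mul_pow, h4, h5, one_mul]
    have h8 : y ^ 4 = 1 := Subtype.ext (by rw [Subgroup.coe_pow]; exact h7)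
    refine ⟨2, Subtype.ext ?_⟩
    rw [Subgroup.coe_pow]
    exact h8
  have hle := Cfsg.Agent.Lib.Helper55.le_pCore hn hpg
  have hMQ : ∀ x ∈ M, x * z = z * x → x ∈ Q := by
    intro x hx hxz
    rw [hQeq]
    exact ⟨⟨x, mem_cent_sing.mpr hxz⟩, hle (Subgroup.mem_subgroupOf.mpr hx), rfl⟩
  apply P.X.cent_small_false hL hz₁
  intro x hx hxz
  have hxQ : x ∈ Q := hMQ x (P.X.comp_le hL hx) (P.cent_z hc₁ hzd hx hxz)
  have hcL : ∀ w ∈ L, (u * x * u⁻¹) * w = w * (u * x * u⁻¹) :=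
    fun w hw => (P.conj_comm w hw _ (conj_mem_map_conj hx)).symm
  have hb : u * x * u⁻¹ * x⁻¹ = x⁻¹ * (u * x * u⁻¹) := hcL x⁻¹ (L.inv_mem hx)
  have hxinv : x⁻¹ = 1 ∨ x⁻¹ = z₁ := by
    rcases P.X.core.d.hk u P.hu x hxQ with h | h
    · left
      apply P.X.comp_unique (c := u * x * u⁻¹) (c' := 1) hL (L.inv_mem hx) L.one_mem hcL
        (fun w _ => by simp)
      rw [← hb, h]; simp
    · right
      apply P.X.comp_unique (c := u * x * u⁻¹) (c' := u * z₁ * u⁻¹) hL (L.inv_mem hx) hz₁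
        hcL hc₁
      rw [← hb, h, hzd]
  exact inv_cases (P.z₁_sq hz₁ hc₁ hzd) hxinv

end Cfsg.Agent.Lib.Helper30
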