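import Mathlib
import Cfsg.Prelude.Def_ClassificationK
import Cfsg.Agent.S0093
import Cfsg.Agent.S1755
import Cfsg.Agent.Lib.Helper2.FrattiniP

/-!
2-groups of symplectic type and exponent dividing 4 have commutator subgroup of order at most 2
(a fragment of P. Hall's theorem, proved from Thompson's critical subgroup).
-/

set_option autoImplicit false

namespace Cfsg.Agent.Lib.Helper30

open scoped commutatorElement

/-- In a 2-group of symplectic type, the only central involution is `ζ`. -/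
theorem symp_center_inv {T : Type*} [Group T] [Finite T] (hT : Cfsg.IsOfSymplecticType T)
    (ζ : T) (hζc : ∀ x : T, ζ * x = x * ζ) (hζ1 : ζ ≠ 1) (hζζ : ζ * ζ = 1) :
    ∀ c : T, (∀ x, c * x = x * c) → c * c = 1 → c = 1 ∨ c = ζ := by
  haveI hp2 : Fact (Nat.Prime 2) := ⟨Nat.prime_two⟩
  intro c hc hcc
  by_cases hc1 : c = 1
  · exact Or.inl hc1
  right
  have hcomm : IsMulCommutative ↥(Subgroup.center T) := inferInstance
  haveI hcyc : IsCyclic ↥(Subgroup.center T) := hT.2 _ inferInstance hcomm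
  have hcZ : c ∈ Subgroup.center T := by
    rw [Subgroup.mem_center_iff]; intro g; exact (hc g).symm
  have hζZ : ζ ∈ Subgroup.center T := by
    rw [Subgroup.mem_center_iff]; intro g; exact (hζc g).symm
  have h1 : orderOf (⟨c, hcZ⟩ : ↥(Subgroup.center T)) = 2 := by
    apply orderOf_eq_prime
    · apply Subtype.ext
      rw [pow_two]; exact hcc
    · intro h; exact hc1 (congrArg Subtype.val h)
  have h2 : orderOf (⟨ζ, hζZ⟩ : ↥(Subgroup.center T)) = 2 := by
    apply orderOf_eq_prime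
    · apply Subtype.ext
      rw [pow_two]; exact hζζ
    · intro h; exact hζ1 (congrArg Subtype.val h)
  exact congrArg Subtype.val (Cfsg.Agent.S1755.involution_unique_of_isCyclic h1 h2)

/-- In a 2-group of symplectic type in which every element has order dividing 4, every
commutator is `1` or the central involution `ζ`. -/
theorem symp_comm {T : Type*} [Group T] [Finite T] (hT : Cfsg.IsOfSymplecticType T)
    (h4 : ∀ x : T, x ^ 4 = 1) (ζ : T) (hζc : ∀ x : T, ζ * x = x * ζ) (hζ1 : ζ ≠ 1)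
    (hζζ : ζ * ζ = 1) : ∀ x y : T, x * y * x⁻¹ * y⁻¹ = 1 ∨ x * y * x⁻¹ * y⁻¹ = ζ := by
  haveI hp2 : Fact (Nat.Prime 2) := ⟨Nat.prime_two⟩
  have hpow4 : ∀ x : T, (x * x) * (x * x) = 1 := by
    intro x
    have h := h4 x
    rw [show (4 : ℕ) = 2 + 2 from rfl, pow_add, pow_two] at h
    exact h
  have hζi : ζ⁻¹ = ζ := by rw [inv_eq_iff_mul_eq_one]; exact hζζ
  obtain ⟨C, hCchar, hCfr, hCcomm, hCcent⟩ := Cfsg.Agent.S0093.result (p := 2) hT.1
  haveI := hCchar
  obtain ⟨A, hA⟩ : ∃ A : Subgroup T, A = Subgroup.centralizer (C : Set T) := ⟨_, rfl⟩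
  have hAC : A ≤ C := by rw [hA]; exact hCcent
  have hAmem : ∀ a, a ∈ A ↔ ∀ x ∈ C, x * a = a * x := by
    intro a; rw [hA, Subgroup.mem_centralizer_iff]; exact Iff.rfl
  have hAchar : A.Characteristic := by rw [hA]; infer_instance
  haveI hAn : A.Normal := Subgroup.normal_of_characteristic A
  have hAcomm : ∀ a ∈ A, ∀ b ∈ A, a * b = b * a :=
    fun a ha b hb => (hAmem b).1 hb a (hAC ha)
  have hAmc : IsMulCommutative ↥A := ⟨⟨fun a b => Subtype.ext (hAcomm a a.2 b b.2)⟩⟩
  haveI hAcyc : IsCyclic ↥A := hT.2 A hAchar hAmc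
  have hζA : ζ ∈ A := (hAmem ζ).2 (fun x _ => (hζc x).symm)
  -- involutions of `A`
  have hc' : ∀ w ∈ A, w * w = 1 → w = 1 ∨ w = ζ := by
    intro w hw hww
    by_cases hw1 : w = 1
    · exact Or.inl hw1
    right
    have h1 : orderOf (⟨w, hw⟩ : ↥A) = 2 := by
      apply orderOf_eq_prime
      · apply Subtype.ext
        rw [pow_two]; exact hww
      · intro h; exact hw1 (congrArg Subtype.val h)
    have h2 : orderOf (⟨ζ, hζA⟩ : ↥A) = 2 := by
      apply orderOf_eq_prime
      · apply Subtype.ext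
        rw [pow_two]; exact hζζ
      · intro h; exact hζ1 (congrArg Subtype.val h)
    exact congrArg Subtype.val (Cfsg.Agent.S1755.involution_unique_of_isCyclic h1 h2)
  have hc : ∀ a ∈ A, a * a = 1 ∨ a * a = ζ :=
    fun a ha => hc' (a * a) (A.mul_mem ha ha) (hpow4 a)
  -- the action of `T` on `A`
  have hFA : ∀ t : T, ∀ a ∈ A, t * a * t⁻¹ = a ∨ t * a * t⁻¹ = ζ * a := by
    intro t a ha
    have hb : t * a * t⁻¹ ∈ A := hAn.conj_mem a ha t
    have hw : t * a * t⁻¹ * a⁻¹ ∈ A := A.mul_mem hb (A.inv_mem ha)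
    have hbb : (t * a * t⁻¹) * (t * a * t⁻¹) = a * a := by
      have e : (t * a * t⁻¹) * (t * a * t⁻¹) = t * (a * a) * t⁻¹ := by group
      rw [e]
      rcases hc a ha with h | h
      · rw [h]; group
      · rw [h, ← hζc t]; group
    have hww : (t * a * t⁻¹ * a⁻¹) * (t * a * t⁻¹ * a⁻¹) = 1 := by
      have e1 := hAcomm a⁻¹ (A.inv_mem ha) (t * a * t⁻¹) hb
      calc (t * a * t⁻¹ * a⁻¹) * (t * a * t⁻¹ * a⁻¹)
          = (t * a * t⁻¹) * (a⁻¹ * (t * a * t⁻¹)) * a⁻¹ := by group
        _ = (t * a * t⁻¹) * ((t * a * t⁻¹) * a⁻¹) * a⁻¹ := by rw [e1]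
        _ = ((t * a * t⁻¹) * (t * a * t⁻¹)) * (a * a)⁻¹ := by group
        _ = 1 := by rw [hbb]; group
    rcases hc' _ hw hww with h | h
    · left
      calc t * a * t⁻¹ = (t * a * t⁻¹ * a⁻¹) * a := by group
        _ = a := by rw [h, one_mul]
    · right
      calc t * a * t⁻¹ = (t * a * t⁻¹ * a⁻¹) * a := by group
        _ = ζ * a := by rw [h]
  have hFA2 : ∀ t : T, ∀ a ∈ A, (t * t) * a = a * (t * t) := by
    intro t a ha
    have e : (t * t) * a * (t * t)⁻¹ = a := by
      have e0 : (t * t) * a * (t * t)⁻¹ = t * (t * a * t⁻¹) * t⁻¹ := by group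
      rw [e0]
      rcases hFA t a ha with h | h
      · rw [h]; exact h
      · rw [h]
        have e1 : t * (ζ * a) * t⁻¹ = (t * ζ) * a * t⁻¹ := by group
        rw [e1, ← hζc t]
        have e2 : ζ * t * a * t⁻¹ = ζ * (t * a * t⁻¹) := by group
        rw [e2, h, ← mul_assoc, hζζ, one_mul]
    calc (t * t) * a = ((t * t) * a * (t * t)⁻¹) * (t * t) := by group
      _ = a * (t * t) := by rw [e]
  -- commutators with `C` lie in `A`
  have hd : ∀ t : T, ∀ x ∈ C, t * x * t⁻¹ * x⁻¹ ∈ A := by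
    intro t x hx
    have h1 : ⁅x, t⁆ ∈ ⁅C, (⊤ : Subgroup T)⁆ :=
      Subgroup.commutator_mem_commutator hx (Subgroup.mem_top t)
    have h2 := (Subgroup.mem_inf.mp (hCcomm h1)).2
    rw [commutatorElement_def, ← hA] at h2
    have e : t * x * t⁻¹ * x⁻¹ = (x * t * x⁻¹ * t⁻¹)⁻¹ := by group
    rw [e]; exact A.inv_mem h2
  have hsqA : ∀ x ∈ C, x * x ∈ A := by
    intro x hx
    have h1 : (⟨x, hx⟩ : ↥C) ^ 2 ∈ frattini ↥C :=
      Cfsg.Agent.Lib.Helper2.pow_mem_frattini (hT.1.to_subgroup C) _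
    have h2 : ((⟨x, hx⟩ : ↥C) ^ 2 : ↥C).1 ∈ (frattini ↥C).map C.subtype := ⟨_, h1, rfl⟩
    have h3 := hCfr h2
    rw [← hA] at h3
    have e : ((⟨x, hx⟩ : ↥C) ^ 2 : ↥C).1 = x * x := by
      rw [Subgroup.coe_pow, pow_two]
    rw [e] at h3; exact h3
  -- commutators with `C` are `1` or `ζ`
  have hFC : ∀ t : T, ∀ x ∈ C, t * x * t⁻¹ * x⁻¹ = 1 ∨ t * x * t⁻¹ * x⁻¹ = ζ := by
    intro t x hx
    obtain ⟨a, ha⟩ : ∃ a, a = t * x * t⁻¹ * x⁻¹ := ⟨_, rfl⟩
    rw [← ha]
    have haA : a ∈ A := by rw [ha]; exact hd t x hx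
    rcases hc a haA with h | h
    · exact hc' a haA h
    · exfalso
      apply hζ1
      have hxa : x * a = a * x := (hAmem a).1 haA x hx
      have htx : t * x = a * x * t := by rw [ha]; group
      obtain ⟨a', ha'⟩ : ∃ a', a' = a * (x * x) := ⟨_, rfl⟩
      have ha'A : a' ∈ A := by rw [ha']; exact A.mul_mem haA (hsqA x hx)
      have e1 : (x * t) * (x * t) = a' * (t * t) := by
        calc (x * t) * (x * t) = x * (t * x) * t := by group
          _ = x * (a * x * t) * t := by rw [htx]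
          _ = (x * a) * x * (t * t) := by group
          _ = (a * x) * x * (t * t) := by rw [hxa]
          _ = a' * (t * t) := by rw [ha']; group
      have e2 : a' * a' = ζ := by
        have e3 := hAcomm (x * x) (hsqA x hx) a haA
        calc a' * a' = a * ((x * x) * a) * (x * x) := by rw [ha']; group
          _ = a * (a * (x * x)) * (x * x) := by rw [e3]
          _ = (a * a) * ((x * x) * (x * x)) := by group
          _ = ζ := by rw [h, hpow4 x, mul_one]
      have e4 := hpow4 (x * t)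
      rw [e1] at e4
      have e5 : (a' * (t * t)) * (a' * (t * t)) = (a' * a') * ((t * t) * (t * t)) := by
        calc (a' * (t * t)) * (a' * (t * t)) = a' * ((t * t) * a') * (t * t) := by group
          _ = a' * (a' * (t * t)) * (t * t) := by rw [hFA2 t a' ha'A]
          _ = (a' * a') * ((t * t) * (t * t)) := by group
      rw [e5, e2, hpow4 t, mul_one] at e4
      exact e4
  have hCn : C.Normal := Subgroup.normal_of_characteristic C
  -- the conjugation action on `C`
  have hG : ∀ t : T, ∀ x ∈ C, ∃ e : T, (e = 1 ∨ e = ζ) ∧ t * x * t⁻¹ = e * x := by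
    intro t x hx
    refine ⟨t * x * t⁻¹ * x⁻¹, hFC t x hx, by group⟩
  have hH : ∀ t t' : T, t⁻¹ * t'⁻¹ * t * t' ∈ A := by
    intro t t'
    rw [hAmem]
    intro x hx
    obtain ⟨e, he, hex⟩ := hG t x hx
    obtain ⟨e', he', hex'⟩ := hG t' x hx
    have hec : ∀ y : T, e * y = y * e := by
      rcases he with h | h
      · intro y; rw [h]; simp
      · intro y; rw [h]; exact hζc y
    have hec' : ∀ y : T, e' * y = y * e' := by
      rcases he' with h | h
      · intro y; rw [h]; simp
      · intro y; rw [h]; exact hζc y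
    have h1 : (t * t') * x * (t * t')⁻¹ = e * e' * x := by
      calc (t * t') * x * (t * t')⁻¹ = t * (t' * x * t'⁻¹) * t⁻¹ := by group
        _ = t * (e' * x) * t⁻¹ := by rw [hex']
        _ = (t * e') * x * t⁻¹ := by group
        _ = (e' * t) * x * t⁻¹ := by rw [hec' t]
        _ = e' * (t * x * t⁻¹) := by group
        _ = e' * (e * x) := by rw [hex]
        _ = (e' * e) * x := by group
        _ = e * e' * x := by rw [hec' e]
    have h2 : (t' * t) * x * (t' * t)⁻¹ = e * e' * x := by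
      calc (t' * t) * x * (t' * t)⁻¹ = t' * (t * x * t⁻¹) * t'⁻¹ := by group
        _ = t' * (e * x) * t'⁻¹ := by rw [hex]
        _ = (t' * e) * x * t'⁻¹ := by group
        _ = (e * t') * x * t'⁻¹ := by rw [hec t']
        _ = e * (t' * x * t'⁻¹) := by group
        _ = e * (e' * x) := by rw [hex']
        _ = e * e' * x := by group
    have h3 : (t * t') * x * (t * t')⁻¹ = (t' * t) * x * (t' * t)⁻¹ := by rw [h1, h2]
    calc x * (t⁻¹ * t'⁻¹ * t * t')
        = (t' * t)⁻¹ * ((t' * t) * x * (t' * t)⁻¹) * (t * t') := by group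
      _ = (t' * t)⁻¹ * ((t * t') * x * (t * t')⁻¹) * (t * t') := by rw [h3]
      _ = t⁻¹ * t'⁻¹ * t * t' * x := by group
  have hI : ∀ t : T, t * t ∈ A := by
    intro t
    rw [hAmem]
    intro x hx
    obtain ⟨e, he, hex⟩ := hG t x hx
    have hec : ∀ y : T, e * y = y * e := by
      rcases he with h | h
      · intro y; rw [h]; simp
      · intro y; rw [h]; exact hζc y
    have hee : e * e = 1 := by
      rcases he with h | h
      · rw [h]; simp
      · rw [h]; exact hζζ
    have h1 : (t * t) * x * (t * t)⁻¹ = x := by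
      calc (t * t) * x * (t * t)⁻¹ = t * (t * x * t⁻¹) * t⁻¹ := by group
        _ = t * (e * x) * t⁻¹ := by rw [hex]
        _ = (t * e) * x * t⁻¹ := by group
        _ = (e * t) * x * t⁻¹ := by rw [hec t]
        _ = e * (t * x * t⁻¹) := by group
        _ = e * (e * x) := by rw [hex]
        _ = (e * e) * x := by group
        _ = x := by rw [hee, one_mul]
    calc x * (t * t) = ((t * t) * x * (t * t)⁻¹) * (t * t) := by rw [h1]
      _ = (t * t) * x := by group
  -- the general commutator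
  intro t t'
  obtain ⟨κ, hκ⟩ : ∃ κ, κ = t * t' * t⁻¹ * t'⁻¹ := ⟨_, rfl⟩
  rw [← hκ]
  have hκA : κ ∈ A := by
    have h := hH t⁻¹ t'⁻¹
    rw [inv_inv, inv_inv] at h
    rw [hκ]; exact h
  rcases hc κ hκA with h | h
  · exact hc' κ hκA h
  · exfalso
    apply hζ1
    have htt' : t * t' = κ * t' * t := by rw [hκ]; group
    obtain ⟨e, he, hex⟩ : ∃ e : T, (e = 1 ∨ e = ζ) ∧ t' * κ = e * κ * t' := by
      rcases hFA t' κ hκA with h1 | h1
      · refine ⟨1, Or.inl rfl, ?_⟩
        calc t' * κ = (t' * κ * t'⁻¹) * t' := by group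
          _ = 1 * κ * t' := by rw [h1, one_mul]
      · refine ⟨ζ, Or.inr rfl, ?_⟩
        calc t' * κ = (t' * κ * t'⁻¹) * t' := by group
          _ = ζ * κ * t' := by rw [h1]
    have heA : e ∈ A := by
      rcases he with h1 | h1
      · rw [h1]; exact A.one_mem
      · rw [h1]; exact hζA
    have hee : e * e = 1 := by
      rcases he with h1 | h1
      · rw [h1]; simp
      · rw [h1]; exact hζζ
    obtain ⟨m, hm⟩ : ∃ m, m = e * κ * (t' * t') * (t * t) := ⟨_, rfl⟩
    have e1 : (t' * t) * (t' * t) = m := by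
      calc (t' * t) * (t' * t) = t' * (t * t') * t := by group
        _ = t' * (κ * t' * t) * t := by rw [htt']
        _ = (t' * κ) * t' * (t * t) := by group
        _ = (e * κ * t') * t' * (t * t) := by rw [hex]
        _ = m := by rw [hm]; group
    have c1 : Commute e κ := hAcomm e heA κ hκA
    have c2 : Commute (e * κ) (t' * t') := hAcomm _ (A.mul_mem heA hκA) _ (hI t')
    have c3 : Commute (e * κ * (t' * t')) (t * t) :=
      hAcomm _ (A.mul_mem (A.mul_mem heA hκA) (hI t')) _ (hI t)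
    have e2 : m * m = ζ := by
      have e3 : m * m = m ^ 2 := (pow_two m).symm
      rw [e3, hm, c3.mul_pow, c2.mul_pow, c1.mul_pow, pow_two, pow_two, pow_two, pow_two, hee, h,
        hpow4 t', hpow4 t]
      simp
    have e4 := hpow4 (t' * t)
    rw [e1, e2] at e4
    exact e4

end Cfsg.Agent.Lib.Helper30
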