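import Mathlib
import Cfsg.Agent.Lib.Helper30.LargeExtra3

/-!
Class-two 2-groups with cyclic centre and exponent dividing 4, as normal self-centralizing
subgroups of an involution centralizer: symmetry of fusion (`z ∈ g Q g⁻¹` whenever
`g z g⁻¹ ∈ Q`, `g z g⁻¹ ≠ z`).
-/

set_option autoImplicit false

namespace Cfsg.Agent.Lib.Helper30

variable {G : Type*} [Group G]

/-- Elementwise data of a 2-group `Q` of symplectic type and exponent dividing 4 which is a
normal self-centralizing subgroup of the centralizer of its central involution `z`. -/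
structure SympData (Q : Subgroup G) (z : G) : Prop where
  hzQ : z ∈ Q
  hz1 : z ≠ 1
  hzz : z * z = 1
  hzc : ∀ q ∈ Q, z * q = q * z
  hk : ∀ x ∈ Q, ∀ y ∈ Q, x * y * x⁻¹ * y⁻¹ = 1 ∨ x * y * x⁻¹ * y⁻¹ = z
  hinv : ∀ c ∈ Q, (∀ q ∈ Q, c * q = q * c) → c * c = 1 → c = 1 ∨ c = z
  h4 : ∀ x ∈ Q, (x * x) * (x * x) = 1
  hN : ∀ c : G, c * z = z * c → ∀ q ∈ Q, c * q * c⁻¹ ∈ Q
  hC : ∀ c : G, (∀ q ∈ Q, c * q = q * c) → c ∈ Q

namespace SympData

variable {Q : Subgroup G} {z : G}

theorem z_inv (d : SympData Q z) : z⁻¹ = z := by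
  rw [inv_eq_iff_mul_eq_one]; exact d.hzz

theorem comm_or (d : SympData Q z) {x y : G} (hx : x ∈ Q) (hy : y ∈ Q) :
    x * y = y * x ∨ x * y = z * (y * x) := by
  rcases d.hk x hx y hy with h | h
  · left
    calc x * y = (x * y * x⁻¹ * y⁻¹) * (y * x) := by group
      _ = y * x := by rw [h, one_mul]
  · right
    calc x * y = (x * y * x⁻¹ * y⁻¹) * (y * x) := by group
      _ = z * (y * x) := by rw [h]

theorem sq_central (d : SympData Q z) {x : G} (hx : x ∈ Q) :
    ∀ y ∈ Q, (x * x) * y = y * (x * x) := by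
  intro y hy
  rcases d.comm_or hx hy with h | h
  · calc (x * x) * y = x * (x * y) := by group
      _ = x * (y * x) := by rw [h]
      _ = (x * y) * x := by group
      _ = (y * x) * x := by rw [h]
      _ = y * (x * x) := by group
  · have hzx : z * x = x * z := d.hzc x hx
    calc (x * x) * y = x * (x * y) := by group
      _ = x * (z * (y * x)) := by rw [h]
      _ = (x * z) * y * x := by group
      _ = (z * x) * y * x := by rw [hzx]
      _ = z * (x * y) * x := by group
      _ = z * (z * (y * x)) * x := by rw [h]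
      _ = (z * z) * (y * (x * x)) := by group
      _ = y * (x * x) := by rw [d.hzz, one_mul]

theorem sq_mem (d : SympData Q z) {x : G} (hx : x ∈ Q) : x * x = 1 ∨ x * x = z :=
  d.hinv (x * x) (Q.mul_mem hx hx) (d.sq_central hx) (d.h4 x hx)

theorem exists_conj_eq (d : SympData Q z) {u : G} (hu : u ∈ Q) (hu1 : u ≠ 1) (huz : u ≠ z)
    (huu : u * u = 1) : ∃ q ∈ Q, q * u * q⁻¹ = z * u := by
  by_contra hcon
  push Not at hcon
  have hc : ∀ q ∈ Q, u * q = q * u := by
    intro q hq
    rcases d.comm_or hq hu with h | h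
    · exact h.symm
    · exfalso
      apply hcon q hq
      calc q * u * q⁻¹ = (q * u) * q⁻¹ := by group
        _ = (z * (u * q)) * q⁻¹ := by rw [h]
        _ = z * u := by group
  rcases d.hinv u hu hc huu with h | h
  · exact hu1 h
  · exact huz h

theorem conj (d : SympData Q z) (g : G) (Q' : Subgroup G)
    (hQ' : ∀ y, y ∈ Q' ↔ g⁻¹ * y * g ∈ Q) : SympData Q' (g * z * g⁻¹) := by
  have hback : ∀ y ∈ Q, g * y * g⁻¹ ∈ Q' := by
    intro y hy
    rw [hQ']
    have e : g⁻¹ * (g * y * g⁻¹) * g = y := by group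
    rw [e]; exact hy
  have hcentral : ∀ c, (∀ q ∈ Q', c * q = q * c) →
      ∀ y ∈ Q, (g⁻¹ * c * g) * y = y * (g⁻¹ * c * g) := by
    intro c hc y hy
    have h2 := hc _ (hback y hy)
    calc (g⁻¹ * c * g) * y = g⁻¹ * (c * (g * y * g⁻¹)) * g := by group
      _ = g⁻¹ * ((g * y * g⁻¹) * c) * g := by rw [h2]
      _ = y * (g⁻¹ * c * g) := by group
  refine ⟨?_, ?_, ?_, ?_, ?_, ?_, ?_, ?_, ?_⟩
  · rw [hQ']
    have e : g⁻¹ * (g * z * g⁻¹) * g = z := by group
    rw [e]; exact d.hzQ
  · intro h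
    apply d.hz1
    calc z = g⁻¹ * (g * z * g⁻¹) * g := by group
      _ = 1 := by rw [h]; group
  · calc g * z * g⁻¹ * (g * z * g⁻¹) = g * (z * z) * g⁻¹ := by group
      _ = 1 := by rw [d.hzz]; group
  · intro q hq
    have h := d.hzc _ ((hQ' q).1 hq)
    calc g * z * g⁻¹ * q = g * (z * (g⁻¹ * q * g)) * g⁻¹ := by group
      _ = g * ((g⁻¹ * q * g) * z) * g⁻¹ := by rw [h]
      _ = q * (g * z * g⁻¹) := by group
  · intro x hx y hy
    have e : x * y * x⁻¹ * y⁻¹ =
        g * ((g⁻¹ * x * g) * (g⁻¹ * y * g) * (g⁻¹ * x * g)⁻¹ * (g⁻¹ * y * g)⁻¹) * g⁻¹ := by group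
    rcases d.hk _ ((hQ' x).1 hx) _ ((hQ' y).1 hy) with h | h
    · left; rw [e, h]; group
    · right; rw [e, h]
  · intro c hc hcc hc2
    have h1 := hcentral c hcc
    have h2 : (g⁻¹ * c * g) * (g⁻¹ * c * g) = 1 := by
      calc (g⁻¹ * c * g) * (g⁻¹ * c * g) = g⁻¹ * (c * c) * g := by group
        _ = 1 := by rw [hc2]; group
    rcases d.hinv _ ((hQ' c).1 hc) h1 h2 with h | h
    · left
      calc c = g * (g⁻¹ * c * g) * g⁻¹ := by group
        _ = 1 := by rw [h]; group
    · right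
      calc c = g * (g⁻¹ * c * g) * g⁻¹ := by group
        _ = g * z * g⁻¹ := by rw [h]
  · intro x hx
    have h := d.h4 _ ((hQ' x).1 hx)
    calc (x * x) * (x * x)
        = g * (((g⁻¹ * x * g) * (g⁻¹ * x * g)) * ((g⁻¹ * x * g) * (g⁻¹ * x * g))) * g⁻¹ := by
          group
      _ = 1 := by rw [h]; group
  · intro c hc q hq
    rw [hQ']
    have h1 : (g⁻¹ * c * g) * z = z * (g⁻¹ * c * g) := by
      calc (g⁻¹ * c * g) * z = g⁻¹ * (c * (g * z * g⁻¹)) * g := by group
        _ = g⁻¹ * ((g * z * g⁻¹) * c) * g := by rw [hc]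
        _ = z * (g⁻¹ * c * g) := by group
    have h2 := d.hN _ h1 _ ((hQ' q).1 hq)
    have e : g⁻¹ * (c * q * c⁻¹) * g = (g⁻¹ * c * g) * (g⁻¹ * q * g) * (g⁻¹ * c * g)⁻¹ := by group
    rw [e]; exact h2
  · intro c hc
    exact (hQ' c).2 (d.hC _ (hcentral c hc))

/-- Two elements outside the centralizer of `u` differ by an element of it. -/
theorem coset_mem (d : SympData Q z) {u w w' : G} (hu : u ∈ Q) (hw : w ∈ Q) (hw' : w' ∈ Q)
    (h1 : w * u ≠ u * w) (h2 : w' * u ≠ u * w') : (w⁻¹ * w') * u = u * (w⁻¹ * w') := by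
  have e1 : w * u = z * (u * w) := by
    rcases d.comm_or hw hu with h | h
    · exact absurd h h1
    · exact h
  have e2 : w' * u = z * (u * w') := by
    rcases d.comm_or hw' hu with h | h
    · exact absurd h h2
    · exact h
  have hzw : z * w⁻¹ = w⁻¹ * z := d.hzc _ (Q.inv_mem hw)
  have e3 : w⁻¹ * u = z * (u * w⁻¹) := by
    calc w⁻¹ * u = (z * z) * (w⁻¹ * u) := by rw [d.hzz, one_mul]
      _ = z * (z * w⁻¹) * u := by group
      _ = z * (w⁻¹ * z) * u := by rw [hzw]
      _ = z * (w⁻¹ * (z * (u * w)) * w⁻¹) := by group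
      _ = z * (w⁻¹ * (w * u) * w⁻¹) := by rw [e1]
      _ = z * (u * w⁻¹) := by group
  calc (w⁻¹ * w') * u = w⁻¹ * (w' * u) := by group
    _ = w⁻¹ * (z * (u * w')) := by rw [e2]
    _ = (w⁻¹ * z) * u * w' := by group
    _ = (z * w⁻¹) * u * w' := by rw [hzw]
    _ = z * (w⁻¹ * u) * w' := by group
    _ = z * (z * (u * w⁻¹)) * w' := by rw [e3]
    _ = (z * z) * (u * (w⁻¹ * w')) := by group
    _ = u * (w⁻¹ * w') := by rw [d.hzz, one_mul]

/-- If `C_Q(u)` is abelian, a noncentral element of it has centralizer inside `C_Q(u)`. -/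
theorem cent_le_of_abelian (d : SympData Q z) {u : G} (hu : u ∈ Q)
    (hD : ∀ a ∈ Q, ∀ b ∈ Q, a * u = u * a → b * u = u * b → a * b = b * a)
    {x y : G} (hx : x ∈ Q) (hxu : x * u = u * x) (hxn : ¬ ∀ q ∈ Q, x * q = q * x)
    (hy : y ∈ Q) (hxy : x * y = y * x) : y * u = u * y := by
  by_contra hyu
  apply hxn
  intro w hw
  by_cases hwu : w * u = u * w
  · exact hD x hx w hw hxu hwu
  · have h1 := d.coset_mem hu hy hw hyu hwu
    have h2 := hD x hx (y⁻¹ * w) (Q.mul_mem (Q.inv_mem hy) hw) hxu h1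
    calc x * w = (x * y) * (y⁻¹ * w) := by group
      _ = (y * x) * (y⁻¹ * w) := by rw [hxy]
      _ = y * (x * (y⁻¹ * w)) := by group
      _ = y * ((y⁻¹ * w) * x) := by rw [h2]
      _ = w * x := by group

/-- If `C_Q(u)` is abelian then `Q` modulo its centre has no two independent commuting
elements. -/
theorem star (d : SympData Q z) {u : G} (hu : u ∈ Q)
    (hD : ∀ a ∈ Q, ∀ b ∈ Q, a * u = u * a → b * u = u * b → a * b = b * a)
    {x y : G} (hx : x ∈ Q) (hy : y ∈ Q) (hxy : x * y = y * x) :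
    (∀ q ∈ Q, x * q = q * x) ∨ (∀ q ∈ Q, y * q = q * y) ∨
      (∀ q ∈ Q, (x * y⁻¹) * q = q * (x * y⁻¹)) := by
  by_cases hxc : ∀ q ∈ Q, x * q = q * x
  · exact Or.inl hxc
  by_cases hyc : ∀ q ∈ Q, y * q = q * y
  · exact Or.inr (Or.inl hyc)
  right; right
  have hyx : y⁻¹ * x = x * y⁻¹ := by
    calc y⁻¹ * x = y⁻¹ * (x * y) * y⁻¹ := by group
      _ = y⁻¹ * (y * x) * y⁻¹ := by rw [hxy]
      _ = x * y⁻¹ := by group
  by_cases hxu : x * u = u * x
  · have hyu : y * u = u * y := d.cent_le_of_abelian hu hD hx hxu hxc hy hxy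
    have key : ∀ t ∈ Q, t * u = u * t → (¬ ∀ q ∈ Q, t * q = q * t) →
        ∀ w ∈ Q, w * u ≠ u * w → t * w = z * (w * t) := by
      intro t ht htu htc w hw hwu
      rcases d.comm_or ht hw with h | h
      · exfalso
        exact hwu (d.cent_le_of_abelian hu hD ht htu htc hw h)
      · exact h
    intro w hw
    by_cases hwu : w * u = u * w
    · have hyi : y⁻¹ * u = u * y⁻¹ := by
        calc y⁻¹ * u = y⁻¹ * (u * y) * y⁻¹ := by group
          _ = y⁻¹ * (y * u) * y⁻¹ := by rw [hyu]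
          _ = u * y⁻¹ := by group
      have hxyu : (x * y⁻¹) * u = u * (x * y⁻¹) := by
        calc (x * y⁻¹) * u = x * (y⁻¹ * u) := by group
          _ = x * (u * y⁻¹) := by rw [hyi]
          _ = (x * u) * y⁻¹ := by group
          _ = (u * x) * y⁻¹ := by rw [hxu]
          _ = u * (x * y⁻¹) := by group
      exact hD _ (Q.mul_mem hx (Q.inv_mem hy)) w hw hxyu hwu
    · have h1 := key x hx hxu hxc w hw hwu
      have h2 := key y hy hyu hyc w hw hwu
      have hzy : z * y⁻¹ = y⁻¹ * z := d.hzc _ (Q.inv_mem hy)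
      have h3 : y⁻¹ * w = z * (w * y⁻¹) := by
        calc y⁻¹ * w = (z * z) * (y⁻¹ * w) := by rw [d.hzz, one_mul]
          _ = z * (z * y⁻¹) * w := by group
          _ = z * (y⁻¹ * z) * w := by rw [hzy]
          _ = z * (y⁻¹ * (z * (w * y)) * y⁻¹) := by group
          _ = z * (y⁻¹ * (y * w) * y⁻¹) := by rw [h2]
          _ = z * (w * y⁻¹) := by group
      have hzx : z * x = x * z := d.hzc x hx
      calc (x * y⁻¹) * w = x * (y⁻¹ * w) := by group
        _ = x * (z * (w * y⁻¹)) := by rw [h3]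
        _ = (x * z) * w * y⁻¹ := by group
        _ = (z * x) * w * y⁻¹ := by rw [hzx]
        _ = z * (x * w) * y⁻¹ := by group
        _ = z * (z * (w * x)) * y⁻¹ := by rw [h1]
        _ = (z * z) * (w * (x * y⁻¹)) := by group
        _ = w * (x * y⁻¹) := by rw [d.hzz, one_mul]
  · have hyu : y * u ≠ u * y := by
      intro hyu
      exact hxu (d.cent_le_of_abelian hu hD hy hyu hyc hx hxy.symm)
    have h1 : (y⁻¹ * x) * u = u * (y⁻¹ * x) := d.coset_mem hu hy hx hyu hxu
    have hκx : (y⁻¹ * x) * x = x * (y⁻¹ * x) := by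
      calc (y⁻¹ * x) * x = (x * y⁻¹) * x := by rw [hyx]
        _ = x * (y⁻¹ * x) := by group
    have hκc : ∀ q ∈ Q, (y⁻¹ * x) * q = q * (y⁻¹ * x) := by
      by_contra hκn
      exact hxu (d.cent_le_of_abelian hu hD (Q.mul_mem (Q.inv_mem hy) hx) h1 hκn hx hκx)
    rw [← hyx]; exact hκc

/-- Symmetry: if the conjugate `u = g z g⁻¹ ≠ z` lies in `Q` then `z` lies in `g Q g⁻¹`. -/
theorem mem_conj (d : SympData Q z) (g : G) (hu : g * z * g⁻¹ ∈ Q)
    (hne : g * z * g⁻¹ ≠ z) (Q' : Subgroup G) (hQ' : ∀ y, y ∈ Q' ↔ g⁻¹ * y * g ∈ Q) :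
    z ∈ Q' := by
  obtain ⟨u, hudef⟩ : ∃ u, u = g * z * g⁻¹ := ⟨_, rfl⟩
  rw [← hudef] at hu hne
  have d' : SympData Q' u := by rw [hudef]; exact d.conj g Q' hQ'
  have hu1 : u ≠ 1 := d'.hz1
  have huu : u * u = 1 := d'.hzz
  have hzu : z * u = u * z := d.hzc u hu
  have hzi : z⁻¹ = z := d.z_inv
  have hui : u⁻¹ = u := d'.z_inv
  have hzz := d.hzz
  have huQ' : u ∈ Q' := d'.hzQ
  obtain ⟨q, hq, hqu⟩ := d.exists_conj_eq hu hu1 hne huu
  have hqz : q * z = z * q := (d.hzc q hq).symm
  by_contra hzQ'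
  -- `Q ∩ Q' ⊆ {1, u}`
  have hE : ∀ e ∈ Q, e ∈ Q' → e = 1 ∨ e = u := by
    intro e he he'
    have h1 : ∀ a ∈ Q, a * u = u * a → e * a = a * e := by
      intro a ha hau
      rcases d.hk e he a ha with h | h
      · calc e * a = (e * a * e⁻¹ * a⁻¹) * (a * e) := by group
          _ = a * e := by rw [h, one_mul]
      · exfalso
        apply hzQ'
        rw [← h]
        have h2 : a * e⁻¹ * a⁻¹ ∈ Q' := d'.hN a hau _ (Q'.inv_mem he')
        have e3 : e * a * e⁻¹ * a⁻¹ = e * (a * e⁻¹ * a⁻¹) := by group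
        rw [e3]; exact Q'.mul_mem he' h2
    have hee : e * e = 1 := by
      rcases d.sq_mem he with h | h
      · exact h
      · exfalso; apply hzQ'; rw [← h]; exact Q'.mul_mem he' he'
    have heu : e * u = u * e := h1 u hu rfl
    by_cases hec : ∀ w ∈ Q, e * w = w * e
    · rcases d.hinv e he hec hee with h | h
      · exact Or.inl h
      · exact absurd (h ▸ he') hzQ'
    · right
      push Not at hec
      obtain ⟨q₀, hq₀, hq₀e⟩ := hec
      have hq₀u : q₀ * u ≠ u * q₀ := fun h => hq₀e (h1 q₀ hq₀ h)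
      have hcen : ∀ w ∈ Q, (e * u) * w = w * (e * u) := by
        intro w hw
        by_cases hwu : w * u = u * w
        · have h2 := h1 w hw hwu
          calc (e * u) * w = e * (u * w) := by group
            _ = e * (w * u) := by rw [hwu]
            _ = (e * w) * u := by group
            _ = (w * e) * u := by rw [h2]
            _ = w * (e * u) := by group
        · have hew : e * w ≠ w * e := by
            intro hew
            apply hq₀e
            have h2 := d.coset_mem hu hq₀ hw hq₀u hwu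
            have h3 := h1 _ (Q.mul_mem (Q.inv_mem hq₀) hw) h2
            have h4 : e * (q₀⁻¹ * w)⁻¹ = (q₀⁻¹ * w)⁻¹ * e := by
              calc e * (q₀⁻¹ * w)⁻¹
                  = (q₀⁻¹ * w)⁻¹ * ((q₀⁻¹ * w) * e) * (q₀⁻¹ * w)⁻¹ := by group
                _ = (q₀⁻¹ * w)⁻¹ * (e * (q₀⁻¹ * w)) * (q₀⁻¹ * w)⁻¹ := by rw [h3]
                _ = (q₀⁻¹ * w)⁻¹ * e := by group
            calc e * q₀ = (e * w) * (q₀⁻¹ * w)⁻¹ := by group
              _ = (w * e) * (q₀⁻¹ * w)⁻¹ := by rw [hew]
              _ = w * (e * (q₀⁻¹ * w)⁻¹) := by group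
              _ = w * ((q₀⁻¹ * w)⁻¹ * e) := by rw [h4]
              _ = q₀ * e := by group
          have e1 : e * w = z * (w * e) := by
            rcases d.comm_or he hw with h | h
            · exact absurd h hew
            · exact h
          have e2 : u * w = z * (w * u) := by
            rcases d.comm_or hu hw with h | h
            · exact absurd h.symm hwu
            · exact h
          have hez : e * z = z * e := (d.hzc e he).symm
          calc (e * u) * w = e * (u * w) := by group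
            _ = e * (z * (w * u)) := by rw [e2]
            _ = (e * z) * w * u := by group
            _ = (z * e) * w * u := by rw [hez]
            _ = z * (e * w) * u := by group
            _ = z * (z * (w * e)) * u := by rw [e1]
            _ = (z * z) * (w * (e * u)) := by group
            _ = w * (e * u) := by rw [hzz, one_mul]
      have hsq : (e * u) * (e * u) = 1 := by
        calc (e * u) * (e * u) = e * (u * e) * u := by group
          _ = e * (e * u) * u := by rw [heu]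
          _ = (e * e) * (u * u) := by group
          _ = 1 := by rw [hee, huu, one_mul]
      rcases d.hinv _ (Q.mul_mem he hu) hcen hsq with h | h
      · calc e = (e * u) * u⁻¹ := by group
          _ = u := by rw [h, one_mul, hui]
      · exfalso; apply hzQ'; rw [← h]; exact Q'.mul_mem he' huQ'
  by_cases hA : ∃ x ∈ Q', x * z * x⁻¹ = z * u
  · -- Case A
    obtain ⟨x, hx, hxz⟩ := hA
    have hxu : x * u = u * x := (d'.hzc x hx).symm
    have hxz' : x⁻¹ * z * x = z * u := by
      have e1 : x⁻¹ * (z * u) * x = z := by rw [← hxz]; group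
      have e2 : x⁻¹ * (z * u) * x = (x⁻¹ * z * x) * u := by
        calc x⁻¹ * (z * u) * x = x⁻¹ * z * (u * x) := by group
          _ = x⁻¹ * z * (x * u) := by rw [hxu]
          _ = (x⁻¹ * z * x) * u := by group
      calc x⁻¹ * z * x = ((x⁻¹ * z * x) * u) * u⁻¹ := by group
        _ = z * u := by rw [← e2, e1, hui]
    obtain ⟨s, hs⟩ : ∃ s, s = x * q * x⁻¹ := ⟨_, rfl⟩
    have hsz : s * z * s⁻¹ = u := by
      have e1 : q * (z * u) * q⁻¹ = u := by
        calc q * (z * u) * q⁻¹ = (q * z) * (u * q⁻¹) := by group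
          _ = (z * q) * (u * q⁻¹) := by rw [hqz]
          _ = z * (q * u * q⁻¹) := by group
          _ = z * (z * u) := by rw [hqu]
          _ = (z * z) * u := by group
          _ = u := by rw [hzz, one_mul]
      calc s * z * s⁻¹ = x * (q * (x⁻¹ * z * x) * q⁻¹) * x⁻¹ := by rw [hs]; group
        _ = x * (q * (z * u) * q⁻¹) * x⁻¹ := by rw [hxz']
        _ = x * u * x⁻¹ := by rw [e1]
        _ = (u * x) * x⁻¹ := by rw [hxu]
        _ = u := by group
    have hsu : s * u * s⁻¹ = z := by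
      have e0 : x⁻¹ * u * x = u := by
        calc x⁻¹ * u * x = x⁻¹ * (u * x) := by group
          _ = x⁻¹ * (x * u) := by rw [hxu]
          _ = u := by group
      calc s * u * s⁻¹ = x * (q * (x⁻¹ * u * x) * q⁻¹) * x⁻¹ := by rw [hs]; group
        _ = x * (q * u * q⁻¹) * x⁻¹ := by rw [e0]
        _ = x * (z * u) * x⁻¹ := by rw [hqu]
        _ = (x * z * x⁻¹) * (x * u) * x⁻¹ := by group
        _ = (z * u) * (u * x) * x⁻¹ := by rw [hxz, hxu]
        _ = z * (u * u) := by group
        _ = z := by rw [huu, mul_one]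
    have hh : (g⁻¹ * s) * z = z * (g⁻¹ * s) := by
      have e1 : (g⁻¹ * s) * z * (g⁻¹ * s)⁻¹ = z := by
        calc (g⁻¹ * s) * z * (g⁻¹ * s)⁻¹ = g⁻¹ * (s * z * s⁻¹) * g := by group
          _ = g⁻¹ * u * g := by rw [hsz]
          _ = z := by rw [hudef]; group
      calc (g⁻¹ * s) * z = ((g⁻¹ * s) * z * (g⁻¹ * s)⁻¹) * (g⁻¹ * s) := by group
        _ = z * (g⁻¹ * s) := by rw [e1]
    apply hzQ'
    rw [hQ', ← hsu]
    have e2 : g⁻¹ * (s * u * s⁻¹) * g = (g⁻¹ * s) * u * (g⁻¹ * s)⁻¹ := by group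
    rw [e2]
    exact d.hN _ hh u hu
  · -- Case B
    push Not at hA
    have hzQ'norm : ∀ x ∈ Q', z * x * z⁻¹ ∈ Q' := fun x hx => d'.hN z hzu x hx
    have hB0 : ∀ x ∈ Q', z * x * z⁻¹ * x⁻¹ ≠ u := by
      intro x hx h
      apply hA x hx
      have e1 : x * z⁻¹ * x⁻¹ = z⁻¹ * u := by
        calc x * z⁻¹ * x⁻¹ = z⁻¹ * (z * x * z⁻¹ * x⁻¹) := by group
          _ = z⁻¹ * u := by rw [h]
      rw [hzi] at e1
      exact e1
    have hB1 : ∀ x ∈ Q', (z * x * z⁻¹ * x⁻¹) * (z * x * z⁻¹ * x⁻¹) = 1 ∧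
        (z * x * z⁻¹ * x⁻¹) * z = z * (z * x * z⁻¹ * x⁻¹) := by
      intro x hx
      obtain ⟨y, hy⟩ : ∃ y, y = z * x * z⁻¹ * x⁻¹ := ⟨_, rfl⟩
      rw [← hy]
      have hyQ' : y ∈ Q' := by rw [hy]; exact Q'.mul_mem (hzQ'norm x hx) (Q'.inv_mem hx)
      have e1 : z * y * z⁻¹ = y⁻¹ := by
        calc z * y * z⁻¹ = (z * z) * (x * z⁻¹ * x⁻¹ * z⁻¹) := by rw [hy]; group
          _ = x * z⁻¹ * x⁻¹ * z⁻¹ := by rw [hzz, one_mul]
          _ = x * z * x⁻¹ * z⁻¹ := by rw [hzi]
          _ = y⁻¹ := by rw [hy]; group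
      have e2 : z * y * z⁻¹ * y⁻¹ = (y * y)⁻¹ := by rw [e1]; group
      have e3 : y * y = 1 := by
        rcases d'.sq_mem hyQ' with h | h
        · exact h
        · exfalso
          apply hB0 y hyQ'
          rw [e2, h, hui]
      refine ⟨e3, ?_⟩
      rw [e3, inv_one] at e2
      calc y * z = (z * y * z⁻¹ * y⁻¹)⁻¹ * (z * y) := by group
        _ = z * y := by rw [e2]; group
    -- elements of `C_Q(u)` normalize `Q'`
    have hDn : ∀ a ∈ Q, a * u = u * a → ∀ x ∈ Q', a * x * a⁻¹ ∈ Q' :=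
      fun a _ hau x hx => d'.hN a hau x hx
    have hB3 : ∀ a ∈ Q, a * u = u * a → ∀ y ∈ Q', y * z = z * y → ModU u (a * y * a⁻¹) y := by
      intro a ha hau y hy hyz
      have h1 : a * y * a⁻¹ * y⁻¹ ∈ Q' := Q'.mul_mem (hDn a ha hau y hy) (Q'.inv_mem hy)
      have h2 : a * y * a⁻¹ * y⁻¹ ∈ Q := by
        have e1 : a * y * a⁻¹ * y⁻¹ = a * (y * a⁻¹ * y⁻¹) := by group
        rw [e1]
        exact Q.mul_mem ha (d.hN y hyz _ (Q.inv_mem ha))
      rcases hE _ h2 h1 with h | h
      · left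
        calc a * y * a⁻¹ = (a * y * a⁻¹ * y⁻¹) * y := by group
          _ = y := by rw [h, one_mul]
      · right
        calc a * y * a⁻¹ = (a * y * a⁻¹ * y⁻¹) * y := by group
          _ = u * y := by rw [h]
    by_cases hDab : ∀ a ∈ Q, ∀ b ∈ Q, a * u = u * a → b * u = u * b → a * b = b * a
    · -- `C_Q(u)` abelian
      obtain ⟨u', hu'⟩ : ∃ u', u' = g * u * g⁻¹ := ⟨_, rfl⟩
      have hu'Q' : u' ∈ Q' := by
        rw [hQ', hu']
        have e : g⁻¹ * (g * u * g⁻¹) * g = u := by group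
        rw [e]; exact hu
      have hD' : ∀ a ∈ Q', ∀ b ∈ Q', a * u' = u' * a → b * u' = u' * b → a * b = b * a := by
        intro a ha b hb hau hbu
        have tr : ∀ c, c * u' = u' * c → (g⁻¹ * c * g) * u = u * (g⁻¹ * c * g) := by
          intro c hc
          rw [hu'] at hc
          calc (g⁻¹ * c * g) * u = g⁻¹ * (c * (g * u * g⁻¹)) * g := by group
            _ = g⁻¹ * ((g * u * g⁻¹) * c) * g := by rw [hc]
            _ = u * (g⁻¹ * c * g) := by group
        have h := hDab _ ((hQ' a).1 ha) _ ((hQ' b).1 hb) (tr a hau) (tr b hbu)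
        calc a * b = g * ((g⁻¹ * a * g) * (g⁻¹ * b * g)) * g⁻¹ := by group
          _ = g * ((g⁻¹ * b * g) * (g⁻¹ * a * g)) * g⁻¹ := by rw [h]
          _ = b * a := by group
      have hcent : ∀ x ∈ Q', z * x = x * z := by
        intro x hx
        obtain ⟨y, hy⟩ : ∃ y, y = z * x * z⁻¹ * x⁻¹ := ⟨_, rfl⟩
        have hyQ' : y ∈ Q' := by rw [hy]; exact Q'.mul_mem (hzQ'norm x hx) (Q'.inv_mem hx)
        have hyy : y * y = 1 := by rw [hy]; exact (hB1 x hx).1
        have hyu : y ≠ u := by rw [hy]; exact hB0 x hx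
        have hzx : z * x * z⁻¹ = y * x := by rw [hy]; group
        have hxy : x * y = y * x := by
          rcases d'.comm_or hx hyQ' with h | h
          · exact h
          · exfalso
            apply hB0 (x * x) (Q'.mul_mem hx hx)
            have huy : u * y = y * u := d'.hzc y hyQ'
            calc z * (x * x) * z⁻¹ * (x * x)⁻¹
                = (z * x * z⁻¹) * (z * x * z⁻¹) * (x * x)⁻¹ := by group
              _ = (y * x) * (y * x) * (x * x)⁻¹ := by rw [hzx]
              _ = y * (x * y) * x * (x * x)⁻¹ := by group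
              _ = y * (u * (y * x)) * x * (x * x)⁻¹ := by rw [h]
              _ = (y * u) * y := by group
              _ = (u * y) * y := by rw [huy]
              _ = u * (y * y) := by group
              _ = u := by rw [hyy, mul_one]
        have hcy : (∀ r ∈ Q', y * r = r * y) → y = 1 := by
          intro hc
          rcases d'.hinv y hyQ' hc hyy with h | h
          · exact h
          · exact absurd h hyu
        have hcx : (∀ r ∈ Q', x * r = r * x) → y = 1 := by
          intro hc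
          apply hcy
          intro r hr
          have hr' : z⁻¹ * r * z ∈ Q' := by
            have h0 := hzQ'norm r hr
            rw [hzi] at h0 ⊢
            exact h0
          have h1 := hc _ hr'
          have h2 : (z * x * z⁻¹) * r = r * (z * x * z⁻¹) := by
            calc (z * x * z⁻¹) * r = z * (x * (z⁻¹ * r * z)) * z⁻¹ := by group
              _ = z * ((z⁻¹ * r * z) * x) * z⁻¹ := by rw [h1]
              _ = r * (z * x * z⁻¹) := by group
          have h3 := hc r hr
          have hxi : x⁻¹ * r = r * x⁻¹ := by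
            calc x⁻¹ * r = x⁻¹ * (r * x) * x⁻¹ := by group
              _ = x⁻¹ * (x * r) * x⁻¹ := by rw [h3]
              _ = r * x⁻¹ := by group
          calc y * r = (z * x * z⁻¹) * (x⁻¹ * r) := by rw [hy]; group
            _ = (z * x * z⁻¹) * (r * x⁻¹) := by rw [hxi]
            _ = ((z * x * z⁻¹) * r) * x⁻¹ := by group
            _ = (r * (z * x * z⁻¹)) * x⁻¹ := by rw [h2]
            _ = r * y := by rw [hy]; group
        have hy1 : y = 1 := by
          rcases d'.star hu'Q' hD' hx hyQ' hxy with h | h | h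
          · exact hcx h
          · exact hcy h
          · apply hcx
            have hyi : y⁻¹ = y := by rw [inv_eq_iff_mul_eq_one]; exact hyy
            have hκ : z * x * z⁻¹ = x * y⁻¹ := by rw [hzx, hyi, hxy]
            intro r hr
            have hr' : z * r * z⁻¹ ∈ Q' := hzQ'norm r hr
            have h1 := h _ hr'
            rw [← hκ] at h1
            calc x * r = z⁻¹ * ((z * x * z⁻¹) * (z * r * z⁻¹)) * z := by group
              _ = z⁻¹ * ((z * r * z⁻¹) * (z * x * z⁻¹)) * z := by rw [h1]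
              _ = r * x := by group
        calc z * x = (z * x * z⁻¹ * x⁻¹) * (x * z) := by group
          _ = x * z := by rw [← hy, hy1, one_mul]
      exact hzQ' (d'.hC z hcent)
    · -- `C_Q(u)` nonabelian
      push Not at hDab
      obtain ⟨a, ha, b, hb, hau, hbu, hab'⟩ := hDab
      have hab : a * b * a⁻¹ * b⁻¹ = z := by
        rcases d.hk a ha b hb with h | h
        · exfalso; apply hab'
          calc a * b = (a * b * a⁻¹ * b⁻¹) * (b * a) := by group
            _ = b * a := by rw [h, one_mul]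
        · exact h
      have hB2 : ∀ a ∈ Q, a * u = u * a → ∀ x ∈ Q',
          (a * x * a⁻¹ * x⁻¹) * z = z * (a * x * a⁻¹ * x⁻¹) := by
        intro a ha hau x hx
        have haz : a * z = z * a := (d.hzc a ha).symm
        obtain ⟨y, hy⟩ : ∃ y, y = z * x * z⁻¹ * x⁻¹ := ⟨_, rfl⟩
        have hyQ' : y ∈ Q' := by rw [hy]; exact Q'.mul_mem (hzQ'norm x hx) (Q'.inv_mem hx)
        have hyz : y * z = z * y := by rw [hy]; exact (hB1 x hx).2
        obtain ⟨c, hc⟩ : ∃ c, c = a * x * a⁻¹ * x⁻¹ := ⟨_, rfl⟩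
        rw [← hc]
        have hcQ' : c ∈ Q' := by rw [hc]; exact Q'.mul_mem (hDn a ha hau x hx) (Q'.inv_mem hx)
        have hzaz : z * a * z⁻¹ = a := by
          calc z * a * z⁻¹ = (z * a) * z⁻¹ := by group
            _ = (a * z) * z⁻¹ := by rw [haz]
            _ = a := by group
        have hzxz : z * x * z⁻¹ = y * x := by rw [hy]; group
        have e1 : z * c * z⁻¹ * c⁻¹ =
            (a * y * a⁻¹ * y⁻¹) * (y * c * y⁻¹ * c⁻¹) := by
          have e2 : z * c * z⁻¹ =
              (z * a * z⁻¹) * (z * x * z⁻¹) * (z * a * z⁻¹)⁻¹ * (z * x * z⁻¹)⁻¹ := by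
            rw [hc]; group
          rw [e2, hzaz, hzxz, hc]; group
        have h3 : z * c * z⁻¹ * c⁻¹ = 1 := by
          have hne' := hB0 c hcQ'
          rw [e1] at hne' ⊢
          have hm := hB3 a ha hau y hyQ' hyz
          have hf := d'.hk y hyQ' c hcQ'
          have he : a * y * a⁻¹ * y⁻¹ = 1 ∨ a * y * a⁻¹ * y⁻¹ = u := by
            rcases hm with h | h
            · left; rw [h]; group
            · right; rw [h]; group
          rcases he with he | he <;> rcases hf with hf | hf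
          · rw [he, hf, one_mul]
          · rw [he, hf, one_mul] at hne'; exact absurd rfl hne'
          · rw [he, hf, mul_one] at hne'; exact absurd rfl hne'
          · rw [he, hf, huu]
        calc c * z = (z * c * z⁻¹ * c⁻¹)⁻¹ * (z * c) := by group
          _ = z * c := by rw [h3]; group
      have hkey : ∀ a ∈ Q, a * u = u * a → ∀ b ∈ Q, b * u = u * b → ∀ x ∈ Q',
          ModU u ((a * b) * x * (a * b)⁻¹) ((b * a) * x * (b * a)⁻¹) := by
        intro a ha hau b hb hbu x hx
        obtain ⟨c₁, hc₁⟩ : ∃ c, c = b * x * b⁻¹ * x⁻¹ := ⟨_, rfl⟩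
        obtain ⟨c₂, hc₂⟩ : ∃ c, c = a * x * a⁻¹ * x⁻¹ := ⟨_, rfl⟩
        have hc₁Q' : c₁ ∈ Q' := by
          rw [hc₁]; exact Q'.mul_mem (hDn b hb hbu x hx) (Q'.inv_mem hx)
        have hc₂Q' : c₂ ∈ Q' := by
          rw [hc₂]; exact Q'.mul_mem (hDn a ha hau x hx) (Q'.inv_mem hx)
        have hc₁z : c₁ * z = z * c₁ := by rw [hc₁]; exact hB2 b hb hbu x hx
        have hc₂z : c₂ * z = z * c₂ := by rw [hc₂]; exact hB2 a ha hau x hx
        have e1 : (a * b) * x * (a * b)⁻¹ = (a * c₁ * a⁻¹) * (c₂ * x) := by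
          rw [hc₁, hc₂]; group
        have e2 : (b * a) * x * (b * a)⁻¹ = (b * c₂ * b⁻¹) * (c₁ * x) := by
          rw [hc₁, hc₂]; group
        rw [e1, e2]
        have m1 : ModU u ((a * c₁ * a⁻¹) * (c₂ * x)) (c₁ * (c₂ * x)) :=
          (hB3 a ha hau c₁ hc₁Q' hc₁z).mul_right _
        have m2 : ModU u (c₁ * (c₂ * x)) (c₂ * (c₁ * x)) := by
          have h0 : ModU u (c₁ * c₂) (c₂ * c₁) := d'.comm_or hc₁Q' hc₂Q'
          have h00 := h0.mul_right x
          rw [mul_assoc, mul_assoc] at h00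
          exact h00
        have m3 : ModU u (c₂ * (c₁ * x)) ((b * c₂ * b⁻¹) * (c₁ * x)) :=
          ((hB3 b hb hbu c₂ hc₂Q' hc₂z).symm huu).mul_right _
        exact (m1.trans huu m2).trans huu m3
      have hcent : ∀ x ∈ Q', z * x = x * z := by
        intro x hx
        have hai : a⁻¹ * u = u * a⁻¹ := by
          calc a⁻¹ * u = a⁻¹ * (u * a) * a⁻¹ := by group
            _ = a⁻¹ * (a * u) * a⁻¹ := by rw [hau]
            _ = u * a⁻¹ := by group
        have hbi : b⁻¹ * u = u * b⁻¹ := by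
          calc b⁻¹ * u = b⁻¹ * (u * b) * b⁻¹ := by group
            _ = b⁻¹ * (b * u) * b⁻¹ := by rw [hbu]
            _ = u * b⁻¹ := by group
        have hx' : (b * a)⁻¹ * x * (b * a) ∈ Q' := by
          have h1 := hDn b⁻¹ (Q.inv_mem hb) hbi x hx
          have h2 := hDn a⁻¹ (Q.inv_mem ha) hai _ h1
          have e : (b * a)⁻¹ * x * (b * a) = a⁻¹ * (b⁻¹ * x * b⁻¹⁻¹) * a⁻¹⁻¹ := by group
          rw [e]; exact h2
        have hm := hkey a ha hau b hb hbu _ hx'
        have e1 : (a * b) * ((b * a)⁻¹ * x * (b * a)) * (a * b)⁻¹ = z * x * z⁻¹ := by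
          rw [← hab]; group
        have e2 : (b * a) * ((b * a)⁻¹ * x * (b * a)) * (b * a)⁻¹ = x := by group
        rw [e1, e2] at hm
        rcases hm with h | h
        · calc z * x = (z * x * z⁻¹) * z := by group
            _ = x * z := by rw [h]
        · exfalso
          apply hB0 x hx
          rw [h]; group
      exact hzQ' (d'.hC z hcent)

end SympData

end Cfsg.Agent.Lib.Helper30
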