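import Mathlib
import Cfsg.Prelude.Def_ClassificationK
import Cfsg.Agent.Lib.Helper30.Symp1
import Cfsg.Agent.Lib.Helper30.Symp2
import Cfsg.Agent.Lib.Helper30.LargeExtra12

/-!
The generalized Fitting subgroup of an involution centralizer, when of symplectic type and
exponent dividing 4: the data `SympData`, and the action of `⟨Q, Q^g⟩` on `⟨z, z^g⟩`.
-/

set_option autoImplicit false

namespace Cfsg.Agent.Lib.Helper30

variable {G : Type*} [Group G]

theorem sympData_of_fstar_map [Finite G] (z : G) (hz : orderOf z = 2)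
    (C : Subgroup G) (hC : C = Subgroup.centralizer ({z} : Set G)) (Q : Subgroup G)
    (hF : (Cfsg.generalizedFittingSubgroup ↥C).map C.subtype = Q)
    (hQ : Cfsg.IsOfSymplecticType ↥(Cfsg.generalizedFittingSubgroup ↥C))
    (h4 : ∀ q ∈ Q, q ^ 4 = 1) : SympData Q z := by
  have hCmem : ∀ c : G, c ∈ C ↔ c * z = z * c := by intro c; rw [hC]; exact mem_cent_sing
  have hzz : z * z = 1 := by
    have h := pow_orderOf_eq_one z
    rw [hz, pow_two] at h
    exact h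
  have hz1 : z ≠ 1 := by
    intro h
    rw [h, orderOf_one] at hz
    norm_num at hz
  have hzC : z ∈ C := (hCmem z).2 rfl
  obtain ⟨F, hFdef⟩ : ∃ F : Subgroup ↥C, F = Cfsg.generalizedFittingSubgroup ↥C := ⟨_, rfl⟩
  rw [← hFdef] at hF hQ
  have hFn : F.Normal := by
    rw [hFdef]; exact Cfsg.Agent.Lib.Helper29.generalizedFittingSubgroup_normal ↥C
  have hB : Subgroup.centralizer (F : Set ↥C) ≤ F := by
    rw [hFdef]; exact centralizer_generalizedFittingSubgroup_le ↥C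
  have hQmem : ∀ x : G, x ∈ Q ↔ ∃ hx : x ∈ C, (⟨x, hx⟩ : ↥C) ∈ F := by
    intro x
    rw [← hF]
    constructor
    · rintro ⟨y, hy, rfl⟩
      exact ⟨y.2, hy⟩
    · rintro ⟨hx, hxQ⟩
      exact ⟨⟨x, hx⟩, hxQ, rfl⟩
  have hzF : (⟨z, hzC⟩ : ↥C) ∈ F := by
    apply hB
    rw [Subgroup.mem_centralizer_iff]
    intro f _
    apply Subtype.ext
    exact (hCmem (f : G)).1 f.2
  have hzQ : z ∈ Q := (hQmem z).2 ⟨hzC, hzF⟩
  have hQC : Q ≤ C := fun x hx => ((hQmem x).1 hx).1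
  have hzc : ∀ q ∈ Q, z * q = q * z := fun q hq => ((hCmem q).1 (hQC hq)).symm
  have hFQ : ∀ x : ↥F, ((x : ↥C) : G) ∈ Q := fun x => (hQmem _).2 ⟨(x : ↥C).2, x.2⟩
  obtain ⟨ζ, hζ⟩ : ∃ ζ : ↥F, ζ = ⟨⟨z, hzC⟩, hzF⟩ := ⟨_, rfl⟩
  have hζv : ((ζ : ↥C) : G) = z := by rw [hζ]
  have hζc : ∀ x : ↥F, ζ * x = x * ζ := by
    intro x
    apply Subtype.ext; apply Subtype.ext
    show ((ζ : ↥C) : G) * ((x : ↥C) : G) = ((x : ↥C) : G) * ((ζ : ↥C) : G)
    rw [hζv]
    exact hzc _ (hFQ x)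
  have hζ1 : ζ ≠ 1 := by
    intro h
    apply hz1
    rw [← hζv, h]; rfl
  have hζζ : ζ * ζ = 1 := by
    apply Subtype.ext; apply Subtype.ext
    show ((ζ : ↥C) : G) * ((ζ : ↥C) : G) = 1
    rw [hζv]; exact hzz
  have h4F : ∀ x : ↥F, x ^ 4 = 1 := by
    intro x
    have h := h4 _ (hFQ x)
    apply Subtype.ext; apply Subtype.ext
    rw [Subgroup.coe_pow, Subgroup.coe_pow]
    exact h
  have hcommF := symp_comm hQ h4F ζ hζc hζ1 hζζ
  have hinvF := symp_center_inv hQ ζ hζc hζ1 hζζ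
  refine ⟨hzQ, hz1, hzz, hzc, ?_, ?_, ?_, ?_, ?_⟩
  · intro x hx y hy
    obtain ⟨hxC, hxF⟩ := (hQmem x).1 hx
    obtain ⟨hyC, hyF⟩ := (hQmem y).1 hy
    rcases hcommF ⟨⟨x, hxC⟩, hxF⟩ ⟨⟨y, hyC⟩, hyF⟩ with h | h
    · left
      exact congrArg (fun w : ↥F => ((w : ↥C) : G)) h
    · right
      have h' := congrArg (fun w : ↥F => ((w : ↥C) : G)) h
      exact h'.trans hζv
  · intro c hc hcc hc2
    obtain ⟨hcC, hcF⟩ := (hQmem c).1 hc
    have h1 : ∀ x : ↥F, (⟨⟨c, hcC⟩, hcF⟩ : ↥F) * x = x * ⟨⟨c, hcC⟩, hcF⟩ := by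
      intro x
      apply Subtype.ext; apply Subtype.ext
      exact hcc _ (hFQ x)
    have h2 : (⟨⟨c, hcC⟩, hcF⟩ : ↥F) * ⟨⟨c, hcC⟩, hcF⟩ = 1 := by
      apply Subtype.ext; apply Subtype.ext
      exact hc2
    rcases hinvF _ h1 h2 with h | h
    · left
      exact congrArg (fun w : ↥F => ((w : ↥C) : G)) h
    · right
      have h' := congrArg (fun w : ↥F => ((w : ↥C) : G)) h
      exact h'.trans hζv
  · intro x hx
    have h := h4 x hx
    rw [show (4 : ℕ) = 2 + 2 from rfl, pow_add, pow_two] at h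
    exact h
  · intro c hc q hq
    obtain ⟨hqC, hqF⟩ := (hQmem q).1 hq
    have hcC : c ∈ C := (hCmem c).2 hc
    rw [hQmem]
    exact ⟨C.mul_mem (C.mul_mem hcC hqC) (C.inv_mem hcC), hFn.conj_mem ⟨q, hqC⟩ hqF ⟨c, hcC⟩⟩
  · intro c hc
    have hcC : c ∈ C := (hCmem c).2 (hc z hzQ)
    have h1 : (⟨c, hcC⟩ : ↥C) ∈ Subgroup.centralizer (F : Set ↥C) := by
      rw [Subgroup.mem_centralizer_iff]
      intro f hf
      apply Subtype.ext
      exact (hc (f : G) ((hQmem _).2 ⟨f.2, hf⟩)).symm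
    exact (hQmem c).2 ⟨hcC, hB h1⟩

/-- The subgroup generated by `Q` and `g Q g⁻¹` induces the full automorphism group of the
four-group `⟨z, g z g⁻¹⟩`. -/
theorem SympData.four_action {Q : Subgroup G} {z : G} (d : SympData Q z) (g : G)
    (hin : g * z * g⁻¹ ∈ Q) (hne : g * z * g⁻¹ ≠ z) :
    z ∈ Q.map (MulAut.conj g).toMonoidHom ∧
      ∀ u ∈ Subgroup.closure ({z, g * z * g⁻¹} : Set G),
        ∀ v ∈ Subgroup.closure ({z, g * z * g⁻¹} : Set G), u ≠ 1 → v ≠ 1 → u ≠ v →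
          ∃ x ∈ Q ⊔ Q.map (MulAut.conj g).toMonoidHom,
            x * z * x⁻¹ = u ∧ x * (g * z * g⁻¹) * x⁻¹ = v := by
  obtain ⟨Q', hQ'def⟩ : ∃ Q' : Subgroup G, Q' = Q.map (MulAut.conj g).toMonoidHom := ⟨_, rfl⟩
  rw [← hQ'def]
  have hQ' : ∀ y, y ∈ Q' ↔ g⁻¹ * y * g ∈ Q := fun y => by rw [hQ'def]; exact mem_map_conj
  have hzQ' : z ∈ Q' := d.mem_conj g hin hne Q' hQ'
  have d' : SympData Q' (g * z * g⁻¹) := d.conj g Q' hQ'
  obtain ⟨w, hw⟩ : ∃ w, w = g * z * g⁻¹ := ⟨_, rfl⟩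
  rw [← hw] at hin hne d' ⊢
  refine ⟨hzQ', ?_⟩
  have hzz := d.hzz
  have hww : w * w = 1 := d'.hzz
  have hw1 : w ≠ 1 := d'.hz1
  have hzw : z * w = w * z := d.hzc w hin
  obtain ⟨q, hq, hqw⟩ := d.exists_conj_eq hin hw1 hne hww
  obtain ⟨r, hr, hrz0⟩ := d'.exists_conj_eq hzQ' d.hz1 (fun h => hne h.symm) hzz
  have hrz : r * z * r⁻¹ = z * w := by rw [hrz0, hzw]
  have hqz : q * z * q⁻¹ = z := by
    have h := d.hzc q hq
    calc q * z * q⁻¹ = (q * z) * q⁻¹ := by group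
      _ = (z * q) * q⁻¹ := by rw [h]
      _ = z := by group
  have hrw : r * w * r⁻¹ = w := by
    have h := d'.hzc r hr
    calc r * w * r⁻¹ = (r * w) * r⁻¹ := by group
      _ = (w * r) * r⁻¹ := by rw [h]
      _ = w := by group
  have hqzw : q * (z * w) * q⁻¹ = w := by
    calc q * (z * w) * q⁻¹ = (q * z * q⁻¹) * (q * w * q⁻¹) := by group
      _ = z * (z * w) := by rw [hqz, hqw]
      _ = (z * z) * w := by group
      _ = w := by rw [hzz, one_mul]
  have hrzw : r * (z * w) * r⁻¹ = z := by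
    calc r * (z * w) * r⁻¹ = (r * z * r⁻¹) * (r * w * r⁻¹) := by group
      _ = (z * w) * w := by rw [hrz, hrw]
      _ = z * (w * w) := by group
      _ = z := by rw [hww, mul_one]
  have hqS : q ∈ Q ⊔ Q' := Subgroup.mem_sup_left hq
  have hrS : r ∈ Q ⊔ Q' := Subgroup.mem_sup_right hr
  have hcl : Subgroup.closure ({z, w} : Set G) ≤ fourGroup z w hzz hww hzw := by
    rw [Subgroup.closure_le]
    intro y hy
    rcases hy with h | h
    · rw [h]; exact Or.inr (Or.inl rfl)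
    · rw [Set.mem_singleton_iff] at h
      rw [h]; exact Or.inr (Or.inr (Or.inl rfl))
  have hzwne : z * w ≠ z := by
    intro h
    apply hw1
    calc w = z⁻¹ * (z * w) := by group
      _ = 1 := by rw [h]; group
  have hzwne' : z * w ≠ w := by
    intro h
    apply d.hz1
    calc z = (z * w) * w⁻¹ := by group
      _ = 1 := by rw [h]; group
  intro u hu v hv hu1 hv1 huv
  have hu' : u = 1 ∨ u = z ∨ u = w ∨ u = z * w := hcl hu
  have hv' : v = 1 ∨ v = z ∨ v = w ∨ v = z * w := hcl hv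
  rcases hu' with h | h | h | h
  · exact absurd h hu1
  · rcases hv' with h' | h' | h' | h'
    · exact absurd h' hv1
    · exact absurd (h.trans h'.symm) huv
    · exact ⟨1, Subgroup.one_mem _, by rw [h]; group, by rw [h']; group⟩
    · exact ⟨q, hqS, by rw [h]; exact hqz, by rw [h']; exact hqw⟩
  · rcases hv' with h' | h' | h' | h'
    · exact absurd h' hv1
    · refine ⟨r * q * r, Subgroup.mul_mem _ (Subgroup.mul_mem _ hrS hqS) hrS, ?_, ?_⟩
      · rw [h]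
        calc (r * q * r) * z * (r * q * r)⁻¹ = r * (q * (r * z * r⁻¹) * q⁻¹) * r⁻¹ := by group
          _ = r * w * r⁻¹ := by rw [hrz, hqzw]
          _ = w := hrw
      · rw [h']
        calc (r * q * r) * w * (r * q * r)⁻¹ = r * (q * (r * w * r⁻¹) * q⁻¹) * r⁻¹ := by group
          _ = r * (z * w) * r⁻¹ := by rw [hrw, hqw]
          _ = z := hrzw
    · exact absurd (h.trans h'.symm) huv
    · refine ⟨q * r, Subgroup.mul_mem _ hqS hrS, ?_, ?_⟩
      · rw [h]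
        calc (q * r) * z * (q * r)⁻¹ = q * (r * z * r⁻¹) * q⁻¹ := by group
          _ = w := by rw [hrz, hqzw]
      · rw [h']
        calc (q * r) * w * (q * r)⁻¹ = q * (r * w * r⁻¹) * q⁻¹ := by group
          _ = z * w := by rw [hrw, hqw]
  · rcases hv' with h' | h' | h' | h'
    · exact absurd h' hv1
    · refine ⟨r * q, Subgroup.mul_mem _ hrS hqS, ?_, ?_⟩
      · rw [h]
        calc (r * q) * z * (r * q)⁻¹ = r * (q * z * q⁻¹) * r⁻¹ := by group
          _ = z * w := by rw [hqz, hrz]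
      · rw [h']
        calc (r * q) * w * (r * q)⁻¹ = r * (q * w * q⁻¹) * r⁻¹ := by group
          _ = z := by rw [hqw, hrzw]
    · exact ⟨r, hrS, by rw [h]; exact hrz, by rw [h']; exact hrw⟩
    · exact absurd (h.trans h'.symm) huv

end Cfsg.Agent.Lib.Helper30
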