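import Mathlib

set_option autoImplicit false

namespace Cfsg.Agent.Lib.Helper30

variable {G : Type*} [Group G]

/-- If `f x` and `x` differ by a fixed element and `x ^ 2` is fixed, then `x` is fixed. -/
theorem twoAut_key (B : Subgroup G) (f : MulAut G) (hfB : ∀ b ∈ B, f b ∈ B)
    (hcomm : ∀ x ∈ B, ∀ y ∈ B, x * y = y * x)
    (hC : ∀ b ∈ B, f (f b) = b → f b = b)
    (x : G) (hx : x ∈ B) (h1 : f (x ^ 2) = x ^ 2) (h2 : f (f x * x⁻¹) = f x * x⁻¹) : f x = x := by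
  apply hC x hx
  have hy2 : (f x * x⁻¹) ^ 2 = 1 := by
    have hc : Commute (f x) x⁻¹ := hcomm _ (hfB x hx) _ (B.inv_mem hx)
    rw [hc.mul_pow, ← map_pow, h1, inv_pow, mul_inv_cancel]
  have h3 : f x = (f x * x⁻¹) * x := by group
  calc f (f x) = f ((f x * x⁻¹) * x) := by rw [← h3]
    _ = f (f x * x⁻¹) * f x := map_mul _ _ _
    _ = (f x * x⁻¹) * ((f x * x⁻¹) * x) := by rw [h2, ← h3]
    _ = (f x * x⁻¹) ^ 2 * x := by rw [pow_two]; group
    _ = x := by rw [hy2, one_mul]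

theorem twoAut_inv (B : Subgroup G) (f g : MulAut G) (hfB : ∀ b ∈ B, f b ∈ B)
    (hfg : ∀ x, g (f x) = f (g x))
    (hcomm : ∀ x ∈ B, ∀ y ∈ B, x * y = y * x)
    (hC : ∀ b ∈ B, f (f b) = b → f b = b)
    (hg : ∀ a ∈ B, g a = a → f a = a) :
    ∀ (e : ℕ) (x : G), x ∈ B → x ^ 2 ^ e = 1 → g x = x⁻¹ → f x = x := by
  intro e
  induction e with
  | zero =>
    intro x _ h1 _
    rw [pow_zero, pow_one] at h1
    rw [h1, map_one]
  | succ e ih =>
    intro x hx h1 h2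
    have hx2 : f (x ^ 2) = x ^ 2 := by
      apply ih (x ^ 2) (B.pow_mem hx 2)
      · rw [← pow_mul, ← pow_succ']; exact h1
      · rw [map_pow, h2, inv_pow]
    have hww : x ^ 2 ^ e * x ^ 2 ^ e = 1 := by
      rw [← pow_add, ← two_mul, ← pow_succ']; exact h1
    have hw : f (x ^ 2 ^ e) = x ^ 2 ^ e := by
      apply hg _ (B.pow_mem hx _)
      rw [map_pow, h2, inv_pow]
      exact inv_eq_of_mul_eq_one_left hww
    have hfx : f x ∈ B := hfB x hx
    have hc : Commute (f x) x⁻¹ := hcomm _ hfx _ (B.inv_mem hx)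
    have hy : f (f x * x⁻¹) = f x * x⁻¹ := by
      apply ih (f x * x⁻¹) (B.mul_mem hfx (B.inv_mem hx))
      · rw [hc.mul_pow, ← map_pow, hw, inv_pow, mul_inv_cancel]
      · have h5 : g (f x * x⁻¹) = (f x)⁻¹ * x := by
          rw [map_mul, hfg, map_inv, h2, map_inv, inv_inv]
        rw [h5, mul_inv_rev, inv_inv]
        exact hcomm _ (B.inv_mem hfx) _ hx
    exact twoAut_key B f hfB hcomm hC x hx hx2 hy

theorem twoAut_step (B : Subgroup G) (f g : MulAut G) (hfB : ∀ b ∈ B, f b ∈ B)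
    (hgB : ∀ b ∈ B, g b ∈ B)
    (hfg : ∀ x, g (f x) = f (g x))
    (hcomm : ∀ x ∈ B, ∀ y ∈ B, x * y = y * x)
    (h2 : ∀ b ∈ B, ∃ n : ℕ, b ^ 2 ^ n = 1)
    (hC : ∀ b ∈ B, f (f b) = b → f b = b)
    (hg : ∀ a ∈ B, g a = a → f a = a) :
    ∀ a ∈ B, g (g a) = a → f a = a := by
  intro a ha hgg
  have hga : g a ∈ B := hgB a ha
  have hcB : a⁻¹ * g a ∈ B := B.mul_mem (B.inv_mem ha) hga
  have hc : f (a⁻¹ * g a) = a⁻¹ * g a := by
    obtain ⟨n, hn⟩ := h2 _ hcB
    apply twoAut_inv B f g hfB hfg hcomm hC hg n _ hcB hn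
    rw [map_mul, map_inv, hgg, mul_inv_rev, inv_inv]
  have hb : f (a * g a) = a * g a := by
    apply hg _ (B.mul_mem ha hga)
    rw [map_mul, hgg]
    exact hcomm _ hga _ ha
  have ha2 : f (a ^ 2) = a ^ 2 := by
    have h6 : a ^ 2 = (a * g a) * (a⁻¹ * g a)⁻¹ := by rw [pow_two]; group
    rw [h6, map_mul, map_inv, hb, hc]
  have hy : f (f a * a⁻¹) = f a * a⁻¹ := by
    apply hg _ (B.mul_mem (hfB a ha) (B.inv_mem ha))
    have hga' : g a = a * (a⁻¹ * g a) := by group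
    calc g (f a * a⁻¹) = f (g a) * (g a)⁻¹ := by rw [map_mul, hfg, map_inv]
      _ = f (a * (a⁻¹ * g a)) * (g a)⁻¹ := by rw [← hga']
      _ = f a * (a⁻¹ * g a) * (g a)⁻¹ := by rw [map_mul, hc]
      _ = f a * a⁻¹ := by group
  exact twoAut_key B f hfB hcomm hC a ha ha2 hy

/-- An automorphism `f` of 2-power order acting on an abelian 2-subgroup `B`, such that
every element of `B` fixed by `f ∘ f` is fixed by `f`, fixes `B` pointwise. -/
theorem twoAut_main (B : Subgroup G) (f : MulAut G) (hfB : ∀ b ∈ B, f b ∈ B)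
    (hcomm : ∀ x ∈ B, ∀ y ∈ B, x * y = y * x)
    (h2 : ∀ b ∈ B, ∃ n : ℕ, b ^ 2 ^ n = 1)
    (hC : ∀ b ∈ B, f (f b) = b → f b = b)
    (k : ℕ) (hk : ∀ b ∈ B, (f ^ 2 ^ k) b = b) : ∀ b ∈ B, f b = b := by
  have hpowB : ∀ n : ℕ, ∀ b ∈ B, (f ^ n) b ∈ B := by
    intro n
    induction n with
    | zero => intro b hb; simpa using hb
    | succ n ih => intro b hb; rw [pow_succ, MulAut.mul_apply]; exact ih _ (hfB b hb)
  have hP : ∀ j : ℕ, ∀ a ∈ B, (f ^ 2 ^ (j + 1)) a = a → f a = a := by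
    intro j
    induction j with
    | zero =>
      intro a ha h
      apply hC a ha
      have h7 : f ^ 2 ^ (0 + 1) = f * f := by rw [zero_add, pow_one, pow_two]
      rw [h7, MulAut.mul_apply] at h
      exact h
    | succ j ih =>
      intro a ha h
      refine twoAut_step B f (f ^ 2 ^ (j + 1)) hfB (hpowB _) ?_ hcomm h2 hC ih a ha ?_
      · intro x
        have h8 : f ^ 2 ^ (j + 1) * f = f * f ^ 2 ^ (j + 1) := pow_mul_comm' f _
        have h9 := congrArg (fun e : MulAut G => e x) h8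
        simpa [MulAut.mul_apply] using h9
      · rw [← MulAut.mul_apply, ← pow_add, ← two_mul, ← pow_succ']
        exact h
  intro b hb
  cases k with
  | zero => simpa using hk b hb
  | succ k => exact hP k b hb (hk b hb)

end Cfsg.Agent.Lib.Helper30
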